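import Cfsg.Agent.H52.SnDefs

/-!
# S2943 (`Z(T) ∩ W_K ≠ 1` implies `T ≤ N(K)`): statements of the pieces

Route.  With the notation of `SnDefs` (`Q = O₂(L)`, `V = Ω₁(Z(Q))`, `C = C_L(V)`), for `t ∈ T`
the conjugate `K^t` is again a `J(T)`-component in `L`; `W_K = [V, K]`, and `1 ≠ z ∈ Z(T) ∩ W_K`
lies in `W_K ∩ W_{K^t}`.  The images of `K` and `K^t` in `L / C` are commuting subgroups of order
3 whose commutators on `V` have order 4 and meet nontrivially: they are equal (UNIQ).  Then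
`KQ = [KC, J] Q = K^t Q` and `K = ⟨odd elements of KQ⟩ = K^t` (INJ).
-/

set_option autoImplicit false
open Cfsg

namespace Cfsg.Agent.H52.Sn

universe u

/-- The facts about a `J(T)`-component `K ≤ L` inside `X = ↥L` established for S2942
(`T` Sylow, `C = C_X(V)`, `Q = O₂(X)`, `M = J(X)`, `J = J(T)`, `O = O₂(K)`). -/
structure Facts {X : Type u} [Group X] (T C Q M J K O : Subgroup X) : Prop where
  hT : IsPGroup 2 ↥T
  hTi : Odd T.index
  hC : C.Normal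
  hQ : Q.Normal
  hM : M.Normal
  hQ2 : IsPGroup 2 ↥Q
  hQC : Q ≤ C
  hTC : T ⊓ C ≤ Q
  hCT : C ≤ Subgroup.normalizer (T : Set X)
  hJT : J ≤ T
  hJM : J ≤ M
  hcomm : ∀ x ∈ M, ∀ y ∈ M, Odd (orderOf x) → Odd (orderOf y) → x * y * x⁻¹ * y⁻¹ ∈ C
  hKgen : Subgroup.closure {g : X | g ∈ K ∧ Odd (orderOf g)} = K
  hKJ : ⁅K, J⁆ = K
  hOK : O ≤ K
  hO : IsPGroup 2 ↥O
  hO3 : O.relIndex K = 3
  hQK : Q ≤ Subgroup.normalizer (K : Set X)

/-- NC: `K` does not centralize `V` (i.e. `K ≰ C`). -/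
def StNC : Prop := ∀ {X : Type u} [Group X] [Finite X] (T C Q M J K O : Subgroup X),
  Facts T C Q M J K O → ¬ K ≤ C

/-- UNIQ: two subgroups whose images in `X / C_X(V)` are commuting subgroups of order 3, with
commutators on `V` of order 4 meeting nontrivially, have the same image. -/
def StUniq : Prop := ∀ {X : Type u} [Group X] [Finite X] (V K₁ K₂ O₁ O₂ : Subgroup X) [V.Normal],
  IsElementaryAbelian 2 V →
  O₁ ≤ K₁ → O₁ ≤ Subgroup.centralizer (V : Set X) → O₁.relIndex K₁ = 3 →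
  O₂ ≤ K₂ → O₂ ≤ Subgroup.centralizer (V : Set X) → O₂.relIndex K₂ = 3 →
  ⁅K₁, K₂⁆ ≤ Subgroup.centralizer (V : Set X) →
  Nat.card ↥⁅V, K₁⁆ = 4 → Nat.card ↥⁅V, K₂⁆ = 4 → ⁅V, K₁⁆ ⊓ ⁅V, K₂⁆ ≠ ⊥ →
  K₁ ⊔ Subgroup.centralizer (V : Set X) = K₂ ⊔ Subgroup.centralizer (V : Set X)

/-- INJ: a component is determined by its image modulo `C`. -/
def StInj : Prop := ∀ {X : Type u} [Group X] [Finite X] (C Q J K₁ K₂ : Subgroup X),
  C.Normal → Q.Normal → IsPGroup 2 ↥Q → ⁅C, J⁆ ≤ Q →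
  Subgroup.closure {g : X | g ∈ K₁ ∧ Odd (orderOf g)} = K₁ → ⁅K₁, J⁆ = K₁ →
  Q ≤ Subgroup.normalizer (K₁ : Set X) →
  Subgroup.closure {g : X | g ∈ K₂ ∧ Odd (orderOf g)} = K₂ → ⁅K₂, J⁆ = K₂ →
  Q ≤ Subgroup.normalizer (K₂ : Set X) →
  K₁ ⊔ C = K₂ ⊔ C → K₁ = K₂

/-- ABS: the abstract uniqueness statement (from FINA, UNIQ, INJ). -/
def StAbs : Prop := ∀ {X : Type u} [Group X] [Finite X] (V T Q M J K₁ O₁ K₂ O₂ : Subgroup X)
    [V.Normal],
  IsElementaryAbelian 2 V →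
  Facts T (Subgroup.centralizer (V : Set X)) Q M J K₁ O₁ →
  Facts T (Subgroup.centralizer (V : Set X)) Q M J K₂ O₂ →
  Nat.card ↥⁅V, K₁⁆ = 4 → Nat.card ↥⁅V, K₂⁆ = 4 → ⁅V, K₁⁆ ⊓ ⁅V, K₂⁆ ≠ ⊥ →
  K₁ = K₂

/-- WID: `W_K = [V, K]` (in the form used inside `↥L`). -/
def StWid : Prop := ∀ {G : Type u} [Group G] [Finite G] (T L K : Subgroup G) (M : Subgroup ↥L),
  IsJComponent T K → K ≤ L →
  Facts (T.subgroupOf L)
    (Subgroup.centralizer (((omegaCenterOf (pCoreOf 2 L)).subgroupOf L : Subgroup ↥L) : Set ↥L))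
    (pCore 2 ↥L) M ((thompsonSubgroupOf 2 T).subgroupOf L) (K.subgroupOf L)
    ((pCoreOf 2 K).subgroupOf L) →
  (pCoreOf 2 K).subgroupOf L ≤ pCore 2 ↥L →
  ¬ K.subgroupOf L ≤
    Subgroup.centralizer (((omegaCenterOf (pCoreOf 2 L)).subgroupOf L : Subgroup ↥L) : Set ↥L) →
  (⁅(omegaCenterOf (pCoreOf 2 L)).subgroupOf L, K.subgroupOf L⁆).map L.subtype = wOf K

/-- CONJ: conjugates of `J(T)`-components by elements of `T` are `J(T)`-components. -/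
def StConj : Prop := ∀ {G : Type u} [Group G] [Finite G] (T K : Subgroup G) (t : G), t ∈ T →
  IsJComponent T K →
  IsJComponent T (K.map (MulAut.conj t).toMonoidHom) ∧
    wOf (K.map (MulAut.conj t).toMonoidHom) = (wOf K).map (MulAut.conj t).toMonoidHom

/-- The statement S2943. -/
def StMain2 : Prop := ∀ {G : Type u} [Group G] [Finite G],
  IsCharacteristicTwoType G →
  (∀ N : Subgroup G, IsTwoLocal N → Group.IsSolvable ↥N) →
  (∀ S : Sylow 2 G, Subgroup.centralizer (omegaCenterOf (S : Subgroup G) : Set G) ≤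
      Subgroup.normalizer ((S : Subgroup G) : Set G)) →
  ∀ (T : Subgroup G), IsPGroup 2 ↥T → T ≠ ⊥ → ∀ (L : Subgroup G), L ∈ jOvergroups T →
  ∀ (K : Subgroup G), IsJComponent T K → K ≤ L →
  T ⊓ Subgroup.centralizer (T : Set G) ⊓ wOf K ≠ ⊥ → T ≤ Subgroup.normalizer (K : Set G)

end Cfsg.Agent.H52.Sn
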