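import Mathlib
import Cfsg.Prelude.Def_JComponents
import Cfsg.Prelude.Def_Local
import Cfsg.Prelude.Def_PLocal

/-!
# S2942 (J(T)-components are subnormal in the overgroups of the family): statements of the pieces

Route.  `L` in the family of `T`, `Q = O₂(L)`, `V = Ω₁(Z(Q))`, `C = C_L(V)`, `J = J(T)`,
`K ≤ L` a `J(T)`-component.
(1) `L` is solvable (it normalizes `Q ≠ 1`).
(2) By the hypothesis on the centralizers of `Ω₁(Z(S))`, `C` normalizes `T`; hence `T ∩ C = Q`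
and `O₂(L / C) = 1`.
(3) Glauberman's theorem (S0617) for `J(L)` acting on `V`: elements of odd order of `J(L)`
commute modulo `C`.
(4) `K ≤ J(L)`, so `KC ⊴ R ⊴ L` for `R = C ⟨odd elements of J(L)⟩`; `O₂(K) ≤ Q`; `[K, C] ≤ Q`;
`Q` normalizes `K` (S2941).  Chain `K ⊴ KQ ⊴ KC ⊴ R ⊴ L`.

All abstract pieces are stated for a finite group `X` (used with `X = ↥L`).
-/

set_option autoImplicit false
open Cfsg

namespace Cfsg.Agent.H52.Sn

universe u

/-- GLA: in a group generated by independent normal copies of `SL(2,2) ≅ S₃`, the elements of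
odd order commute. -/
def StGLA : Prop := ∀ {X : Type u} [Group X] [Finite X] {ι : Type u} (E : ι → Subgroup X)
    (H : Subgroup X),
  (∀ i, H ≤ Subgroup.normalizer ((E i : Subgroup X) : Set X)) →
  (∀ i, Nonempty (↥(E i) ≃* Matrix.SpecialLinearGroup (Fin 2) (ZMod 2))) →
  iSupIndep E → (⨆ i, E i) = H →
  ∀ x ∈ H, ∀ y ∈ H, Odd (orderOf x) → Odd (orderOf y) → x * y = y * x

/-- GL: consequence of Glauberman's structure theorem S0617 (transported to the holomorph of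
`V`): if `V ⊴ X` is an elementary abelian 2-group, `X` is 2-solvable and `O₂(X / C_X(V)) = 1`,
then the elements of odd order of `J(X)` commute modulo `C_X(V)`. -/
def StGL : Prop := ∀ {X : Type u} [Group X] [Finite X] (V : Subgroup X) [V.Normal],
  IsElementaryAbelian 2 V → IsPSolvable 2 X →
  pCore 2 (X ⧸ Subgroup.centralizer (V : Set X)) = ⊥ →
  ∀ x ∈ thompsonSubgroup 2 X, ∀ y ∈ thompsonSubgroup 2 X, Odd (orderOf x) → Odd (orderOf y) →
    x * y * x⁻¹ * y⁻¹ ∈ Subgroup.centralizer (V : Set X)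

/-- RED: if `C_X(V)` normalizes the Sylow 2-subgroup `T` and `O₂(X)` centralizes `V`, then
`O₂(X / C_X(V)) = 1` and `T ∩ C_X(V) ≤ O₂(X)`. -/
def StRed : Prop := ∀ {X : Type u} [Group X] [Finite X] (T V : Subgroup X) [V.Normal],
  IsPGroup 2 ↥T → Odd T.index →
  pCore 2 X ≤ Subgroup.centralizer (V : Set X) →
  Subgroup.centralizer (V : Set X) ≤ Subgroup.normalizer (T : Set X) →
  pCore 2 (X ⧸ Subgroup.centralizer (V : Set X)) = ⊥ ∧
    T ⊓ Subgroup.centralizer (V : Set X) ≤ pCore 2 X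

/-- FINA: `O ≤ Q` and `KC` is normal in a normal subgroup `R` of `X`. -/
def StFinA : Prop := ∀ {X : Type u} [Group X] [Finite X] (T C Q M J K O : Subgroup X),
  IsPGroup 2 ↥T → Odd T.index → C.Normal → Q.Normal → M.Normal →
  T ⊓ C ≤ Q → J ≤ M →
  (∀ x ∈ M, ∀ y ∈ M, Odd (orderOf x) → Odd (orderOf y) → x * y * x⁻¹ * y⁻¹ ∈ C) →
  Subgroup.closure {g : X | g ∈ K ∧ Odd (orderOf g)} = K → ⁅K, J⁆ = K →
  O ≤ K → IsPGroup 2 ↥O →
  O ≤ Q ∧ ∃ R : Subgroup X, R.Normal ∧ K ⊔ C ≤ R ∧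
    R ≤ Subgroup.normalizer ((K ⊔ C : Subgroup X) : Set X)

/-- FINB: `[K, C] ≤ Q`. -/
def StFinB : Prop := ∀ {X : Type u} [Group X] [Finite X] (T C Q J K O : Subgroup X),
  C.Normal → Q.Normal → T ⊓ C ≤ Q → C ≤ Subgroup.normalizer (T : Set X) → J ≤ T →
  ⁅K, J⁆ = K → O ≤ K → O ≤ Q → O.relIndex K = 3 →
  ⁅K, C⁆ ≤ Q

/-- IF-SYL: the Sylow subgroup and its Thompson subgroup, inside `↥L`. -/
def StIfSyl : Prop := ∀ {G : Type u} [Group G] [Finite G] (T L : Subgroup G),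
  IsSylowTwoIn T L →
  IsPGroup 2 ↥(T.subgroupOf L) ∧ Odd (T.subgroupOf L).index ∧
    (thompsonSubgroupOf 2 T).subgroupOf L ≤ T.subgroupOf L ∧
    (thompsonSubgroupOf 2 T).subgroupOf L ≤ thompsonSubgroup 2 ↥L

/-- IF-V: `V = Ω₁(Z(O₂(L)))` inside `↥L`. -/
def StIfV : Prop := ∀ {G : Type u} [Group G] [Finite G] (L : Subgroup G),
  ((omegaCenterOf (pCoreOf 2 L)).subgroupOf L).Normal ∧
    IsElementaryAbelian 2 ((omegaCenterOf (pCoreOf 2 L)).subgroupOf L) ∧
    pCore 2 ↥L ≤ Subgroup.centralizer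
      (((omegaCenterOf (pCoreOf 2 L)).subgroupOf L : Subgroup ↥L) : Set ↥L)

/-- IF-Z: the centralizer of `V` in `L` normalizes `T` (uses the hypothesis on `C_G(Ω₁(Z(S)))`). -/
def StIfZ : Prop := ∀ {G : Type u} [Group G] [Finite G],
  (∀ S : Sylow 2 G, Subgroup.centralizer (omegaCenterOf (S : Subgroup G) : Set G) ≤
      Subgroup.normalizer ((S : Subgroup G) : Set G)) →
  ∀ (T L : Subgroup G), L ∈ jOvergroups T →
  Subgroup.centralizer (((omegaCenterOf (pCoreOf 2 L)).subgroupOf L : Subgroup ↥L) : Set ↥L) ≤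
    Subgroup.normalizer ((T.subgroupOf L : Subgroup ↥L) : Set ↥L)

/-- IF-S: `L` is 2-solvable (it lies in the 2-local subgroup `N_G(O₂(L))`). -/
def StIfS : Prop := ∀ {G : Type u} [Group G] [Finite G],
  (∀ N : Subgroup G, IsTwoLocal N → Group.IsSolvable ↥N) →
  ∀ (T L : Subgroup G), T ≠ ⊥ → L ∈ jOvergroups T → IsPSolvable 2 ↥L

/-- IF-K: the properties of the `J(T)`-component `K ≤ L`, inside `↥L`. -/
def StIfK : Prop := ∀ {G : Type u} [Group G] [Finite G] (T L K : Subgroup G),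
  T ≤ L → IsJComponent T K → K ≤ L →
  Subgroup.closure {g : ↥L | g ∈ K.subgroupOf L ∧ Odd (orderOf g)} = K.subgroupOf L ∧
    ⁅K.subgroupOf L, (thompsonSubgroupOf 2 T).subgroupOf L⁆ = K.subgroupOf L ∧
    (pCoreOf 2 K).subgroupOf L ≤ K.subgroupOf L ∧
    IsPGroup 2 ↥((pCoreOf 2 K).subgroupOf L) ∧
    ((pCoreOf 2 K).subgroupOf L).relIndex (K.subgroupOf L) = 3

/-- IF-N: `O₂(L)` normalizes `K` (from S2941). -/
def StIfN : Prop := ∀ {G : Type u} [Group G] [Finite G],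
  IsCharacteristicTwoType G →
  (∀ N : Subgroup G, IsTwoLocal N → Group.IsSolvable ↥N) →
  (∀ S : Sylow 2 G, Subgroup.centralizer (omegaCenterOf (S : Subgroup G) : Set G) ≤
      Subgroup.normalizer ((S : Subgroup G) : Set G)) →
  ∀ (T : Subgroup G), IsPGroup 2 ↥T → T ≠ ⊥ → ∀ (L : Subgroup G), L ∈ jOvergroups T →
  ∀ (K : Subgroup G), IsJComponent T K → K ≤ L →
  pCore 2 ↥L ≤ Subgroup.normalizer ((K.subgroupOf L : Subgroup ↥L) : Set ↥L)

/-- The statement S2942. -/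
def StMain : Prop := ∀ {G : Type u} [Group G] [Finite G],
  IsCharacteristicTwoType G →
  (∀ N : Subgroup G, IsTwoLocal N → Group.IsSolvable ↥N) →
  (∀ S : Sylow 2 G, Subgroup.centralizer (omegaCenterOf (S : Subgroup G) : Set G) ≤
      Subgroup.normalizer ((S : Subgroup G) : Set G)) →
  ∀ (T : Subgroup G), IsPGroup 2 ↥T → T ≠ ⊥ → ∀ (L : Subgroup G), L ∈ jOvergroups T →
  ∀ (K : Subgroup G), IsJComponent T K → K ≤ L → (K.subgroupOf L).IsSubnormal

end Cfsg.Agent.H52.Sn
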