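import Cfsg.Agent.H52.SnDefs

/-!
# S2942: assembly of the pieces
-/

set_option autoImplicit false
open Cfsg

namespace Cfsg.Agent.H52.Sn

universe u

/-- If `[A, B] ≤ N ⊴ X` then `B` normalizes `A N`. -/
theorem le_normalizer_sup {X : Type u} [Group X] (A B N : Subgroup X) [hN : N.Normal]
    (h : ⁅A, B⁆ ≤ N) : B ≤ Subgroup.normalizer ((A ⊔ N : Subgroup X) : Set X) := by
  have key : ∀ c ∈ B, ∀ x ∈ A ⊔ N, c * x * c⁻¹ ∈ A ⊔ N := by
    intro c hc x hx
    have h1 : (A ⊔ N).map (MulAut.conj c).toMonoidHom ≤ A ⊔ N := by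
      rw [Subgroup.map_sup]
      apply sup_le
      · rintro _ ⟨a, ha, rfl⟩
        have h2 : a * c * a⁻¹ * c⁻¹ ∈ N := h (Subgroup.commutator_mem_commutator ha hc)
        have h3 : c * a * c⁻¹ * a⁻¹ ∈ N := by
          have := N.inv_mem h2
          have e : (a * c * a⁻¹ * c⁻¹)⁻¹ = c * a * c⁻¹ * a⁻¹ := by group
          rwa [e] at this
        have e : (MulAut.conj c).toMonoidHom a = (c * a * c⁻¹ * a⁻¹) * a := by
          simp [MulAut.conj_apply]
        rw [e]
        exact Subgroup.mul_mem _ (le_sup_right (a := A) h3) (le_sup_left (b := N) ha)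
      · rintro _ ⟨n, hn, rfl⟩
        exact le_sup_right (a := A) (hN.conj_mem n hn c)
    exact h1 ⟨x, hx, rfl⟩
  intro b hb
  rw [Subgroup.mem_normalizer_iff]
  intro x
  constructor
  · exact key b hb x
  · intro hx
    have := key b⁻¹ (B.inv_mem hb) _ hx
    have e : b⁻¹ * (b * x * b⁻¹) * b⁻¹⁻¹ = x := by group
    rwa [e] at this

/-- A chain of four normal steps gives subnormality. -/
theorem subnormal_chain {X : Type u} [Group X] (K A B R : Subgroup X) (hR : R.Normal)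
    (hKA : K ≤ A) (hAB : A ≤ B) (hBR : B ≤ R)
    (h1 : A ≤ Subgroup.normalizer (K : Set X)) (h2 : B ≤ Subgroup.normalizer (A : Set X))
    (h3 : R ≤ Subgroup.normalizer (B : Set X)) : K.IsSubnormal := by
  have hRs : R.IsSubnormal := hR.isSubnormal
  have hBs : B.IsSubnormal :=
    Subgroup.IsSubnormal.step B R hBR hRs (Subgroup.normal_subgroupOf_of_le_normalizer h3)
  have hAs : A.IsSubnormal :=
    Subgroup.IsSubnormal.step A B hAB hBs (Subgroup.normal_subgroupOf_of_le_normalizer h2)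
  exact Subgroup.IsSubnormal.step K A hKA hAs (Subgroup.normal_subgroupOf_of_le_normalizer h1)

/-- The abstract chain argument. -/
theorem chain (hA : StFinA.{u}) (hB : StFinB.{u}) {X : Type u} [Group X] [Finite X]
    (T C Q M J K O : Subgroup X)
    (hT : IsPGroup 2 ↥T) (hTi : Odd T.index) (hC : C.Normal) (hQ : Q.Normal) (hM : M.Normal)
    (hQC : Q ≤ C) (hTC : T ⊓ C ≤ Q) (hCT : C ≤ Subgroup.normalizer (T : Set X))
    (hJT : J ≤ T) (hJM : J ≤ M)
    (hcomm : ∀ x ∈ M, ∀ y ∈ M, Odd (orderOf x) → Odd (orderOf y) → x * y * x⁻¹ * y⁻¹ ∈ C)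
    (hKgen : Subgroup.closure {g : X | g ∈ K ∧ Odd (orderOf g)} = K) (hKJ : ⁅K, J⁆ = K)
    (hOK : O ≤ K) (hO : IsPGroup 2 ↥O) (hO3 : O.relIndex K = 3)
    (hQK : Q ≤ Subgroup.normalizer (K : Set X)) : K.IsSubnormal := by
  obtain ⟨hOQ, R, hR, hKCR, hRn⟩ := hA T C Q M J K O hT hTi hC hQ hM hTC hJM hcomm hKgen hKJ hOK hO
  have hKC := hB T C Q J K O hC hQ hTC hCT hJT hKJ hOK hOQ hO3
  refine subnormal_chain K (K ⊔ Q) (K ⊔ C) R hR le_sup_left (sup_le_sup_left hQC K) hKCR ?_ ?_ hRn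
  · exact sup_le Subgroup.le_normalizer hQK
  · refine sup_le ?_ (le_normalizer_sup K C Q hKC)
    exact le_trans le_sup_left Subgroup.le_normalizer

/-- S2942 from the pieces. -/
theorem main (hGL : StGL.{u}) (hRed : StRed.{u}) (hA : StFinA.{u}) (hB : StFinB.{u})
    (hSyl : StIfSyl.{u}) (hV : StIfV.{u}) (hZ : StIfZ.{u}) (hS : StIfS.{u}) (hK : StIfK.{u})
    (hN : StIfN.{u}) : StMain.{u} := by
  intro G _ _ hL hNsol hZN T hT hT1 L hLT K hKc hKL
  obtain ⟨hT2, hTi, hJT, hJM⟩ := hSyl T L hLT.1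
  obtain ⟨hVn, hVel, hQV⟩ := hV L
  have hCT := hZ hZN T L hLT
  have hPS := hS hNsol T L hT1 hLT
  obtain ⟨hKgen, hKJ, hOK, hO, hO3⟩ := hK T L K hLT.1.1 hKc hKL
  have hQK := hN hL hNsol hZN T hT hT1 L hLT K hKc hKL
  obtain ⟨hred1, hred2⟩ := hRed (T.subgroupOf L) ((omegaCenterOf (pCoreOf 2 L)).subgroupOf L)
    hT2 hTi hQV hCT
  have hcomm := hGL ((omegaCenterOf (pCoreOf 2 L)).subgroupOf L) hVel hPS hred1
  have hQn : (pCore 2 ↥L).Normal := by
    unfold Cfsg.pCore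
    constructor
    intro n hn g
    have h1 : (sSup {N : Subgroup ↥L | N.Normal ∧ IsPGroup 2 N}).map (MulAut.conj g).toMonoidHom ≤
        sSup {N : Subgroup ↥L | N.Normal ∧ IsPGroup 2 N} := by
      rw [Subgroup.map_le_iff_le_comap]
      apply sSup_le
      intro N hN'
      rw [← Subgroup.map_le_iff_le_comap]
      have h2 : N.map (MulAut.conj g).toMonoidHom ≤ N := by
        rintro _ ⟨x, hx, rfl⟩
        exact hN'.1.conj_mem x hx g
      exact h2.trans (le_sSup hN')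
    exact h1 ⟨n, hn, rfl⟩
  have hMn : (thompsonSubgroup 2 ↥L).Normal := by
    constructor
    intro n hn g
    have h1 : (thompsonSubgroup 2 ↥L).map (MulAut.conj g).toMonoidHom ≤ thompsonSubgroup 2 ↥L := by
      unfold Cfsg.thompsonSubgroup
      rw [Subgroup.map_le_iff_le_comap]
      apply sSup_le
      intro A hA'
      rw [← Subgroup.map_le_iff_le_comap]
      refine le_sSup ⟨⟨?_, ?_⟩, ?_⟩
      · have := hA'.1.1
        exact Subgroup.map_isMulCommutative _ _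
      · rintro _ ⟨a, ha, rfl⟩
        rw [← map_pow, hA'.1.2 a ha, map_one]
      · intro B hB'
        have e : Nat.card ↥(A.map (MulAut.conj g).toMonoidHom) = Nat.card ↥A :=
          Nat.card_congr (A.equivMapOfInjective _ (MulAut.conj g).injective).symm.toEquiv
        rw [e]
        exact hA'.2 B hB'
    exact h1 ⟨n, hn, rfl⟩
  exact chain hA hB (T.subgroupOf L)
    (Subgroup.centralizer (((omegaCenterOf (pCoreOf 2 L)).subgroupOf L : Subgroup ↥L) : Set ↥L))
    (pCore 2 ↥L) (thompsonSubgroup 2 ↥L) ((thompsonSubgroupOf 2 T).subgroupOf L)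
    (K.subgroupOf L) ((pCoreOf 2 K).subgroupOf L)
    hT2 hTi inferInstance hQn hMn hQV hred2 hCT hJT hJM hcomm hKgen hKJ hOK hO hO3 hQK

end Cfsg.Agent.H52.Sn
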