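import Cfsg.Agent.H52.SoDefs
import Cfsg.Agent.H52.SnAsm

/-!
# S2943: assembly of the pieces
-/

set_option autoImplicit false
open Cfsg

namespace Cfsg.Agent.H52.Sn

universe u

/-- The facts about a `J(T)`-component inside `↥L`, from the pieces of S2942. -/
theorem facts (hGL : StGL.{u}) (hRed : StRed.{u})
    (hSyl : StIfSyl.{u}) (hV : StIfV.{u}) (hZ : StIfZ.{u}) (hS : StIfS.{u}) (hK : StIfK.{u})
    (hN : StIfN.{u}) {G : Type u} [Group G] [Finite G]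
    (hL : IsCharacteristicTwoType G)
    (hNsol : ∀ N : Subgroup G, IsTwoLocal N → Group.IsSolvable ↥N)
    (hZN : ∀ S : Sylow 2 G, Subgroup.centralizer (omegaCenterOf (S : Subgroup G) : Set G) ≤
      Subgroup.normalizer ((S : Subgroup G) : Set G))
    (T : Subgroup G) (hT : IsPGroup 2 ↥T) (hT1 : T ≠ ⊥) (L : Subgroup G) (hLT : L ∈ jOvergroups T)
    (K : Subgroup G) (hKc : IsJComponent T K) (hKL : K ≤ L) :
    Facts (T.subgroupOf L)
      (Subgroup.centralizer (((omegaCenterOf (pCoreOf 2 L)).subgroupOf L : Subgroup ↥L) : Set ↥L))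
      (pCore 2 ↥L) (thompsonSubgroup 2 ↥L) ((thompsonSubgroupOf 2 T).subgroupOf L)
      (K.subgroupOf L) ((pCoreOf 2 K).subgroupOf L) := by
  obtain ⟨hT2, hTi, hJT, hJM⟩ := hSyl T L hLT.1
  obtain ⟨hVn, hVel, hQV⟩ := hV L
  have hCT := hZ hZN T L hLT
  have hPS := hS hNsol T L hT1 hLT
  obtain ⟨hKgen, hKJ, hOK, hO, hO3⟩ := hK T L K hLT.1.1 hKc hKL
  have hQK := hN hL hNsol hZN T hT hT1 L hLT K hKc hKL
  obtain ⟨hred1, hred2⟩ := hRed (T.subgroupOf L) ((omegaCenterOf (pCoreOf 2 L)).subgroupOf L)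
    hT2 hTi hQV hCT
  have hcomm := hGL ((omegaCenterOf (pCoreOf 2 L)).subgroupOf L) hVel hPS hred1
  have hQn : (pCore 2 ↥L).Normal := Subgroup.sSup_normal _ (fun _ h => h.1)
  have hQ2 : IsPGroup 2 ↥(pCore 2 ↥L) := Sylow.sSup_of_normal _ (fun _ h => h.2) (fun _ h => h.1)
  have hMn : (thompsonSubgroup 2 ↥L).Normal := by
    constructor
    intro n hn g
    have h1 : (thompsonSubgroup 2 ↥L).map (MulAut.conj g).toMonoidHom ≤ thompsonSubgroup 2 ↥L := by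
      unfold Cfsg.thompsonSubgroup
      rw [Subgroup.map_le_iff_le_comap]
      apply sSup_le
      intro A hA'
      rw [← Subgroup.map_le_iff_le_comap]
      refine le_sSup ⟨⟨?_, ?_⟩, ?_⟩
      · have := hA'.1.1
        exact Subgroup.map_isMulCommutative _ _
      · rintro _ ⟨a, ha, rfl⟩
        rw [← map_pow, hA'.1.2 a ha, map_one]
      · intro B hB'
        have e : Nat.card ↥(A.map (MulAut.conj g).toMonoidHom) = Nat.card ↥A :=
          Nat.card_congr (A.equivMapOfInjective _ (MulAut.conj g).injective).symm.toEquiv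
        rw [e]
        exact hA'.2 B hB'
    exact h1 ⟨n, hn, rfl⟩
  exact ⟨hT2, hTi, inferInstance, hQn, hMn, hQ2, hQV, hred2, hCT, hJT, hJM, hcomm, hKgen, hKJ,
    hOK, hO, hO3, hQK⟩

/-- S2943 from the pieces. -/
theorem main2 (hGL : StGL.{u}) (hRed : StRed.{u}) (hA : StFinA.{u})
    (hSyl : StIfSyl.{u}) (hV : StIfV.{u}) (hZ : StIfZ.{u}) (hS : StIfS.{u}) (hK : StIfK.{u})
    (hN : StIfN.{u}) (hNC : StNC.{u}) (hAbs : StAbs.{u}) (hWid : StWid.{u})
    (hConj : StConj.{u}) : StMain2.{u} := by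
  intro G _ _ hL hNsol hZN T hT hT1 L hLT K hKc hKL hZW
  intro t ht
  obtain ⟨hK2c, hW2⟩ := hConj T K t ht hKc
  have htL : t ∈ L := hLT.1.1 ht
  have hK2L : K.map (MulAut.conj t).toMonoidHom ≤ L := by
    rintro _ ⟨k, hk, rfl⟩
    exact L.mul_mem (L.mul_mem htL (hKL hk)) (L.inv_mem htL)
  have F1 := facts hGL hRed hSyl hV hZ hS hK hN hL hNsol hZN T hT hT1 L hLT K hKc hKL
  have F2 := facts hGL hRed hSyl hV hZ hS hK hN hL hNsol hZN T hT hT1 L hLT _ hK2c hK2L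
  have hO1 := (hA _ _ _ _ _ _ _ F1.hT F1.hTi F1.hC F1.hQ F1.hM F1.hTC F1.hJM F1.hcomm F1.hKgen
    F1.hKJ F1.hOK F1.hO).1
  have hO2 := (hA _ _ _ _ _ _ _ F2.hT F2.hTi F2.hC F2.hQ F2.hM F2.hTC F2.hJM F2.hcomm F2.hKgen
    F2.hKJ F2.hOK F2.hO).1
  have hnc1 := hNC _ _ _ _ _ _ _ F1
  have hnc2 := hNC _ _ _ _ _ _ _ F2
  have hw1 := hWid T L K _ hKc hKL F1 hO1 hnc1
  have hw2 := hWid T L _ _ hK2c hK2L F2 hO2 hnc2
  obtain ⟨hVn, hVel, -⟩ := hV L
  have hc1 : Nat.card ↥⁅(omegaCenterOf (pCoreOf 2 L)).subgroupOf L, K.subgroupOf L⁆ = 4 := by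
    rw [← hKc.2.2.2.2.1, ← hw1]
    exact Nat.card_congr (Subgroup.equivMapOfInjective _ _ (Subgroup.subtype_injective L)).toEquiv
  have hc2 : Nat.card ↥⁅(omegaCenterOf (pCoreOf 2 L)).subgroupOf L,
      (K.map (MulAut.conj t).toMonoidHom).subgroupOf L⁆ = 4 := by
    rw [← hK2c.2.2.2.2.1, ← hw2]
    exact Nat.card_congr (Subgroup.equivMapOfInjective _ _ (Subgroup.subtype_injective L)).toEquiv
  have hinf : ⁅(omegaCenterOf (pCoreOf 2 L)).subgroupOf L, K.subgroupOf L⁆ ⊓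
      ⁅(omegaCenterOf (pCoreOf 2 L)).subgroupOf L,
        (K.map (MulAut.conj t).toMonoidHom).subgroupOf L⁆ ≠ ⊥ := by
    intro hbot
    apply hZW
    rw [eq_bot_iff]
    intro z hz
    obtain ⟨⟨hzT, hzC⟩, hzW⟩ := hz
    have hz1 : z ∈ (⁅(omegaCenterOf (pCoreOf 2 L)).subgroupOf L, K.subgroupOf L⁆).map L.subtype := by
      rw [hw1]; exact hzW
    have hzt : t * z * t⁻¹ = z := by
      have := (Subgroup.mem_centralizer_iff.mp hzC) t ht
      rw [this, mul_inv_cancel_right]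
    have hz2 : z ∈ (⁅(omegaCenterOf (pCoreOf 2 L)).subgroupOf L,
        (K.map (MulAut.conj t).toMonoidHom).subgroupOf L⁆).map L.subtype := by
      rw [hw2, hW2]
      exact ⟨z, hzW, hzt⟩
    obtain ⟨z1, hz1m, hz1e⟩ := hz1
    obtain ⟨z2, hz2m, hz2e⟩ := hz2
    have e12 : z1 = z2 := Subtype.ext (hz1e.trans hz2e.symm)
    have hmem : z1 ∈ ⁅(omegaCenterOf (pCoreOf 2 L)).subgroupOf L, K.subgroupOf L⁆ ⊓
        ⁅(omegaCenterOf (pCoreOf 2 L)).subgroupOf L,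
          (K.map (MulAut.conj t).toMonoidHom).subgroupOf L⁆ := ⟨hz1m, e12 ▸ hz2m⟩
    rw [hbot, Subgroup.mem_bot] at hmem
    rw [Subgroup.mem_bot, ← hz1e, hmem]
    rfl
  have := hVn
  have heq := hAbs ((omegaCenterOf (pCoreOf 2 L)).subgroupOf L) _ _ _ _ _ _ _ _ hVel F1 F2
    hc1 hc2 hinf
  have hKK : K = K.map (MulAut.conj t).toMonoidHom := by
    have h1 := congrArg (Subgroup.map L.subtype) heq
    rw [Subgroup.subgroupOf_map_subtype, Subgroup.subgroupOf_map_subtype,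
      inf_of_le_left hKL, inf_of_le_left hK2L] at h1
    exact h1
  rw [Subgroup.mem_normalizer_iff]
  intro h
  constructor
  · intro hh
    rw [hKK]
    exact ⟨h, hh, rfl⟩
  · intro hh
    rw [hKK] at hh
    obtain ⟨k, hk, hke⟩ := hh
    have e : k = h := by
      have h2 : t * k * t⁻¹ = t * h * t⁻¹ := hke
      exact mul_left_cancel (mul_right_cancel h2)
    rw [← e]
    exact hk

end Cfsg.Agent.H52.Sn
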