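import Cfsg.Agent.H52.SrDefs
import Cfsg.Agent.H52.SoAsm
import Cfsg.Agent.H14.SnGL
import Cfsg.Agent.H89.SnGLA
import Cfsg.Agent.H5.SnRed
import Cfsg.Agent.H91.SnFinA
import Cfsg.Agent.H63.SnIfSyl
import Cfsg.Agent.H63.SnIfV
import Cfsg.Agent.H63.SnIfZ
import Cfsg.Agent.H71.SnIfS
import Cfsg.Agent.H71.SnIfK
import Cfsg.Agent.H80.SnIfN
import Cfsg.Agent.H25.SoNC
import Cfsg.Agent.H5.SoAbs
import Cfsg.Agent.H54.SoUniq
import Cfsg.Agent.H25.SoInj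
import Cfsg.Agent.H36.SoWid
import Cfsg.Agent.H59.SoConj

/-!
# The `S₃^r` picture of `V = Ω₁(Z(O₂(L)))` at the level of `G`: assembly of the pieces
-/

set_option autoImplicit false
set_option linter.unusedVariables false
set_option linter.style.haveILetI false
open Cfsg

namespace Cfsg.Agent.H52.Sr

open Cfsg.Agent.H52.Sn

universe u

/-- Per-component facts at the level of `G`. -/
theorem comp1 (hDec : StDec.{u}) {G : Type u} [Group G] [Finite G]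
    (hL : IsCharacteristicTwoType G)
    (hNsol : ∀ N : Subgroup G, IsTwoLocal N → Group.IsSolvable ↥N)
    (hZN : ∀ S : Sylow 2 G, Subgroup.centralizer (omegaCenterOf (S : Subgroup G) : Set G) ≤
      Subgroup.normalizer ((S : Subgroup G) : Set G))
    (T : Subgroup G) (hT : IsPGroup 2 ↥T) (hT1 : T ≠ ⊥) (L : Subgroup G) (hLT : L ∈ jOvergroups T)
    (hVL : omegaCenterOf (pCoreOf 2 L) ≤ L)
    (K : Subgroup G) (hKc : IsJComponent T K) (hKL : K ≤ L) :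
    wOf K ≤ omegaCenterOf (pCoreOf 2 L) ∧ wOf K = ⁅omegaCenterOf (pCoreOf 2 L), K⁆ ∧
    (∀ v ∈ omegaCenterOf (pCoreOf 2 L), ∃ c ∈ omegaCenterOf (pCoreOf 2 L), ∃ w ∈ wOf K,
      v = c * w ∧ c ∈ Subgroup.centralizer (K : Set G)) ∧
    wOf K ⊓ Subgroup.centralizer (K : Set G) = ⊥ := by
  haveI : Fact (Nat.Prime 2) := ⟨Nat.prime_two⟩
  have F1 := facts (Cfsg.Agent.H14.Sn.gl Cfsg.Agent.H89.Sn.gla) Cfsg.Agent.H5.Sn.red
    Cfsg.Agent.H63.Sn.ifSyl Cfsg.Agent.H63.Sn.ifV Cfsg.Agent.H63.Sn.ifZ Cfsg.Agent.H71.Sn.ifS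
    Cfsg.Agent.H71.Sn.ifK Cfsg.Agent.H80.Sn.ifN hL hNsol hZN T hT hT1 L hLT K hKc hKL
  have hO1 := (Cfsg.Agent.H91.Sn.finA _ _ _ _ _ _ _ F1.hT F1.hTi F1.hC F1.hQ F1.hM F1.hTC F1.hJM
    F1.hcomm F1.hKgen F1.hKJ F1.hOK F1.hO).1
  have hnc1 := Cfsg.Agent.H25.So.nc _ _ _ _ _ _ _ F1
  have hw1 := Cfsg.Agent.H36.So.wid T L K _ hKc hKL F1 hO1 hnc1
  obtain ⟨hVn, hVel, hQV⟩ := Cfsg.Agent.H63.Sn.ifV L
  haveI := hVn
  obtain ⟨hdec, hfpf⟩ := hDec ((omegaCenterOf (pCoreOf 2 L)).subgroupOf L) (K.subgroupOf L)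
    ((pCoreOf 2 K).subgroupOf L) hVel F1.hOK (hO1.trans F1.hQC) F1.hO3
  refine ⟨?_, ?_, ?_, ?_⟩
  · rw [← hw1]
    rintro _ ⟨w, hw, rfl⟩
    exact Subgroup.mem_subgroupOf.mp (Subgroup.commutator_le_left _ _ hw)
  · rw [← hw1, Subgroup.map_commutator, Subgroup.subgroupOf_map_subtype,
      Subgroup.subgroupOf_map_subtype, inf_of_le_left hVL, inf_of_le_left hKL]
  · intro v hv
    obtain ⟨c, hc, w, hw, e, hcK⟩ := hdec ⟨v, hVL hv⟩ (Subgroup.mem_subgroupOf.mpr hv)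
    refine ⟨c.1, Subgroup.mem_subgroupOf.mp hc, w.1, ?_, congrArg Subtype.val e, ?_⟩
    · rw [← hw1]; exact ⟨w, hw, rfl⟩
    · rw [Subgroup.mem_centralizer_iff]
      intro k hk
      have := (Subgroup.mem_centralizer_iff.mp hcK) ⟨k, hKL hk⟩ (Subgroup.mem_subgroupOf.mpr hk)
      exact congrArg Subtype.val this
  · rw [eq_bot_iff]
    rintro w ⟨hw, hwK⟩
    rw [← hw1] at hw
    obtain ⟨w', hw', rfl⟩ := hw
    have hmem : w' ∈ ⁅(omegaCenterOf (pCoreOf 2 L)).subgroupOf L, K.subgroupOf L⁆ ⊓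
        Subgroup.centralizer ((K.subgroupOf L : Subgroup ↥L) : Set ↥L) := by
      refine ⟨hw', Subgroup.mem_centralizer_iff.mpr ?_⟩
      intro k hk
      exact Subtype.ext ((Subgroup.mem_centralizer_iff.mp hwK) k.1 (Subgroup.mem_subgroupOf.mp hk))
    rw [hfpf, Subgroup.mem_bot] at hmem
    rw [Subgroup.mem_bot, hmem]
    rfl

/-- Different components centralize each other's `W` (level of `G`). -/
theorem comp2 (hCW : StCW.{u}) {G : Type u} [Group G] [Finite G]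
    (hL : IsCharacteristicTwoType G)
    (hNsol : ∀ N : Subgroup G, IsTwoLocal N → Group.IsSolvable ↥N)
    (hZN : ∀ S : Sylow 2 G, Subgroup.centralizer (omegaCenterOf (S : Subgroup G) : Set G) ≤
      Subgroup.normalizer ((S : Subgroup G) : Set G))
    (T : Subgroup G) (hT : IsPGroup 2 ↥T) (hT1 : T ≠ ⊥) (L : Subgroup G) (hLT : L ∈ jOvergroups T)
    (K₁ : Subgroup G) (hK1c : IsJComponent T K₁) (hK1L : K₁ ≤ L)
    (K₂ : Subgroup G) (hK2c : IsJComponent T K₂) (hK2L : K₂ ≤ L) (hne : K₁ ≠ K₂) :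
    wOf K₁ ≤ Subgroup.centralizer (K₂ : Set G) := by
  haveI : Fact (Nat.Prime 2) := ⟨Nat.prime_two⟩
  have F1 := facts (Cfsg.Agent.H14.Sn.gl Cfsg.Agent.H89.Sn.gla) Cfsg.Agent.H5.Sn.red
    Cfsg.Agent.H63.Sn.ifSyl Cfsg.Agent.H63.Sn.ifV Cfsg.Agent.H63.Sn.ifZ Cfsg.Agent.H71.Sn.ifS
    Cfsg.Agent.H71.Sn.ifK Cfsg.Agent.H80.Sn.ifN hL hNsol hZN T hT hT1 L hLT K₁ hK1c hK1L
  have F2 := facts (Cfsg.Agent.H14.Sn.gl Cfsg.Agent.H89.Sn.gla) Cfsg.Agent.H5.Sn.red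
    Cfsg.Agent.H63.Sn.ifSyl Cfsg.Agent.H63.Sn.ifV Cfsg.Agent.H63.Sn.ifZ Cfsg.Agent.H71.Sn.ifS
    Cfsg.Agent.H71.Sn.ifK Cfsg.Agent.H80.Sn.ifN hL hNsol hZN T hT hT1 L hLT K₂ hK2c hK2L
  have hO1 := (Cfsg.Agent.H91.Sn.finA _ _ _ _ _ _ _ F1.hT F1.hTi F1.hC F1.hQ F1.hM F1.hTC F1.hJM
    F1.hcomm F1.hKgen F1.hKJ F1.hOK F1.hO).1
  have hO2 := (Cfsg.Agent.H91.Sn.finA _ _ _ _ _ _ _ F2.hT F2.hTi F2.hC F2.hQ F2.hM F2.hTC F2.hJM
    F2.hcomm F2.hKgen F2.hKJ F2.hOK F2.hO).1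
  have hnc1 := Cfsg.Agent.H25.So.nc _ _ _ _ _ _ _ F1
  have hnc2 := Cfsg.Agent.H25.So.nc _ _ _ _ _ _ _ F2
  have hw1 := Cfsg.Agent.H36.So.wid T L K₁ _ hK1c hK1L F1 hO1 hnc1
  have hw2 := Cfsg.Agent.H36.So.wid T L K₂ _ hK2c hK2L F2 hO2 hnc2
  obtain ⟨hVn, hVel, hQV⟩ := Cfsg.Agent.H63.Sn.ifV L
  haveI := hVn
  have hc1 : Nat.card ↥⁅(omegaCenterOf (pCoreOf 2 L)).subgroupOf L, K₁.subgroupOf L⁆ = 4 := by
    rw [← hK1c.2.2.2.2.1, ← hw1]
    exact Nat.card_congr (Subgroup.equivMapOfInjective _ _ (Subgroup.subtype_injective L)).toEquiv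
  have hc2 : Nat.card ↥⁅(omegaCenterOf (pCoreOf 2 L)).subgroupOf L, K₂.subgroupOf L⁆ = 4 := by
    rw [← hK2c.2.2.2.2.1, ← hw2]
    exact Nat.card_congr (Subgroup.equivMapOfInjective _ _ (Subgroup.subtype_injective L)).toEquiv
  have hne' : K₁.subgroupOf L ≠ K₂.subgroupOf L := by
    intro h
    apply hne
    have h' := Subgroup.subgroupOf_inj.mp h
    rwa [inf_of_le_left hK1L, inf_of_le_left hK2L] at h'
  have h := hCW ((omegaCenterOf (pCoreOf 2 L)).subgroupOf L) _ _ _ _ _ _ _ _ hVel F1 F2 hc1 hc2 hne'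
  rw [← hw1]
  rintro _ ⟨w, hw, rfl⟩
  rw [Subgroup.mem_centralizer_iff]
  intro k hk
  exact congrArg Subtype.val ((Subgroup.mem_centralizer_iff.mp (h hw)) ⟨k, hK2L hk⟩
    (Subgroup.mem_subgroupOf.mpr hk))

/-- The structure statement (G1) from the pieces. -/
theorem struct_of (hCW : StCW.{u}) (hDec : StDec.{u}) (hSup : StSup.{u}) (hInd : StInd.{u})
    (hPerm : StPerm.{u}) (hFix : StFix.{u}) (hOdd : StOdd.{u}) (hVNG : StVNG.{u})
    (hNormG : StNormG.{u}) : StStruct.{u} := by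
  intro G _ _ hL hNsol hZN T hT hT1 L hLT K hKc hKL hfix
  obtain ⟨hLV, hV2, hVQ, hQL, hQ2⟩ := hVNG L
  have hVL : omegaCenterOf (pCoreOf 2 L) ≤ L := hVQ.trans hQL
  have hTL : T ≤ L := hLT.1.1
  have horb : ∀ i : Orb T K, IsJComponent T i.1 ∧ i.1 ≤ L := by
    rintro ⟨K', t, ht, rfl⟩
    refine ⟨(Cfsg.Agent.H59.So.conj T K t ht hKc).1, ?_⟩
    rintro _ ⟨k, hk, rfl⟩
    exact L.mul_mem (L.mul_mem (hTL ht) (hKL hk)) (L.inv_mem (hTL ht))
  have hd := fun i : Orb T K =>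
    comp1 hDec hL hNsol hZN T hT hT1 L hLT hVL i.1 (horb i).1 (horb i).2
  have hcross : ∀ i j : Orb T K, i ≠ j → wOf i.1 ≤ Subgroup.centralizer (j.1 : Set G) := by
    intro i j hij
    exact comp2 hCW hL hNsol hZN T hT hT1 L hLT i.1 (horb i).1 (horb i).2 j.1 (horb j).1 (horb j).2
      (fun h => hij (Subtype.ext h))
  have hfpf : ∀ i : Orb T K, wOf i.1 ⊓ Subgroup.centralizer (i.1 : Set G) = ⊥ :=
    fun i => (hd i).2.2.2
  have h1 : (⨆ i : Orb T K, wOf i.1) = omegaCenterOf (pCoreOf 2 L) := by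
    apply le_antisymm
    · exact iSup_le (fun i => (hd i).1)
    · intro v hv
      let s : Finset (Subgroup G) := (Set.toFinite {K' : Subgroup G |
        ∃ t ∈ T, K' = K.map (MulAut.conj t).toMonoidHom}).toFinset
      have hsmem : ∀ K', K' ∈ s ↔ ∃ t ∈ T, K' = K.map (MulAut.conj t).toMonoidHom := by
        intro K'
        simp only [s, Set.Finite.mem_toFinset, Set.mem_ofPred_eq]
      obtain ⟨c, hc, w, hw, e, hcs⟩ := hSup (omegaCenterOf (pCoreOf 2 L)) wOf s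
        (fun K' hK' => (hd ⟨K', (hsmem K').mp hK'⟩).2.2.1)
        (fun K₁ h1 K₂ h2 hne => hcross ⟨K₁, (hsmem K₁).mp h1⟩ ⟨K₂, (hsmem K₂).mp h2⟩
          (fun h => hne (congrArg Subtype.val h)))
        v hv
      let Vp : Subgroup G := omegaCenterOf (pCoreOf 2 L) ⊓
        ⨅ i : Orb T K, Subgroup.centralizer (i.1 : Set G)
      have hVpmem : ∀ x, x ∈ Vp ↔ x ∈ omegaCenterOf (pCoreOf 2 L) ∧
          ∀ i : Orb T K, x ∈ Subgroup.centralizer (i.1 : Set G) := by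
        intro x
        simp only [Vp, Subgroup.mem_inf, Subgroup.mem_iInf]
      have hconj : ∀ t ∈ T, ∀ x ∈ Vp, t * x * t⁻¹ ∈ Vp := by
        intro t ht x hx
        rw [hVpmem] at hx ⊢
        refine ⟨(Subgroup.mem_normalizer_iff.mp (hLV (hTL ht)) x).mp hx.1, ?_⟩
        rintro ⟨K', s', hs', rfl⟩
        have hx' := hx.2 ⟨K.map (MulAut.conj (t⁻¹ * s')).toMonoidHom, t⁻¹ * s',
          T.mul_mem (T.inv_mem ht) hs', rfl⟩
        rw [Subgroup.mem_centralizer_iff] at hx' ⊢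
        rintro _ ⟨k, hk, rfl⟩
        have h3 := hx' _ ⟨k, hk, rfl⟩
        simp only [MulEquiv.coe_toMonoidHom, MulAut.conj_apply] at h3 ⊢
        have e1 : s' * k * s'⁻¹ * (t * x * t⁻¹) =
            t * ((t⁻¹ * s') * k * (t⁻¹ * s')⁻¹ * x) * t⁻¹ := by group
        rw [e1, h3]
        group
      have hVpN : T ≤ Subgroup.normalizer (Vp : Set G) := by
        intro t ht
        rw [Subgroup.mem_normalizer_iff]
        intro x
        constructor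
        · exact hconj t ht x
        · intro hx
          have h3 := hconj t⁻¹ (T.inv_mem ht) _ hx
          have e3 : t⁻¹ * (t * x * t⁻¹) * t⁻¹⁻¹ = x := by group
          rwa [e3] at h3
      have hVp2 : IsPGroup 2 ↥Vp := hQ2.to_le (inf_le_left.trans hVQ)
      have hVpbot : Vp = ⊥ := by
        by_contra hne
        obtain ⟨u, hu, hu1, huT⟩ := hFix T Vp hT hVp2 hVpN hne
        rw [hVpmem] at hu
        apply hu1
        refine hfix u hu.1 huT ?_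
        have hK0 : ∃ t ∈ T, K = K.map (MulAut.conj t).toMonoidHom :=
          ⟨1, T.one_mem, by ext x; simp⟩
        exact hu.2 ⟨K, hK0⟩
      have hc1 : c = 1 := by
        have hcV : c ∈ Vp := (hVpmem c).mpr ⟨hc, fun i => hcs i.1 ((hsmem i.1).mpr i.2)⟩
        rwa [hVpbot, Subgroup.mem_bot] at hcV
      rw [e, hc1, one_mul]
      have hle : (⨆ K' ∈ s, wOf K') ≤ ⨆ i : Orb T K, wOf i.1 := by
        apply iSup₂_le
        intro K' hK'
        exact le_iSup (fun i : Orb T K => wOf i.1) ⟨K', (hsmem K').mp hK'⟩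
      exact hle hw
  have h2 : iSupIndep (fun i : Orb T K => wOf i.1) :=
    hInd (fun i : Orb T K => i.1) (fun i => wOf i.1) hcross hfpf
  have h4 : ∀ l ∈ L, ∀ i : Orb T K, ∃ j : Orb T K,
      (wOf i.1).map (MulAut.conj l).toMonoidHom = wOf j.1 := by
    intro l hl i
    have hVl : (omegaCenterOf (pCoreOf 2 L)).map (MulAut.conj l).toMonoidHom =
        omegaCenterOf (pCoreOf 2 L) := by
      have hn := hLV hl
      ext x
      constructor
      · rintro ⟨y, hy, rfl⟩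
        exact (Subgroup.mem_normalizer_iff.mp hn y).mp hy
      · intro hx
        refine ⟨l⁻¹ * x * l, ?_, by simp [mul_assoc]⟩
        exact (Subgroup.mem_normalizer_iff.mp hn (l⁻¹ * x * l)).mpr (by simpa [mul_assoc] using hx)
    have hcomm : ⁅omegaCenterOf (pCoreOf 2 L), i.1.map (MulAut.conj l).toMonoidHom⁆ =
        (wOf i.1).map (MulAut.conj l).toMonoidHom := by
      rw [(hd i).2.1, Subgroup.map_commutator, hVl]
    have hcard : Nat.card ↥⁅omegaCenterOf (pCoreOf 2 L),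
        i.1.map (MulAut.conj l).toMonoidHom⁆ = 4 := by
      rw [hcomm, ← (horb i).1.2.2.2.2.1]
      exact Nat.card_congr
        (Subgroup.equivMapOfInjective _ _ (MulAut.conj l).injective).symm.toEquiv
    obtain ⟨j, hj⟩ := hPerm (omegaCenterOf (pCoreOf 2 L)) (fun j : Orb T K => wOf j.1)
      (i.1.map (MulAut.conj l).toMonoidHom) h1 (fun j => (horb j).1.2.2.2.2.1)
      (hOdd i.1 l (horb i).1.1)
      (fun j => hNormG hL hNsol hZN T hT hT1 L hLT i.1 j.1 (horb i).1 (horb i).2 (horb j).1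
        (horb j).2 l hl) hcard
    exact ⟨j, hcomm ▸ hj⟩
  exact ⟨h1, h2, fun i => ⟨(horb i).1, (horb i).2, (horb i).1.2.2.2.2.1⟩, h4, hcross, hfpf⟩

end Cfsg.Agent.H52.Sr

#print axioms Cfsg.Agent.H52.Sr.struct_of
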