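import Cfsg.Agent.H52.SoDefs

/-!
# S2944 (`N_G(K) = N_G(W_K)` for `K ∈ 𝒦₀(T)`): statements of the pieces

Route.  `W = W_K`, `N = N_G(W)` is a 2-local containing `K` and `J(T)`; for a Sylow 2-subgroup
`S` of `N` containing `J(T)` we have `J(S) = J(T)`, `N` is in the family of `S` and `K` is a
`J(S)`-component (SETUP).  Inside `X = ↥N` (notation of `SnDefs`/`SoDefs`): the elements of odd
order of `J(X)` commute modulo `Q = O₂(X)` (GLP, a sharpening of GL using `[C, J(X)] ≤ Q`);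
for `n ∈ N`: `K^n C = K C` (NORMA, from UNIQ as `[V, K^n] = W^n = W`), then `K^n ≤ K Q` by
coprime action on the abelian group `⟨odd elements of J(X)⟩ Q / Q` and `K^n ≤ K` (NORMB).
-/

set_option autoImplicit false
open Cfsg

namespace Cfsg.Agent.H52.Sn

universe u

/-- GLPA: a central extension, with kernel of odd order, of a group generated by independent
normal copies of `SL(2,2) ≅ S₃`: the elements of odd order commute. -/
def StGLPA : Prop := ∀ {Y X' : Type u} [Group Y] [Finite Y] [Group X'] [Finite X'] (f : Y →* X')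
    {ι : Type u} (E : ι → Subgroup X'),
  (∀ z ∈ f.ker, ∀ y : Y, z * y = y * z) → Odd (Nat.card ↥f.ker) →
  (∀ i, f.range ≤ Subgroup.normalizer ((E i : Subgroup X') : Set X')) →
  (∀ i, Nonempty (↥(E i) ≃* Matrix.SpecialLinearGroup (Fin 2) (ZMod 2))) →
  iSupIndep E → (⨆ i, E i) = f.range →
  ∀ x y : Y, Odd (orderOf x) → Odd (orderOf y) → x * y = y * x

/-- CM: `[C, J(X)] ≤ Q` when `C ⊴ X` normalizes the Sylow 2-subgroup `T` and `T ∩ C ≤ Q ⊴ X`. -/
def StCM : Prop := ∀ {X : Type u} [Group X] [Finite X] (T C Q : Subgroup X),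
  IsPGroup 2 ↥T → Odd T.index → C.Normal → Q.Normal → T ⊓ C ≤ Q →
  C ≤ Subgroup.normalizer (T : Set X) →
  ⁅C, thompsonSubgroup 2 X⁆ ≤ Q

/-- GLP: sharpening of GL: the elements of odd order of `J(X)` commute modulo `O₂(X)`. -/
def StGLP : Prop := ∀ {X : Type u} [Group X] [Finite X] (T V : Subgroup X) [V.Normal],
  IsElementaryAbelian 2 V → IsPSolvable 2 X → IsPGroup 2 ↥T → Odd T.index →
  pCore 2 X ≤ Subgroup.centralizer (V : Set X) →
  Subgroup.centralizer (V : Set X) ≤ Subgroup.normalizer (T : Set X) →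
  ∀ x ∈ thompsonSubgroup 2 X, ∀ y ∈ thompsonSubgroup 2 X, Odd (orderOf x) → Odd (orderOf y) →
    x * y * x⁻¹ * y⁻¹ ∈ pCore 2 X

/-- NORMA: a conjugate `K^n` with `[V, K]^n ≤ [V, K]` has the same image modulo `C`. -/
def StNormA : Prop := ∀ {X : Type u} [Group X] [Finite X] (V T Q M J K O : Subgroup X)
    [V.Normal],
  IsElementaryAbelian 2 V → Facts T (Subgroup.centralizer (V : Set X)) Q M J K O → O ≤ Q →
  Nat.card ↥⁅V, K⁆ = 4 →
  ∀ n : X, (⁅V, K⁆).map (MulAut.conj n).toMonoidHom ≤ ⁅V, K⁆ →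
  K.map (MulAut.conj n).toMonoidHom ⊔ Subgroup.centralizer (V : Set X) =
    K ⊔ Subgroup.centralizer (V : Set X)

/-- NORMB: if `K^n ≤ K C` then `K^n ≤ K`. -/
def StNormB : Prop := ∀ {X : Type u} [Group X] [Finite X] (C Q M J K : Subgroup X) (n : X),
  C.Normal → Q.Normal → M.Normal → IsPGroup 2 ↥Q → ⁅C, M⁆ ≤ Q →
  (∀ x ∈ M, ∀ y ∈ M, Odd (orderOf x) → Odd (orderOf y) → x * y * x⁻¹ * y⁻¹ ∈ Q) →
  J ≤ M → ⁅K, J⁆ = K → Subgroup.closure {g : X | g ∈ K ∧ Odd (orderOf g)} = K →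
  Q ≤ Subgroup.normalizer (K : Set X) →
  K.map (MulAut.conj n).toMonoidHom ≤ K ⊔ C →
  K.map (MulAut.conj n).toMonoidHom ≤ K

/-- SETUP: `N_G(W_K)` is in the family of a Sylow 2-subgroup `S` of it containing `J(T)`, and
`K` is a `J(S)`-component. -/
def StSetup : Prop := ∀ {G : Type u} [Group G] [Finite G], IsCharacteristicTwoType G →
  ∀ (T : Subgroup G), IsPGroup 2 ↥T → ∀ (K : Subgroup G), K ∈ jComponentsZero T →
  ∃ S : Subgroup G, IsPGroup 2 ↥S ∧ S ≠ ⊥ ∧
    Subgroup.normalizer (wOf K : Set G) ∈ jOvergroups S ∧ IsJComponent S K ∧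
    K ≤ Subgroup.normalizer (wOf K : Set G)

/-- PART2: the second assertion of S2944, given `N_G(W_K) ≤ N_G(K)`. -/
def StPart2 : Prop := ∀ {G : Type u} [Group G] [Finite G] (T : Subgroup G), IsPGroup 2 ↥T →
  ∀ (K : Subgroup G), K ∈ jComponentsZero T →
  Subgroup.normalizer (wOf K : Set G) ≤ Subgroup.normalizer (K : Set G) →
  ∀ g : G, thompsonSubgroupOf 2 (T.map (MulAut.conj g).toMonoidHom) ≤
      Subgroup.normalizer (wOf K : Set G) →
    IsJComponent (T.map (MulAut.conj g).toMonoidHom) K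

/-- LE: `N_G(K) ≤ N_G(W_K)`. -/
def StLE : Prop := ∀ {G : Type u} [Group G] [Finite G] (K : Subgroup G),
  Subgroup.normalizer (K : Set G) ≤ Subgroup.normalizer (wOf K : Set G)

/-- The statement S2944. -/
def StMain3 : Prop := ∀ {G : Type u} [Group G] [Finite G],
  IsCharacteristicTwoType G →
  (∀ N : Subgroup G, IsTwoLocal N → Group.IsSolvable ↥N) →
  (∀ S : Sylow 2 G, Subgroup.centralizer (omegaCenterOf (S : Subgroup G) : Set G) ≤
      Subgroup.normalizer ((S : Subgroup G) : Set G)) →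
  ∀ (T : Subgroup G), IsPGroup 2 ↥T → T ≠ ⊥ → ∀ (K : Subgroup G), K ∈ jComponentsZero T →
  Subgroup.normalizer (K : Set G) = Subgroup.normalizer (wOf K : Set G) ∧
    ∀ g : G, thompsonSubgroupOf 2 (T.map (MulAut.conj g).toMonoidHom) ≤
        Subgroup.normalizer (wOf K : Set G) →
      IsJComponent (T.map (MulAut.conj g).toMonoidHom) K

end Cfsg.Agent.H52.Sn
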