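import Cfsg.Agent.H52.SpDefs
import Cfsg.Agent.H52.SoAsm

/-!
# S2944: assembly of the pieces
-/

set_option autoImplicit false
open Cfsg

namespace Cfsg.Agent.H52.Sn

universe u

/-- A subgroup `N` in the family of `S`, containing the `J(S)`-component `K` and normalizing
`W_K`, normalizes `K`. -/
theorem norm_le (hGL : StGL.{u}) (hRed : StRed.{u}) (hA : StFinA.{u})
    (hSyl : StIfSyl.{u}) (hV : StIfV.{u}) (hZ : StIfZ.{u}) (hS : StIfS.{u}) (hK : StIfK.{u})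
    (hN : StIfN.{u}) (hNC : StNC.{u}) (hWid : StWid.{u})
    (hGLP : StGLP.{u}) (hCM : StCM.{u}) (hNA : StNormA.{u}) (hNB : StNormB.{u})
    {G : Type u} [Group G] [Finite G]
    (hL : IsCharacteristicTwoType G)
    (hNsol : ∀ N : Subgroup G, IsTwoLocal N → Group.IsSolvable ↥N)
    (hZN : ∀ S : Sylow 2 G, Subgroup.centralizer (omegaCenterOf (S : Subgroup G) : Set G) ≤
      Subgroup.normalizer ((S : Subgroup G) : Set G))
    (S N K : Subgroup G) (hS2 : IsPGroup 2 ↥S) (hS1 : S ≠ ⊥) (hNS : N ∈ jOvergroups S)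
    (hKS : IsJComponent S K) (hKN : K ≤ N)
    (hNW : N ≤ Subgroup.normalizer (wOf K : Set G)) :
    N ≤ Subgroup.normalizer (K : Set G) := by
  have F := facts hGL hRed hSyl hV hZ hS hK hN hL hNsol hZN S hS2 hS1 N hNS K hKS hKN
  have hOQ := (hA _ _ _ _ _ _ _ F.hT F.hTi F.hC F.hQ F.hM F.hTC F.hJM F.hcomm F.hKgen
    F.hKJ F.hOK F.hO).1
  have hnc := hNC _ _ _ _ _ _ _ F
  have hw := hWid S N K _ hKS hKN F hOQ hnc
  obtain ⟨hVn, hVel, hQV⟩ := hV N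
  have hc : Nat.card ↥⁅(omegaCenterOf (pCoreOf 2 N)).subgroupOf N, K.subgroupOf N⁆ = 4 := by
    rw [← hKS.2.2.2.2.1, ← hw]
    exact Nat.card_congr (Subgroup.equivMapOfInjective _ _ (Subgroup.subtype_injective N)).toEquiv
  obtain ⟨hT2, hTi, -, -⟩ := hSyl S N hNS.1
  have hCT := hZ hZN S N hNS
  have hPS := hS hNsol S N hS1 hNS
  have := hVn
  have hcommP := hGLP (S.subgroupOf N) ((omegaCenterOf (pCoreOf 2 N)).subgroupOf N)
    hVel hPS hT2 hTi hQV hCT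
  have hCMm := hCM (S.subgroupOf N) _ _ F.hT F.hTi F.hC F.hQ F.hTC F.hCT
  have key : ∀ n ∈ N, ∀ k ∈ K, n * k * n⁻¹ ∈ K := by
    intro n hn k hk
    have hW' : (⁅(omegaCenterOf (pCoreOf 2 N)).subgroupOf N, K.subgroupOf N⁆).map
        (MulAut.conj (⟨n, hn⟩ : ↥N)).toMonoidHom ≤
        ⁅(omegaCenterOf (pCoreOf 2 N)).subgroupOf N, K.subgroupOf N⁆ := by
      rintro _ ⟨w, hw', rfl⟩
      have h1 : (w : G) ∈ wOf K := by
        rw [← hw]
        exact ⟨w, hw', rfl⟩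
      have h2 : n * (w : G) * n⁻¹ ∈ wOf K := (Subgroup.mem_normalizer_iff.mp (hNW hn) _).mp h1
      rw [← hw] at h2
      obtain ⟨w2, hw2, hw2e⟩ := h2
      have e : (MulAut.conj (⟨n, hn⟩ : ↥N)).toMonoidHom w = w2 := Subtype.ext hw2e.symm
      rw [e]
      exact hw2
    have h1 := hNA _ _ _ _ _ _ _ hVel F hOQ hc ⟨n, hn⟩ hW'
    have h2 := hNB _ _ _ _ _ (⟨n, hn⟩ : ↥N)
      F.hC F.hQ F.hM F.hQ2 hCMm hcommP F.hJM F.hKJ F.hKgen F.hQK
      (by rw [← h1]; exact le_sup_left)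
    have h3 : (MulAut.conj (⟨n, hn⟩ : ↥N)).toMonoidHom ⟨k, hKN hk⟩ ∈ K.subgroupOf N :=
      h2 ⟨⟨k, hKN hk⟩, hk, rfl⟩
    exact h3
  intro n hn
  rw [Subgroup.mem_normalizer_iff]
  intro h
  constructor
  · exact key n hn h
  · intro hh
    have h1 := key n⁻¹ (Subgroup.inv_mem _ hn) _ hh
    have e : n⁻¹ * (n * h * n⁻¹) * n⁻¹⁻¹ = h := by group
    rwa [e] at h1

/-- S2944 from the pieces. -/
theorem main3 (hGL : StGL.{u}) (hRed : StRed.{u}) (hA : StFinA.{u})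
    (hSyl : StIfSyl.{u}) (hV : StIfV.{u}) (hZ : StIfZ.{u}) (hS : StIfS.{u}) (hK : StIfK.{u})
    (hN : StIfN.{u}) (hNC : StNC.{u}) (hWid : StWid.{u})
    (hGLP : StGLP.{u}) (hCM : StCM.{u}) (hNA : StNormA.{u}) (hNB : StNormB.{u})
    (hSetup : StSetup.{u}) (hP2 : StPart2.{u}) (hLE : StLE.{u}) : StMain3.{u} := by
  intro G _ _ hL hNsol hZN T hT hT1 K hK0
  obtain ⟨S, hS2, hS1, hNS, hKS, hKN⟩ := hSetup hL T hT K hK0
  have hNK := norm_le hGL hRed hA hSyl hV hZ hS hK hN hNC hWid hGLP hCM hNA hNB hL hNsol hZN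
    S _ K hS2 hS1 hNS hKS hKN le_rfl
  exact ⟨le_antisymm (hLE K) hNK, hP2 T hT K hK0 hNK⟩

end Cfsg.Agent.H52.Sn
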