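import Cfsg.Agent.H52.SoDefs

/-!
# The `S₃^r` picture of `V = Ω₁(Z(O₂(L)))` at the level of `G` (for S2951 / S2952): statements

For `L ∈ ℒ(T)` and a `J(T)`-component `K ≤ L` with `C_V(T) ∩ C_V(K) = 1`: `V` is the internal
direct product of the four-groups `W_{K'}`, `K'` running over the `T`-conjugates of `K`, and
`L` permutes these four-groups.
-/

set_option autoImplicit false
open Cfsg

namespace Cfsg.Agent.H52.Sr

open Cfsg.Agent.H52.Sn

universe u

/-- The `T`-orbit of `K` (as a subtype of subgroups). -/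
abbrev Orb {G : Type u} [Group G] (T K : Subgroup G) : Type u :=
  {K' : Subgroup G // ∃ t ∈ T, K' = K.map (MulAut.conj t).toMonoidHom}

/-- CW (abstract, in `X = ↥L`): different components centralize each other's commutator on `V`. -/
def StCW : Prop := ∀ {X : Type u} [Group X] [Finite X] (V T Q M J K₁ O₁ K₂ O₂ : Subgroup X)
    [V.Normal],
  IsElementaryAbelian 2 V →
  Facts T (Subgroup.centralizer (V : Set X)) Q M J K₁ O₁ →
  Facts T (Subgroup.centralizer (V : Set X)) Q M J K₂ O₂ →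
  Nat.card ↥⁅V, K₁⁆ = 4 → Nat.card ↥⁅V, K₂⁆ = 4 → K₁ ≠ K₂ →
  ⁅V, K₁⁆ ≤ Subgroup.centralizer (K₂ : Set X)

/-- DEC (abstract): coprime decomposition of `V` under a subgroup acting through a group of
order 3, and fixed-point-freeness on the commutator. -/
def StDec : Prop := ∀ {X : Type u} [Group X] [Finite X] (V K O : Subgroup X) [V.Normal],
  IsElementaryAbelian 2 V → O ≤ K → O ≤ Subgroup.centralizer (V : Set X) → O.relIndex K = 3 →
  (∀ v ∈ V, ∃ c ∈ V, ∃ w ∈ ⁅V, K⁆, v = c * w ∧ c ∈ Subgroup.centralizer (K : Set X)) ∧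
  ⁅V, K⁆ ⊓ Subgroup.centralizer (K : Set X) = ⊥

/-- SUP (abstract): simultaneous decomposition along a finite set of subgroups. -/
def StSup : Prop := ∀ {X : Type u} [Group X] (V : Subgroup X) (W : Subgroup X → Subgroup X)
    (s : Finset (Subgroup X)),
  (∀ K ∈ s, ∀ v ∈ V, ∃ c ∈ V, ∃ w ∈ W K, v = c * w ∧ c ∈ Subgroup.centralizer (K : Set X)) →
  (∀ K₁ ∈ s, ∀ K₂ ∈ s, K₁ ≠ K₂ → W K₁ ≤ Subgroup.centralizer (K₂ : Set X)) →
  ∀ v ∈ V, ∃ c ∈ V, ∃ w ∈ ⨆ K ∈ s, W K, v = c * w ∧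
    ∀ K ∈ s, c ∈ Subgroup.centralizer (K : Set X)

/-- IND (abstract): independence of the family. -/
def StInd : Prop := ∀ {X : Type u} [Group X] {ι : Type u} (K W : ι → Subgroup X),
  (∀ i j, i ≠ j → W i ≤ Subgroup.centralizer (K j : Set X)) →
  (∀ i, W i ⊓ Subgroup.centralizer (K i : Set X) = ⊥) →
  iSupIndep W

/-- PERM (abstract): a subgroup generated by elements of odd order, normalizing every member of
a family of four-groups generating `V`, with `[V, A]` of order 4, has `[V, A]` in the family. -/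
def StPerm : Prop := ∀ {X : Type u} [Group X] [Finite X] {ι : Type u} (V : Subgroup X)
    (W : ι → Subgroup X) (A : Subgroup X),
  (⨆ i, W i) = V → (∀ i, Nat.card ↥(W i) = 4) →
  Subgroup.closure {g : X | g ∈ A ∧ Odd (orderOf g)} = A →
  (∀ i, A ≤ Subgroup.normalizer (W i : Set X)) →
  Nat.card ↥⁅V, A⁆ = 4 → ∃ i, ⁅V, A⁆ = W i

/-- FIX (abstract): a 2-group normalizing a nontrivial 2-subgroup centralizes a nontrivial
element of it. -/
def StFix : Prop := ∀ {X : Type u} [Group X] [Finite X] (T U : Subgroup X),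
  IsPGroup 2 ↥T → IsPGroup 2 ↥U → T ≤ Subgroup.normalizer (U : Set X) → U ≠ ⊥ →
  ∃ u ∈ U, u ≠ 1 ∧ u ∈ Subgroup.centralizer (T : Set X)

/-- ODD (abstract): being generated by elements of odd order is invariant under conjugation. -/
def StOdd : Prop := ∀ {X : Type u} [Group X] (A : Subgroup X) (l : X),
  Subgroup.closure {g : X | g ∈ A ∧ Odd (orderOf g)} = A →
  Subgroup.closure {g : X | g ∈ A.map (MulAut.conj l).toMonoidHom ∧ Odd (orderOf g)} =
    A.map (MulAut.conj l).toMonoidHom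

/-- VNG: `V = Ω₁(Z(O₂(L)))` is normalized by `L` and has exponent 2 (any group). -/
def StVNG : Prop := ∀ {G : Type u} [Group G] [Finite G] (L : Subgroup G),
  L ≤ Subgroup.normalizer (omegaCenterOf (pCoreOf 2 L) : Set G) ∧
  (∀ v ∈ omegaCenterOf (pCoreOf 2 L), v * v = 1) ∧
  omegaCenterOf (pCoreOf 2 L) ≤ pCoreOf 2 L ∧ pCoreOf 2 L ≤ L ∧ IsPGroup 2 ↥(pCoreOf 2 L)

/-- NORMG: `L`-conjugates of `J(T)`-components of `L` normalize `W_{K₂}`. -/
def StNormG : Prop := ∀ {G : Type u} [Group G] [Finite G],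
  IsCharacteristicTwoType G →
  (∀ N : Subgroup G, IsTwoLocal N → Group.IsSolvable ↥N) →
  (∀ S : Sylow 2 G, Subgroup.centralizer (omegaCenterOf (S : Subgroup G) : Set G) ≤
      Subgroup.normalizer ((S : Subgroup G) : Set G)) →
  ∀ (T : Subgroup G), IsPGroup 2 ↥T → T ≠ ⊥ → ∀ (L : Subgroup G), L ∈ jOvergroups T →
  ∀ (K₁ K₂ : Subgroup G), IsJComponent T K₁ → K₁ ≤ L → IsJComponent T K₂ → K₂ ≤ L →
  ∀ l ∈ L, K₁.map (MulAut.conj l).toMonoidHom ≤ Subgroup.normalizer (wOf K₂ : Set G)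

/-- The structure statement (G1). -/
def StStruct : Prop := ∀ {G : Type u} [Group G] [Finite G],
  IsCharacteristicTwoType G →
  (∀ N : Subgroup G, IsTwoLocal N → Group.IsSolvable ↥N) →
  (∀ S : Sylow 2 G, Subgroup.centralizer (omegaCenterOf (S : Subgroup G) : Set G) ≤
      Subgroup.normalizer ((S : Subgroup G) : Set G)) →
  ∀ (T : Subgroup G), IsPGroup 2 ↥T → T ≠ ⊥ → ∀ (L : Subgroup G), L ∈ jOvergroups T →
  ∀ (K : Subgroup G), IsJComponent T K → K ≤ L →
  (∀ v ∈ omegaCenterOf (pCoreOf 2 L), v ∈ Subgroup.centralizer (T : Set G) →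
    v ∈ Subgroup.centralizer (K : Set G) → v = 1) →
  (⨆ i : Orb T K, wOf i.1) = omegaCenterOf (pCoreOf 2 L) ∧
  iSupIndep (fun i : Orb T K => wOf i.1) ∧
  (∀ i : Orb T K, IsJComponent T i.1 ∧ i.1 ≤ L ∧ Nat.card ↥(wOf i.1) = 4) ∧
  (∀ l ∈ L, ∀ i : Orb T K, ∃ j : Orb T K,
    (wOf i.1).map (MulAut.conj l).toMonoidHom = wOf j.1) ∧
  (∀ i j : Orb T K, i ≠ j → wOf i.1 ≤ Subgroup.centralizer (j.1 : Set G)) ∧
  (∀ i : Orb T K, wOf i.1 ⊓ Subgroup.centralizer (i.1 : Set G) = ⊥)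

end Cfsg.Agent.H52.Sr
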