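import Cfsg.Agent.H52.SrAsm
import Cfsg.Agent.H14.UqNormWG
import Cfsg.Agent.H32.SrVNG
import Cfsg.Agent.H56.SrFIX
import Cfsg.Agent.H6.SrPERM
import Cfsg.Agent.H82.SrInd
import Cfsg.Agent.H82.SrOdd
import Cfsg.Agent.H35.SrCW
import Cfsg.Agent.H35.SrSUP
import Cfsg.Agent.H40.SrDEC

/-!
# The `S₃^r` picture of `V = Ω₁(Z(O₂(L)))` at the level of `G` (G1): closed form

`Cfsg.Agent.H52.Sr.struct : StStruct` — for `L ∈ ℒ(T)` and a `J(T)`-component `K ≤ L` with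
`C_V(T) ∩ C_V(K) = 1`, the group `V` is the internal direct product of the four-groups `W_{K'}`,
`K'` running over the `T`-conjugates of `K`; `L` permutes them; different blocks centralize each
other's components and `K'` is fixed-point-free on `W_{K'}`.
-/

set_option autoImplicit false
set_option linter.unusedVariables false
set_option linter.style.haveILetI false
open Cfsg

namespace Cfsg.Agent.H52.Sr

open Cfsg.Agent.H52.Sn

universe u

/-- NORMG: `L`-conjugates of `J(T)`-components of `L` normalize `W_{K₂}` (via helper14's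
`normW_G`: `J(↥L)` normalizes `W_{K₂}`, and `K₁ ≤ J(↥L) ⊴ L`). -/
theorem normG_local : StNormG.{u} := by
  intro G _ _ hL hNsol hZN T hT hT1 L hLT K₁ K₂ hK1c hK1L hK2c hK2L l hl
  haveI : Fact (Nat.Prime 2) := ⟨Nat.prime_two⟩
  have F1 := facts (Cfsg.Agent.H14.Sn.gl Cfsg.Agent.H89.Sn.gla) Cfsg.Agent.H5.Sn.red
    Cfsg.Agent.H63.Sn.ifSyl Cfsg.Agent.H63.Sn.ifV Cfsg.Agent.H63.Sn.ifZ Cfsg.Agent.H71.Sn.ifS
    Cfsg.Agent.H71.Sn.ifK Cfsg.Agent.H80.Sn.ifN hL hNsol hZN T hT hT1 L hLT K₁ hK1c hK1L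
  have hKM : K₁.subgroupOf L ≤ thompsonSubgroup 2 ↥L := by
    haveI := F1.hM
    rw [← F1.hKJ]
    exact (Subgroup.commutator_mono le_rfl F1.hJM).trans (Subgroup.commutator_le_right _ _)
  refine le_trans ?_ (Cfsg.Agent.H14.Uq.normW_G hL hNsol hZN T hT hT1 L hLT K₂ hK2c hK2L)
  rintro _ ⟨k, hk, rfl⟩
  have h1 : (⟨k, hK1L hk⟩ : ↥L) ∈ thompsonSubgroup 2 ↥L := hKM (Subgroup.mem_subgroupOf.mpr hk)
  have h2 := F1.hM.conj_mem _ h1 ⟨l, hl⟩
  exact ⟨_, h2, by simp⟩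

/-- **(G1)**: the structure of `V = Ω₁(Z(O₂(L)))` under the `T`-orbit of a `J(T)`-component. -/
theorem struct : StStruct.{u} :=
  struct_of
    (Cfsg.Agent.H35.Sr.cw
      (Cfsg.Agent.H5.Sn.abs Cfsg.Agent.H91.Sn.finA Cfsg.Agent.H54.Sn.uniq Cfsg.Agent.H25.So.inj))
    Cfsg.Agent.H40.Sr.dec Cfsg.Agent.H35.Sr.sup
    Cfsg.Agent.H82.Sr.ind Cfsg.Agent.H6.Sr.perm Cfsg.Agent.H56.Sr.fix Cfsg.Agent.H82.Sr.odd
    Cfsg.Agent.H32.Sr.vng normG_local

example : StStruct.{u} := struct.{u}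

end Cfsg.Agent.H52.Sr

#print axioms Cfsg.Agent.H52.Sr.struct
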