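import Mathlib
import Cfsg.Prelude.Def_PLocal

/-!
# S2772 (Sims' theorem in local form): statements of the pieces

Route: (A) `q = 3` by the Thompson-subgroup / transvection argument, (B) Sims' theorem on
primitive groups with a suborbit of length 3 (S3385) bounds the order by 48, (C) identification
of the group of order 24 or 48.
-/

set_option autoImplicit false

namespace Cfsg.Agent.H52.Sm

universe u

/-- The abstract local hypothesis: `M` with `Q = O₂(M)`, `S` a Sylow 2-subgroup, `C_M(Q) ≤ Q`,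
`M/Q` dihedral of order `2q` (`q` an odd prime), and an element `t` normalizing `S` such that no
nontrivial subgroup of `S` is normalized by both `M` and `t`. -/
structure Hyp {H : Type u} [Group H] (M Q S : Subgroup H) (t : H) (q : ℕ) : Prop where
  qp : q.Prime
  q2 : q ≠ 2
  QS : Q ≤ S
  SM : S ≤ M
  Qn : ∀ m ∈ M, ∀ x ∈ Q, m * x * m⁻¹ ∈ Q
  S2 : IsPGroup 2 S
  card : Nat.card S = 2 * Nat.card Q
  cent : ∀ x ∈ M, (∀ y ∈ Q, x * y = y * x) → x ∈ Q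
  dih : ∃ f : ↥M →* DihedralGroup q, Function.Surjective f ∧ ∀ m : ↥M, f m = 1 ↔ (m : H) ∈ Q
  tS : ∀ s ∈ S, t * s * t⁻¹ ∈ S
  star : ∀ A : Subgroup H, A ≤ S → (∀ m ∈ M, ∀ a ∈ A, m * a * m⁻¹ ∈ A) →
    (∀ a ∈ A, t * a * t⁻¹ ∈ A) → A = ⊥

/-- `A` is an abelian subgroup of `S` of largest order. -/
def MaxAb {H : Type u} [Group H] (S A : Subgroup H) : Prop :=
  A ≤ S ∧ (∀ a ∈ A, ∀ b ∈ A, a * b = b * a) ∧
    ∀ B : Subgroup H, B ≤ S → (∀ a ∈ B, ∀ b ∈ B, a * b = b * a) → Nat.card B ≤ Nat.card A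

/-- `V ≤ Z(Q)` is normalized by `M` and `C_M(V) ≤ Q`. -/
def IsMod {H : Type u} [Group H] (M Q V : Subgroup H) : Prop :=
  V ≤ Q ∧ (∀ v ∈ V, ∀ x ∈ Q, v * x = x * v) ∧ (∀ m ∈ M, ∀ v ∈ V, m * v * m⁻¹ ∈ V) ∧
    (∀ m ∈ M, (∀ v ∈ V, m * v = v * m) → m ∈ Q)

/-! ### Part A: `q = 3` -/

/-- SM-J: some abelian subgroup of `S` of largest order is not contained in `Q`. -/
def StJ : Prop := ∀ {H : Type u} [Group H] [Finite H] (M Q S : Subgroup H) (t : H) (q : ℕ),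
  Hyp M Q S t q → ∃ A : Subgroup H, MaxAb S A ∧ ¬ A ≤ Q

/-- SM-CV: the normal closure `V` of `Z(S)` in `M` has `C_M(V) = Q`. -/
def StCV : Prop := ∀ {H : Type u} [Group H] [Finite H] (M Q S : Subgroup H) (t : H) (q : ℕ),
  Hyp M Q S t q → ∃ V : Subgroup H, IsMod M Q V

/-- SM-TV: elements of a largest abelian subgroup act as transvections on `V`. -/
def StTV : Prop := ∀ {H : Type u} [Group H] [Finite H] (M Q S : Subgroup H) (t : H) (q : ℕ),
  Hyp M Q S t q → ∀ A V : Subgroup H, MaxAb S A → IsMod M Q V →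
    ∀ a ∈ A, Nat.card V ≤ 2 * Nat.card ↥(V ⊓ Subgroup.centralizer ({a} : Set H))

/-- SM-FIN: a transvection outside `Q` forces `q = 3`. -/
def StFin : Prop := ∀ {H : Type u} [Group H] [Finite H] (M Q S : Subgroup H) (t : H) (q : ℕ),
  Hyp M Q S t q → ∀ (V : Subgroup H) (a : H), IsMod M Q V → a ∈ S → a ∉ Q →
    Nat.card V ≤ 2 * Nat.card ↥(V ⊓ Subgroup.centralizer ({a} : Set H)) → q = 3

/-- Part A assembled. -/
def StQ3 : Prop := ∀ {H : Type u} [Group H] [Finite H] (M Q S : Subgroup H) (t : H) (q : ℕ),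
  Hyp M Q S t q → q = 3

/-! ### Part B: Sims' theorem -/

/-- SM-SIMS: by S3385 the order of `G` is `2 ^ k * 3` with `k ≤ 4`. -/
def StSims : Prop := ∀ {H : Type u} [Group H] [Finite H] [IsSimpleGroup H] (G Q S : Subgroup H)
  (t : H), IsCoatom G → t ∉ G → Hyp G Q S t 3 → ∃ k : ℕ, k ≤ 4 ∧ Nat.card ↥G = 2 ^ k * 3

/-! ### Part C: identification -/

/-- The hypotheses of the identification step on an abstract group `M`. -/
structure IdHyp (M : Type u) [Group M] (Q S : Subgroup M) : Prop where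
  Qn : Q.Normal
  QS : Q ≤ S
  card : Nat.card S = 2 * Nat.card Q
  cent : Subgroup.centralizer (Q : Set M) ≤ Q
  dih : ∃ f : M →* DihedralGroup 3, Function.Surjective f ∧ f.ker = Q
  sims : ∃ k : ℕ, k ≤ 4 ∧ Nat.card M = 2 ^ k * 3
  zs : ¬ ∀ m : M, ∀ z ∈ S ⊓ Subgroup.centralizer (S : Set M),
      m * z * m⁻¹ ∈ S ⊓ Subgroup.centralizer (S : Set M)
  qconj : ∃ Q' : Subgroup M, Q' ≤ S ∧ Q' ≠ Q ∧ Nonempty (↥Q ≃* ↥Q')

/-- Part C assembled. -/
def StId : Prop := ∀ (M : Type u) [Group M] [Finite M] (Q S : Subgroup M), IdHyp M Q S →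
  Nonempty (M ≃* Equiv.Perm (Fin 4)) ∨
    Nonempty (M ≃* Equiv.Perm (Fin 4) × Multiplicative (ZMod 2))

/-- SM-CARD: `|Q| = 4` or `8`. -/
def StIdCard : Prop := ∀ (M : Type u) [Group M] [Finite M] (Q : Subgroup M), Q.Normal →
  Subgroup.centralizer (Q : Set M) ≤ Q →
  (∃ f : M →* DihedralGroup 3, Function.Surjective f ∧ f.ker = Q) →
  (∃ k : ℕ, k ≤ 4 ∧ Nat.card M = 2 ^ k * 3) → Nat.card Q = 4 ∨ Nat.card Q = 8

/-- SM-SURJ: a surjection onto `S₄` from a normal four-group `W` on which an element `y` of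
order 3 acts fixed-point-freely. -/
def StSurj : Prop := ∀ (M : Type u) [Group M] [Finite M] (W : Subgroup M)
  (f : M →* DihedralGroup 3) (y : M),
  W.Normal → Nat.card W = 4 → Function.Surjective f → W ≤ f.ker → IsPGroup 2 f.ker →
  y ^ 3 = 1 → f y ≠ 1 → (∀ w ∈ W, y * w * y⁻¹ = w → w = 1) →
  (∀ x ∈ f.ker, ∃ w ∈ W, ∃ c : M, c * y = y * c ∧ x = w * c) →
  ∃ ψ : M →* Equiv.Perm (Fin 4), Function.Surjective ψ

/-- SM-ID24: order 24. -/
def StId24 : Prop := ∀ (M : Type u) [Group M] [Finite M] (Q : Subgroup M), Q.Normal →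
  Nat.card Q = 4 → Subgroup.centralizer (Q : Set M) ≤ Q →
  (∃ f : M →* DihedralGroup 3, Function.Surjective f ∧ f.ker = Q) →
  Nonempty (M ≃* Equiv.Perm (Fin 4))

/-- SM-ELEM: if `|Q| = 8` then `Q` is elementary abelian. -/
def StElem : Prop := ∀ (M : Type u) [Group M] [Finite M] (Q S : Subgroup M), IdHyp M Q S →
  Nat.card Q = 8 → ∀ x ∈ Q, x * x = 1

/-- SM-CEN: `Q = ⟨e⟩ × W` with `e` central in `M` and `W` a normal four-group. -/
def StCen : Prop := ∀ (M : Type u) [Group M] [Finite M] (Q : Subgroup M)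
  (f : M →* DihedralGroup 3),
  Q.Normal → Nat.card Q = 8 → (∀ x ∈ Q, x * x = 1) → Subgroup.centralizer (Q : Set M) ≤ Q →
  Function.Surjective f → f.ker = Q →
  ∃ (e y : M) (W : Subgroup M), e ∈ Q ∧ e ≠ 1 ∧ (∀ m : M, m * e = e * m) ∧ W.Normal ∧ W ≤ Q ∧
    Nat.card W = 4 ∧ e ∉ W ∧ y ^ 3 = 1 ∧ f y ≠ 1 ∧ (∀ w ∈ W, y * w * y⁻¹ = w → w = 1) ∧
    (∀ x ∈ Q, ∃ w ∈ W, ∃ c : M, c * y = y * c ∧ x = w * c)

/-- SM-SIGN: a central involution outside a subgroup of index `≡ 2 (mod 4)` is detected by a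
sign character. -/
def StSign : Prop := ∀ (M : Type u) [Group M] [Finite M] (L : Subgroup M) (e : M),
  e * e = 1 → (∀ m : M, m * e = e * m) → e ∉ L → L.index % 4 = 2 →
  ∃ χ : M →* ℤˣ, χ e = -1

/-- SM-ID48: order 48 with `Q` elementary abelian and an involution outside `Q`. -/
def StId48E : Prop := ∀ (M : Type u) [Group M] [Finite M] (Q : Subgroup M), Q.Normal →
  Nat.card Q = 8 → (∀ x ∈ Q, x * x = 1) → Subgroup.centralizer (Q : Set M) ≤ Q →
  (∃ f : M →* DihedralGroup 3, Function.Surjective f ∧ f.ker = Q) →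
  (∃ s : M, s ∉ Q ∧ s * s = 1) →
  Nonempty (M ≃* Equiv.Perm (Fin 4) × Multiplicative (ZMod 2))

/-! ### Part D: setup in the frozen context -/

/-- SM-TWO: `q ≠ 2`. -/
def StTwo : Prop := ∀ {H : Type u} [Group H] [Finite H] [IsSimpleGroup H] (G : Subgroup H),
  IsCoatom G → ∀ (S : Sylow 2 ↥G),
  ¬ Subgroup.normalizer (((S : Subgroup ↥G).map G.subtype : Subgroup H) : Set H) ≤ G →
  ∀ (q : ℕ), Nonempty (↥G ⧸ Cfsg.pCore 2 ↥G ≃* DihedralGroup q) → q ≠ 2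

/-- SM-SETUP: the frozen hypotheses give the abstract hypothesis `Hyp`. -/
def StSetup : Prop := ∀ {H : Type u} [Group H] [Finite H] [IsSimpleGroup H] (G : Subgroup H),
  IsCoatom G → Subgroup.centralizer (Cfsg.pCore 2 ↥G : Set ↥G) ≤ Cfsg.pCore 2 ↥G →
  ∀ (S : Sylow 2 ↥G),
  ¬ Subgroup.normalizer (((S : Subgroup ↥G).map G.subtype : Subgroup H) : Set H) ≤ G →
  ∀ (q : ℕ), q.Prime → q ≠ 2 → Nonempty (↥G ⧸ Cfsg.pCore 2 ↥G ≃* DihedralGroup q) →
  ∃ t : H, t ∉ G ∧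
    Hyp G ((Cfsg.pCore 2 ↥G).map G.subtype) ((S : Subgroup ↥G).map G.subtype) t q

/-- SM-IDSETUP: `Hyp` with `q = 3` and the order bound give `IdHyp`. -/
def StIdSetup : Prop := ∀ {H : Type u} [Group H] [Finite H] (G : Subgroup H)
  (Q S : Subgroup ↥G) (t : H),
  Hyp G (Q.map G.subtype) (S.map G.subtype) t 3 →
  (∃ k : ℕ, k ≤ 4 ∧ Nat.card ↥G = 2 ^ k * 3) → IdHyp ↥G Q S

end Cfsg.Agent.H52.Sm
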