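import Mathlib
import Cfsg.Prelude.Def_Transfer
import Cfsg.Prelude.Def_LieTwisted
import Cfsg.Agent.H29.Dk1

/-!
# Team project S2787 (helper52): exact statements of the pieces

No quadratic action on nontrivial irreducible characteristic-`p` modules of `PSL₂(pⁿ)` (`p` odd)
and of the Ree groups `²G₂(q)` (`p = 3`).

* `PSL₂` branch: an element `x` of order `p` has a conjugate `y` with `x y x = y x y`,
  `(x y x)² = 1` (image of `SL₂(p)`); if `x - 1`, `y - 1` both square to zero on a module without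
  `2`-torsion, then `x = y` there (`StQ`).
* Ree branch: a quadratic pair `x, y` generating a non-`p`-group has a section containing `SL₂(p)`
  (helper29's weak Dickson theorem), hence an element of order `4`; Ree groups have none.
-/

set_option autoImplicit false

namespace Cfsg.Agent.H52.QS

open Cfsg.Agent.H29.Dk

universe u

/-- QS-P: braid relation for elements of order `p` in `PSL₂(F)`. -/
def StP : Prop :=
  ∀ (p : ℕ) [Fact p.Prime], p ≠ 2 → ∀ (F : Type) [Field F] [Finite F] [CharP F p]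
    (x : Matrix.ProjectiveSpecialLinearGroup (Fin 2) F), x ≠ 1 → x ^ p = 1 →
    ∃ g : Matrix.ProjectiveSpecialLinearGroup (Fin 2) F,
      g * x * g⁻¹ ≠ x ∧ x * (g * x * g⁻¹) * x = (g * x * g⁻¹) * x * (g * x * g⁻¹) ∧
      (x * (g * x * g⁻¹) * x) * (x * (g * x * g⁻¹) * x) = 1

/-- QS-Q: the operator identity. -/
def StQ : Prop :=
  ∀ (E : Type u) [Ring E], (∀ a : E, a + a = 0 → a = 0) → ∀ X Y : E, X * X = 0 → Y * Y = 0 →
    (1 + X) * (1 + Y) * (1 + X) = (1 + Y) * (1 + X) * (1 + Y) →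
    ((1 + X) * (1 + Y) * (1 + X)) * ((1 + X) * (1 + Y) * (1 + X)) = 1 → X = Y

/-- QS-NIL: if `X * Y` is nilpotent, the monoid generated by `1 + X`, `1 + Y` consists of
`p`-elements. -/
def StNil : Prop :=
  ∀ (p : ℕ) [Fact p.Prime] (M : Type u) [AddCommGroup M] [Module (ZMod p) M]
    (X Y : Module.End (ZMod p) M), X * X = 0 → Y * Y = 0 → ∀ k : ℕ, (X * Y) ^ k = 0 →
    ∀ g ∈ Submonoid.closure ({1 + X, 1 + Y} : Set (Module.End (ZMod p) M)), ∃ n : ℕ, g ^ (p ^ n) = 1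

/-- QS-FAC: a non-nilpotent endomorphism has an irreducible factor `f ≠ X` of its minimal
polynomial with a nonzero `f`-torsion vector. -/
def StFac : Prop :=
  ∀ (p : ℕ) [Fact p.Prime] (M : Type u) [AddCommGroup M] [Module (ZMod p) M] [Finite M]
    (T : Module.End (ZMod p) M), (∀ k : ℕ, T ^ k ≠ 0) →
    ∃ f : Polynomial (ZMod p), Irreducible f ∧ f.eval 0 ≠ 0 ∧
      ∃ v : M, v ≠ 0 ∧ Polynomial.aeval T f v = 0

/-- QS-SECA: linear algebra on `W = ker f(XY)`. -/
def StSecA : Prop :=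
  ∀ (p : ℕ) [Fact p.Prime] (M : Type u) [AddCommGroup M] [Module (ZMod p) M]
    (X Y : Module.End (ZMod p) M), X * X = 0 → Y * Y = 0 →
    ∀ f : Polynomial (ZMod p), f.eval 0 ≠ 0 →
    ∀ w ∈ LinearMap.ker (Polynomial.aeval (X * Y) f),
      X w = 0 ∧ (X * Y) w ∈ LinearMap.ker (Polynomial.aeval (X * Y) f) ∧
      ∀ w' ∈ LinearMap.ker (Polynomial.aeval (X * Y) f), w + Y w' = 0 → w = 0 ∧ w' = 0

/-- QS-SECB: `SL₂(K)` acts on `W × W` through a ring homomorphism `K → End W`. -/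
def StSecB : Prop :=
  ∀ (p : ℕ) [Fact p.Prime] (K : Type) [Field K] (W : Type u) [AddCommGroup W]
    [Module (ZMod p) W] (r : K →+* Module.End (ZMod p) W),
    ∃ Φ : Matrix.SpecialLinearGroup (Fin 2) K →* Module.End (ZMod p) (W × W),
      (∀ (d : Matrix.SpecialLinearGroup (Fin 2) K) (w₁ w₂ : W),
        Φ d (w₁, w₂) = (r (d.1 0 0) w₁ + r (d.1 0 1) w₂, r (d.1 1 0) w₁ + r (d.1 1 1) w₂)) ∧
      (Nontrivial W → Function.Injective Φ)

/-- QS-SECC: the section: the monoid generated by `1 + X`, `1 + Y` covers the monoid generated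
by `uT lam`, `lT 1` in `SL₂(K)`, `K = 𝔽_p[t]/(f)`, `lam = t`. -/
def StSecC : Prop :=
  ∀ (p : ℕ) [Fact p.Prime] (M : Type u) [AddCommGroup M] [Module (ZMod p) M]
    (X Y : Module.End (ZMod p) M), X * X = 0 → Y * Y = 0 →
    ∀ f : Polynomial (ZMod p), Irreducible f → f.eval 0 ≠ 0 →
    ∀ v : M, v ≠ 0 → Polynomial.aeval (X * Y) f v = 0 →
    ∃ (K : Type) (_ : Field K) (_ : Finite K) (_ : CharP K p) (lam : K), lam ≠ 0 ∧
      ∀ d ∈ Submonoid.closure ({uT lam, lT 1} : Set (Matrix.SpecialLinearGroup (Fin 2) K)),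
        ∃ g ∈ Submonoid.closure ({1 + X, 1 + Y} : Set (Module.End (ZMod p) M)),
          ∀ n : ℕ, g ^ n = 1 → d ^ n = 1

/-- QS-DICK4: an element of order `4` (from helper29's weak Dickson theorem). -/
def StDick4 : Prop :=
  ∀ (p : ℕ) [Fact p.Prime], p ≠ 2 → ∀ (K : Type) [Field K] [Finite K] [CharP K p] (lam : K),
    lam ≠ 0 →
    ∃ d ∈ Submonoid.closure ({uT lam, lT 1} : Set (Matrix.SpecialLinearGroup (Fin 2) K)),
      d ^ 2 ≠ 1 ∧ d ^ 4 = 1

/-- QS-SEC (assembled from FAC, SECC, DICK4): if `X * Y` is not nilpotent, the monoid generated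
by `1 + X`, `1 + Y` contains an element whose order is divisible by `4`. -/
def StSec : Prop :=
  ∀ (p : ℕ) [Fact p.Prime], p ≠ 2 → ∀ (M : Type u) [AddCommGroup M] [Module (ZMod p) M] [Finite M]
    (X Y : Module.End (ZMod p) M), X * X = 0 → Y * Y = 0 → (∀ k : ℕ, (X * Y) ^ k ≠ 0) →
    ∃ g ∈ Submonoid.closure ({1 + X, 1 + Y} : Set (Module.End (ZMod p) M)),
      ∀ n : ℕ, g ^ n = 1 → 4 ∣ n

/-- QS-REE4: the Ree groups have no element of order `4`. -/
def StRee4 : Prop :=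
  ∀ (K : Type) [Field K] [Fintype K] (m : ℕ), Fintype.card K = 3 ^ (2 * m + 1) →
    ∀ g : ↥(Cfsg.Lie.twistedG2 K (3 ^ m)), g ^ 4 = 1 → g ^ 2 = 1

/-- QS-BS: Baer–Suzuki plus irreducibility: a nontrivial `p`-element of a group acting faithfully
and irreducibly generates a non-`p`-group with one of its conjugates. -/
def StBS : Prop :=
  ∀ (p : ℕ) [Fact p.Prime] (Q : Type u) [Group Q] [Finite Q] (M : Type u) [AddCommGroup M]
    [Module (ZMod p) M] [Finite M] (ρ : Q →* Module.End (ZMod p) M), Function.Injective ρ →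
    (∀ U : Submodule (ZMod p) M, (∀ q : Q, ∀ u ∈ U, ρ q u ∈ U) → U = ⊥ ∨ U = ⊤) →
    ∀ x : Q, x ≠ 1 → x ^ p = 1 →
    ∃ g : Q, ¬ IsPGroup p ↥(Subgroup.closure ({x, g * x * g⁻¹} : Set Q))

/-- QS-REDA: linearisation of the conjugation action of `H / C_H(V)` on `V`. -/
def StRedA : Prop :=
  ∀ {G : Type u} [Group G] [Finite G] {p : ℕ} [Fact p.Prime] (V H : Subgroup G),
    Cfsg.IsElementaryAbelian p V → H ≤ Subgroup.normalizer (V : Set G) →
    ∀ [((Subgroup.centralizer (V : Set G)).subgroupOf H).Normal],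
      ∃ (M : Type u) (_ : AddCommGroup M) (_ : Module (ZMod p) M) (φ : ↥V → M)
        (ρ : (↥H ⧸ (Subgroup.centralizer (V : Set G)).subgroupOf H) →* Module.End (ZMod p) M),
        Function.Bijective φ ∧ (∀ v w : ↥V, φ (v * w) = φ v + φ w) ∧ Function.Injective ρ ∧
        ∀ (h : ↥H) (v w : ↥V), (w : G) = (h : G) * (v : G) * (h : G)⁻¹ →
          ρ (QuotientGroup.mk h) (φ v) = φ w

/-- QS-REDB (from REDA): the reduction of S2787 to a faithful irreducible module with a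
nontrivial quadratic element. -/
def StRed : Prop :=
  ∀ {G : Type u} [Group G] [Finite G] {p : ℕ} [Fact p.Prime] (V H : Subgroup G),
    Cfsg.IsElementaryAbelian p V → H ≤ Subgroup.normalizer (V : Set G) →
    (∀ U : Subgroup G, U ≤ V → H ≤ Subgroup.normalizer (U : Set G) → U = ⊥ ∨ U = V) →
    ∀ [((Subgroup.centralizer (V : Set G)).subgroupOf H).Normal] (A : Subgroup G), A ≤ H →
      ⁅⁅V, A⁆, A⁆ = ⊥ → ⁅V, A⁆ ≠ ⊥ →
      ∃ (M : Type u) (_ : AddCommGroup M) (_ : Module (ZMod p) M) (_ : Finite M)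
        (ρ : (↥H ⧸ (Subgroup.centralizer (V : Set G)).subgroupOf H) →* Module.End (ZMod p) M)
        (x : ↥H ⧸ (Subgroup.centralizer (V : Set G)).subgroupOf H),
        Function.Injective ρ ∧ x ≠ 1 ∧ (ρ x - 1) * (ρ x - 1) = 0 ∧
        ∀ U : Submodule (ZMod p) M, (∀ q, ∀ u ∈ U, ρ q u ∈ U) → U = ⊥ ∨ U = ⊤

end Cfsg.Agent.H52.QS
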