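import Cfsg.Agent.H83.JkCent
import Cfsg.Agent.H12.JkTI

/-!
# JZ-KILL: the conjugation step K-CONJ, and K-TI / K-CENT from it

Every `u ∈ V = Ω₁Z(O₂(L))` is `L`-conjugate into `C_G(J(S))` (in fact into `Ω₁Z(J(S))`), in the
residual situation `RCtx`.  From `H52.Sr.struct` (the `S₃^r` picture of `V` for `T = S`),
S2946 (as a hypothesis, to avoid the import clash) and `|Ω₁Z(S)| = 2`.
The proof is the first half of helper83's `H83.Jk.kCent_of`.
-/

set_option autoImplicit false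
set_option linter.unusedVariables false
open Cfsg

namespace Cfsg.Agent.H52.Jk

open Cfsg.Agent.H64.Jz Cfsg.Agent.H59.JzK Cfsg.Agent.H83.Jk

universe u

/-- K-CONJ (helper34's form): every `u ∈ V` is `L`-conjugate into `Ω₁Z(J(S))`. -/
theorem kConjZ (h46 : Cfsg.Agent.H83.Jk.St46.{u}) (hZ2 : StZ2.{u}) :
    ∀ {G : Type u} [Group G] [Finite G] (S : Sylow 2 G) (M K L T' K' L' : Subgroup G),
      RCtx S M K L T' K' L' → ∀ u ∈ Vof L, ∃ k ∈ L,
        k * u * k⁻¹ ∈ omegaCenterOf (thompsonSubgroupOf 2 (S : Subgroup G)) := by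
  intro G _ _ S M K L T' K' L' hR u hu
  obtain ⟨hB, hX, hB', hT'ne⟩ := hR
  have hcardZ : Nat.card ↥(omegaCenterOf (S : Subgroup G)) = 2 := hZ2 S L T' K' L' hB' hT'ne
  obtain ⟨hZN, hO, hM, hMJ, hT, -, hK, hLmax, hKL⟩ := hB
  obtain ⟨hc2, hsolv, hZ⟩ := hZN
  have : Fact (Nat.Prime 2) := ⟨Nat.prime_two⟩
  have hS2 : IsPGroup 2 ↥(S : Subgroup G) := S.isPGroup'
  have hSne : (S : Subgroup G) ≠ ⊥ := hT.1.2.1
  have hJle : thompsonSubgroupOf 2 (S : Subgroup G) ≤ (S : Subgroup G) :=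
    Subgroup.map_subtype_le _
  obtain ⟨L₀, hL₀max, hKL₀, huniq, -, hSyl₀⟩ :=
    Cfsg.Agent.S2950.result hc2 hsolv hZ hO S M hM hMJ (S : Subgroup G) hT K hK
  have hLL₀ : L = L₀ := huniq L hLmax hKL
  have hSyl : IsSylowTwoIn (S : Subgroup G) L := by rw [hLL₀]; exact hSyl₀
  have hL2 : IsTwoLocal L := hLmax.1
  have hLM : ¬ L ≤ M := fun h => hK.2.1 ((le_sup_left.trans hKL).trans h)
  have h48 := Cfsg.Agent.S2948.result hc2 hsolv hZ hO S M hM hMJ (S : Subgroup G) hT L hL2 hLM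
    (S : Subgroup G) hSyl hJle
  have hLS : L ∈ jOvergroups (S : Subgroup G) := h48.2.2.1
  have hKc : IsJComponent (S : Subgroup G) K := hK.1.1
  have hKleL : K ≤ L := le_sup_left.trans hKL
  obtain ⟨hLN, hVexp, hVQ, hQL, hQ2⟩ := Cfsg.Agent.H32.Sr.vng (G := G) L
  have hQS : pCoreOf 2 L ≤ (S : Subgroup G) :=
    Cfsg.Agent.Helper55.J48.pCoreOf_le_of_sylowIn hSyl
  -- `C_V(S) ∩ C_V(K) = 1`
  have hfix : ∀ v ∈ omegaCenterOf (pCoreOf 2 L),
      v ∈ Subgroup.centralizer ((S : Subgroup G) : Set G) →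
      v ∈ Subgroup.centralizer (K : Set G) → v = 1 := by
    intro v hv hvS hvK
    by_contra hv1
    obtain ⟨hvQ, -, hv2⟩ := Cfsg.Agent.H63.Sn.mem_omegaCenterOf _ hv
    have hvZ : v ∈ omegaCenterOf (S : Subgroup G) :=
      Cfsg.Agent.H63.Sn.omegaCenterOf_mem _ (hQS hvQ) hvS hv2
    have hKZ : K ≤ Subgroup.centralizer (omegaCenterOf (S : Subgroup G) : Set G) := by
      intro k hk
      rw [Subgroup.mem_centralizer_iff]
      intro z hz
      by_cases hz1 : z = 1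
      · rw [hz1, one_mul, mul_one]
      · have hzv : z = v := eq_of_card_two83 _ hcardZ hz hvZ hz1 hv1
        rw [hzv]
        exact ((Subgroup.mem_centralizer_iff.mp hvK) k hk).symm
    have hKN : K ≤ Subgroup.normalizer ((S : Subgroup G) : Set G) := hKZ.trans (hZ S)
    have hKS : K ≤ (S : Subgroup G) := by
      rw [← hKc.2.1, Subgroup.commutator_le]
      intro k hk' j hj
      have hjS : j ∈ (S : Subgroup G) := hJle hj
      have h1 := (Subgroup.mem_normalizer_iff.mp (hKN hk') j).mp hjS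
      rw [commutatorElement_def]
      exact Subgroup.mul_mem _ h1 (Subgroup.inv_mem _ hjS)
    have hKbot : K = ⊥ := by
      rw [← hKc.1, Subgroup.closure_eq_bot_iff]
      intro g hg
      rw [Set.mem_singleton_iff]
      obtain ⟨n, hn⟩ := (IsPGroup.iff_orderOf.mp hS2) ⟨g, hKS hg.1⟩
      have h1 : orderOf g = 2 ^ n := by rw [← hn, Subgroup.orderOf_mk]
      rcases Nat.eq_zero_or_pos n with h0 | hpos
      · rw [h0, pow_zero] at h1
        exact orderOf_eq_one_iff.mp h1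
      · exfalso
        have hev : Even (orderOf g) := by
          rw [h1]; exact (Nat.even_pow.mpr ⟨even_two, hpos.ne'⟩)
        exact (Nat.not_even_iff_odd.mpr hg.2) hev
    have h3 := hKc.2.2.1
    rw [hKbot, Subgroup.relIndex_bot_right] at h3
    exact absurd h3 (by norm_num)
  -- the `S₃^r` picture
  obtain ⟨hsup, -, hcomp, -, hcentW, hfixW⟩ :=
    Cfsg.Agent.H52.Sr.struct hc2 hsolv hZ (S : Subgroup G) hS2 hSne L hLS K hKc hKleL hfix
  have htrans : ∀ i : Cfsg.Agent.H52.Sr.Orb (S : Subgroup G) K, ∀ w ∈ wOf i.1,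
      ∃ k ∈ i.1, k * w * k⁻¹ ∈
        omegaCenterOf (thompsonSubgroupOf 2 (S : Subgroup G)) ⊓ wOf i.1 := by
    intro i
    obtain ⟨hci, hiL, hcard4⟩ := hcomp i
    have h46 := (h46 hc2 hsolv hZ (S : Subgroup G) hS2 hSne i.1 hci
      (omegaCenterOf (thompsonSubgroupOf 2 (S : Subgroup G))) rfl).1
    have hZne : omegaCenterOf (thompsonSubgroupOf 2 (S : Subgroup G)) ⊓ wOf i.1 ≠ ⊥ := by
      intro h
      rw [h, Subgroup.card_bot] at h46
      exact absurd h46 (by norm_num)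
    exact Cfsg.Agent.H83.JzConj.trans_of_odd hci.2.2.2.2.2 hcard4
      (Subgroup.le_normalizer.trans (Cfsg.Agent.H59.Sp.le i.1)) hci.1 (hfixW i) hZne
  have hcomm : ∀ i j : Cfsg.Agent.H52.Sr.Orb (S : Subgroup G) K,
      ∀ a ∈ wOf i.1, ∀ b ∈ wOf j.1, a * b = b * a := by
    intro i j a ha b hb
    have haV : a ∈ omegaCenterOf (pCoreOf 2 L) := by
      rw [← hsup]
      exact Subgroup.mem_iSup_of_mem i ha
    have hbV : b ∈ omegaCenterOf (pCoreOf 2 L) := by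
      rw [← hsup]
      exact Subgroup.mem_iSup_of_mem j hb
    obtain ⟨-, h2, -⟩ := Cfsg.Agent.H63.Sn.mem_omegaCenterOf _ haV
    obtain ⟨h1', -, -⟩ := Cfsg.Agent.H63.Sn.mem_omegaCenterOf _ hbV
    exact ((Subgroup.mem_centralizer_iff.mp h2) b h1').symm
  have hcent : ∀ i j : Cfsg.Agent.H52.Sr.Orb (S : Subgroup G) K, i ≠ j →
      ∀ w ∈ wOf i.1, ∀ k ∈ j.1, k * w = w * k := by
    intro i j hij w hw k hk
    exact (Subgroup.mem_centralizer_iff.mp (hcentW i j hij hw)) k hk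
  have huV : u ∈ ⨆ i : Cfsg.Agent.H52.Sr.Orb (S : Subgroup G) K, wOf i.1 := by
    rw [hsup]; exact hu
  obtain ⟨k, hk, hku⟩ := Cfsg.Agent.H83.JzConj.conj_into
    (fun i : Cfsg.Agent.H52.Sr.Orb (S : Subgroup G) K => wOf i.1) (fun i => i.1)
    (omegaCenterOf (thompsonSubgroupOf 2 (S : Subgroup G))) hcomm hcent htrans huV
  have hkL : k ∈ L := by
    have hle : (⨆ i : Cfsg.Agent.H52.Sr.Orb (S : Subgroup G) K, i.1) ≤ L :=
      iSup_le fun i => (hcomp i).2.1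
    exact hle hk
  exact ⟨k, hkL, hku.1⟩

/-- K-CONJ (helper12's form `H12.Jk.StKConjJ`). -/
theorem kConjJ (h46 : Cfsg.Agent.H83.Jk.St46.{u}) (hZ2 : StZ2.{u}) :
    Cfsg.Agent.H12.Jk.StKConjJ.{u} := by
  intro G _ _ S M K L T' K' L' hR u hu
  obtain ⟨k, hkL, hk⟩ := kConjZ h46 hZ2 S M K L T' K' L' hR u hu
  exact ⟨k, hkL, (Cfsg.Agent.H63.Sn.mem_omegaCenterOf _ hk).2.1⟩

/-- K-TI (exact `H59.JzK.StKTI`), with S2946 and `hZ2` as hypotheses. -/
theorem kTI_of46 (h46 : Cfsg.Agent.H83.Jk.St46.{u}) (hZ2 : StZ2.{u}) :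
    Cfsg.Agent.H59.JzK.StKTI.{u} :=
  Cfsg.Agent.H12.Jk.kTI_of (kConjJ h46 hZ2)

example (h46 : Cfsg.Agent.H83.Jk.St46.{u}) (hZ2 : Cfsg.Agent.H64.Jz.StZ2.{u}) :
    Cfsg.Agent.H12.Jk.StKConjJ.{u} := kConjJ h46 hZ2

example (h46 : Cfsg.Agent.H83.Jk.St46.{u}) (hZ2 : Cfsg.Agent.H64.Jz.StZ2.{u}) :
    Cfsg.Agent.H59.JzK.StKTI.{u} := kTI_of46 h46 hZ2

end Cfsg.Agent.H52.Jk

#print axioms Cfsg.Agent.H52.Jk.kConjJ
#print axioms Cfsg.Agent.H52.Jk.kTI_of46
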