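import Cfsg.Agent.H59.JzKillDefs
import Cfsg.Agent.H52.JkConj
import Cfsg.Agent.H32.JkFix
import Cfsg.Agent.H94.JkCard
import Cfsg.Agent.H1.JkFour
import Cfsg.Agent.H61.JkBasic
import Cfsg.Agent.H87.ZcLtJz
import Cfsg.Agent.H61.JzNorm
import Cfsg.Agent.H4.JzZ2of
import Cfsg.Agent.H58.Q46.Final

/-!
# JZ-KILL closed (route 59): `Cfsg.Agent.H52.JzKill.kill : H64.Jz.StKill`

Wiring of helper59's `H59.JzK.killAsm` with the landed pieces; S2946 enters through helper58's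
clash-free copy `H58.Q46.s2946`.
-/

set_option autoImplicit false
open Cfsg

namespace Cfsg.Agent.H52.JzKill

universe u

/-- `|Ω₁Z(S)| = 2` for `T < S` (helper4's `z2_of` fed with the clash-free S2946). -/
theorem z2 : Cfsg.Agent.H64.Jz.StZ2.{u} :=
  Cfsg.Agent.H4.Jz.z2_of
    (fun hL hN hZ T hT hT1 K hK Z₀ hZ₀ => Cfsg.Agent.H58.Q46.s2946 hL hN hZ T hT hT1 K hK Z₀ hZ₀)

/-- JZ-LT (helper87's `stLt_of46` fed with the clash-free S2946). -/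
theorem lt : Cfsg.Agent.H64.Jz.StLt.{u} :=
  Cfsg.Agent.H87.Zc.stLt_of46
    (fun hL hN hZ T hT hT1 K hK Z₀ hZ₀ => Cfsg.Agent.H58.Q46.s2946 hL hN hZ T hT hT1 K hK Z₀ hZ₀)

/-- JZ-NORM (helper61's `norm_of` fed with the clash-free S2946). -/
theorem norm : Cfsg.Agent.H64.Jz.StNorm.{u} :=
  Cfsg.Agent.H61.Jz.norm_of
    (fun hL hN hZ T hT hT1 K hK Z₀ hZ₀ => Cfsg.Agent.H58.Q46.s2946 hL hN hZ T hT hT1 K hK Z₀ hZ₀)

/-- JZ-KILL: the residual situation (R) with `a(T') ≠ a(S)` and `S ⊄ N(K)` is impossible. -/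
theorem kill : Cfsg.Agent.H64.Jz.StKill.{u} :=
  Cfsg.Agent.H59.JzK.killAsm Cfsg.Agent.H32.JzK.kExp Cfsg.Agent.H12.Jk.kNV
    Cfsg.Agent.H94.JzK.kCard
    (Cfsg.Agent.H83.Jk.kCent_of
      (fun hL hN hZ T hT hT1 K hK Z₀ hZ₀ =>
        Cfsg.Agent.H58.Q46.s2946 hL hN hZ T hT hT1 K hK Z₀ hZ₀) z2)
    (Cfsg.Agent.H52.Jk.kTI_of46
      (fun hL hN hZ T hT hT1 K hK Z₀ hZ₀ =>
        Cfsg.Agent.H58.Q46.s2946 hL hN hZ T hT hT1 K hK Z₀ hZ₀) z2)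
    Cfsg.Agent.H1.JzK.kFour Cfsg.Agent.H32.JzK.kFix Cfsg.Agent.H61.Jk.kZ
    Cfsg.Agent.H61.Jk.kBasic lt norm

example : Cfsg.Agent.H64.Jz.StKill.{u} := kill.{u}

end Cfsg.Agent.H52.JzKill

#print axioms Cfsg.Agent.H52.JzKill.kill
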