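import Cfsg.Agent.H64.JyDefs

/-!
# S2953, the residual configuration (JY-KILL2): statements of the pieces and the assembly

Context `RCtx2 S M K L T' K' L'` (from `H64.JyDefs`).  `V := Vof L = Ω₁Z(O₂(L))`,
`P' := K' ⊔ T'`, `Q₁ := O₂(P')`.  The kill splits on `V ≤ Q₁`; both cases end in `StStar`.
-/

set_option autoImplicit false
open Cfsg

namespace Cfsg.Agent.H52.Jx

open Cfsg.Agent.H64.Jz Cfsg.Agent.H64.Jy

universe u

/-- `V := Ω₁Z(O₂(L))`. -/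
abbrev Vof {G : Type u} [Group G] (L : Subgroup G) : Subgroup G := omegaCenterOf (pCoreOf 2 L)

/-- Conjugation by `g` as a monoid hom. -/
abbrev cj {G : Type u} [Group G] (g : G) : G →* G := (MulAut.conj g).toMonoidHom

/-- (★): for `T < S`, no non-trivial subgroup of `T` is normalized by `K ⊔ T` and `N_S(T)`. -/
def StStar : Prop := ∀ {G : Type u} [Group G] [Finite G] (S : Sylow 2 G) (M T K L : Subgroup G),
  Base S M T K L → T ≠ (S : Subgroup G) → ∀ F : Subgroup G, F ≠ ⊥ → F ≤ T →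
  K ⊔ T ≤ Subgroup.normalizer (F : Set G) →
  (∀ x ∈ (S : Subgroup G), x ∈ Subgroup.normalizer (T : Set G) →
    x ∈ Subgroup.normalizer (F : Set G)) → False

/-- Generic facts on `O₂(K ⊔ T)`. -/
def StPF : Prop := ∀ {G : Type u} [Group G] [Finite G] (S : Sylow 2 G) (M T K L : Subgroup G),
  Base S M T K L →
  pCoreOf 2 (K ⊔ T) ≤ T ∧ pCoreOf 2 (K ⊔ T) ≠ ⊥ ∧
    K ⊔ T ≤ Subgroup.normalizer (pCoreOf 2 (K ⊔ T) : Set G)

/-- `V ≠ 1` and `V ≤ T'`. -/
def StVne : Prop := ∀ {G : Type u} [Group G] [Finite G] (S : Sylow 2 G)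
    (M K L T' K' L' : Subgroup G), RCtx2 S M K L T' K' L' → Vof L ≠ ⊥ ∧ Vof L ≤ T'

/-- KA-CONJ: for `V ≤ Q₁`, every conjugate of `V` inside `T'` lies in `Q₁`. -/
def StKAConj : Prop := ∀ {G : Type u} [Group G] [Finite G] (S : Sylow 2 G)
    (M K L T' K' L' : Subgroup G), RCtx2 S M K L T' K' L' → Vof L ≤ pCoreOf 2 (K' ⊔ T') →
  ∀ g : G, (Vof L).map (MulAut.conj g).toMonoidHom ≤ T' →
    (Vof L).map (MulAut.conj g).toMonoidHom ≤ pCoreOf 2 (K' ⊔ T')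

/-- KA: the case `V ≤ Q₁` is impossible. -/
def StKA : Prop := ∀ {G : Type u} [Group G] [Finite G] (S : Sylow 2 G)
    (M K L T' K' L' : Subgroup G), RCtx2 S M K L T' K' L' → Vof L ≤ pCoreOf 2 (K' ⊔ T') → False

/-- KB-NORM: for `V ⊄ Q₁`, `N_S(T')` normalizes `Q₁`. -/
def StKBNorm : Prop := ∀ {G : Type u} [Group G] [Finite G] (S : Sylow 2 G)
    (M K L T' K' L' : Subgroup G), RCtx2 S M K L T' K' L' → ¬ Vof L ≤ pCoreOf 2 (K' ⊔ T') →
  ∀ x ∈ (S : Subgroup G), x ∈ Subgroup.normalizer (T' : Set G) →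
    x ∈ Subgroup.normalizer (pCoreOf 2 (K' ⊔ T') : Set G)

/-- KB: the case `V ⊄ Q₁` is impossible. -/
def StKB : Prop := ∀ {G : Type u} [Group G] [Finite G] (S : Sylow 2 G)
    (M K L T' K' L' : Subgroup G), RCtx2 S M K L T' K' L' → ¬ Vof L ≤ pCoreOf 2 (K' ⊔ T') → False

theorem cj_mul {G : Type u} [Group G] (V : Subgroup G) (n g : G) :
    (V.map (cj g)).map (cj n) = V.map (cj (n * g)) := by
  rw [Subgroup.map_map]
  congr 1
  ext y
  simp [cj, mul_assoc]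

theorem cj_le_of_norm {G : Type u} [Group G] (V Q : Subgroup G) (n g : G)
    (hn : n ∈ Subgroup.normalizer (Q : Set G)) (hg : V.map (cj g) ≤ Q) :
    V.map (cj (n * g)) ≤ Q := by
  rw [← cj_mul]
  rintro y ⟨w, hw, rfl⟩
  exact (Subgroup.mem_normalizer_iff.mp hn w).mp (hg hw)

/-- The subgroup generated by the conjugates of `V` inside `Q`. -/
def wcl {G : Type u} [Group G] (V Q : Subgroup G) : Subgroup G :=
  ⨆ (g : G) (_ : V.map (cj g) ≤ Q), V.map (cj g)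

theorem map_wcl_le {G : Type u} [Group G] (V Q : Subgroup G) (n : G)
    (h1 : ∀ g : G, V.map (cj g) ≤ Q → V.map (cj (n * g)) ≤ Q) :
    (wcl V Q).map (cj n) ≤ wcl V Q := by
  unfold wcl
  rw [Subgroup.map_iSup]
  refine iSup_le fun g => ?_
  rw [Subgroup.map_iSup]
  refine iSup_le fun hg => ?_
  rw [cj_mul]
  exact le_iSup₂_of_le (n * g) (h1 g hg) le_rfl

theorem norm_wcl {G : Type u} [Group G] (V Q : Subgroup G) (n : G)
    (h1 : ∀ g : G, V.map (cj g) ≤ Q → V.map (cj (n * g)) ≤ Q)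
    (h2 : ∀ g : G, V.map (cj g) ≤ Q → V.map (cj (n⁻¹ * g)) ≤ Q) :
    n ∈ Subgroup.normalizer (wcl V Q : Set G) := by
  rw [Subgroup.mem_normalizer_iff]
  intro h
  constructor
  · intro hh
    exact map_wcl_le V Q n h1 ⟨h, hh, rfl⟩
  · intro hh
    have := map_wcl_le V Q n⁻¹ h2 ⟨_, hh, rfl⟩
    simpa [cj, mul_assoc] using this

theorem le_wcl {G : Type u} [Group G] (V Q : Subgroup G) (h : V ≤ Q) : V ≤ wcl V Q := by
  have h1 : V.map (cj (1 : G)) = V := by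
    ext y
    simp [cj]
  unfold wcl
  exact le_iSup₂_of_le (1 : G) (h1.le.trans h) h1.ge

theorem wcl_le {G : Type u} [Group G] (V Q : Subgroup G) : wcl V Q ≤ Q := by
  unfold wcl
  exact iSup₂_le fun g hg => hg

/-- KA from (★), the generic facts and KA-CONJ. -/
theorem ka_of (hStar : StStar.{u}) (hPF : StPF.{u}) (hVne : StVne.{u}) (hConj : StKAConj.{u}) :
    StKA.{u} := by
  intro G _ _ S M K L T' K' L' hR hVQ
  obtain ⟨hB, hN, hB', hT'⟩ := hR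
  obtain ⟨hQT, hQne, hPQ⟩ := hPF S L T' K' L' hB'
  obtain ⟨hV0, hVT⟩ := hVne S M K L T' K' L' ⟨hB, hN, hB', hT'⟩
  have hc := hConj S M K L T' K' L' ⟨hB, hN, hB', hT'⟩ hVQ
  refine hStar S L T' K' L' hB' hT' (wcl (Vof L) (pCoreOf 2 (K' ⊔ T'))) ?_ ?_ ?_ ?_
  · intro h0
    exact hV0 (le_bot_iff.mp (h0 ▸ le_wcl _ _ hVQ))
  · exact (wcl_le _ _).trans hQT
  · intro p hp
    exact norm_wcl _ _ p (fun g hg => cj_le_of_norm _ _ p g (hPQ hp) hg)
      (fun g hg => cj_le_of_norm _ _ p⁻¹ g (inv_mem (hPQ hp)) hg)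
  · intro x _ hxT
    exact norm_wcl _ _ x
      (fun g hg => hc (x * g) (cj_le_of_norm _ _ x g hxT (hg.trans hQT)))
      (fun g hg => hc (x⁻¹ * g) (cj_le_of_norm _ _ x⁻¹ g (inv_mem hxT) (hg.trans hQT)))

/-- KB from (★), the generic facts and KB-NORM. -/
theorem kb_of (hStar : StStar.{u}) (hPF : StPF.{u}) (hNorm : StKBNorm.{u}) : StKB.{u} := by
  intro G _ _ S M K L T' K' L' hR hVQ
  have hn := hNorm S M K L T' K' L' hR hVQ
  obtain ⟨hB, hN, hB', hT'⟩ := hR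
  obtain ⟨hQT, hQne, hPQ⟩ := hPF S L T' K' L' hB'
  exact hStar S L T' K' L' hB' hT' (pCoreOf 2 (K' ⊔ T')) hQne hQT hPQ hn

/-- JY-KILL2 from the two cases. -/
theorem kill2_of (hA : StKA.{u}) (hB : StKB.{u}) : StKill2.{u} := by
  intro G _ _ S M K L T' K' L' hR
  by_cases hVQ : Vof L ≤ pCoreOf 2 (K' ⊔ T')
  · exact hA S M K L T' K' L' hR hVQ
  · exact hB S M K L T' K' L' hR hVQ

end Cfsg.Agent.H52.Jx

#print axioms Cfsg.Agent.H52.Jx.ka_of
#print axioms Cfsg.Agent.H52.Jx.kb_of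
#print axioms Cfsg.Agent.H52.Jx.kill2_of
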