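import Mathlib
import Cfsg.Agent.H14.Holo
import Cfsg.Agent.H14.Factor
import Cfsg.Agent.H80.PSolvable
import Cfsg.Agent.H80.SolvPSolv
import Cfsg.Agent.H73.PSolv
import Cfsg.Agent.H53.Irred
import Cfsg.Agent.H29.ThompsonInt
import Cfsg.Agent.H47.OffenderStruct3
import Cfsg.Agent.H52.WcJ
import Cfsg.Agent.S0598
import Cfsg.Agent.H63.OrdFour
import Cfsg.Agent.H1.HallHigman

/-!
# Definitions and imported facts for the solvable failure-of-factorization theorem (S4302)

(`Cfsg.Agent.H14.TFail` / `Cfsg.Agent.H14.WNormal` cannot be imported together with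
`Cfsg.Agent.H29.ThompsonInt`, so the few lemmas needed from there are repeated here.)
-/

set_option autoImplicit false
open Cfsg
open scoped commutatorElement

namespace Cfsg.Agent.H52.Fz

open Cfsg.Agent.H14.Holo

universe u

/-- The normal closure of the centre of `T`. -/
def WS {X : Type*} [Group X] (T : Subgroup X) : Subgroup X :=
  Subgroup.normalClosure ((T ⊓ Subgroup.centralizer (T : Set X) : Subgroup X) : Set X)

instance WS_normal {X : Type*} [Group X] (T : Subgroup X) : (WS T).Normal :=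
  Subgroup.normalClosure_normal

theorem omegaOne_elemAb {P : Type u} [Group P] (p : ℕ) (A : Subgroup P)
    (hA : A ≤ Subgroup.centralizer (A : Set P)) :
    Cfsg.IsElementaryAbelian p (Cfsg.omegaOne p A) := by
  have hle : Cfsg.omegaOne p A ≤ A := by
    unfold Cfsg.omegaOne
    rw [Subgroup.closure_le]
    exact fun x hx => hx.1
  have hcomm : ∀ x ∈ A, ∀ y ∈ A, x * y = y * x := fun x hx y hy =>
    (Subgroup.mem_centralizer_iff.mp (hA hy)) x hx
  refine ⟨⟨⟨fun a b => Subtype.ext (hcomm a (hle a.2) b (hle b.2))⟩⟩, ?_⟩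
  intro a ha
  have key : ∀ a ∈ Cfsg.omegaOne p A, a ∈ A ∧ a ^ p = 1 := by
    intro a ha
    unfold Cfsg.omegaOne at ha
    induction ha using Subgroup.closure_induction with
    | mem x hx => exact hx
    | one => exact ⟨one_mem _, one_pow _⟩
    | mul x y _ _ ihx ihy =>
      have hc : Commute x y := hcomm x ihx.1 y ihy.1
      exact ⟨mul_mem ihx.1 ihy.1, by rw [hc.mul_pow, ihx.2, ihy.2, one_mul]⟩
    | inv x _ ihx => exact ⟨inv_mem ihx.1, by rw [inv_pow, ihx.2, inv_one]⟩
  exact (key a ha).2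

theorem pCore_le_sylow {G : Type u} [Group G] {p : ℕ} (S : Sylow p G) :
    Cfsg.pCore p G ≤ (S : Subgroup G) := by
  haveI := Cfsg.Agent.H14.pCore_normal p G
  exact (Cfsg.Agent.H14.pCore_isPGroup p G).le_sylow_of_normal S

/-- Self-centralizing `p'`-core passes to normal subgroups of a `p`-solvable group with trivial `O_p`. -/
theorem hS1_of_normal {X : Type u} [Group X] [Finite X] {p : ℕ} [Fact p.Prime] (R N : Subgroup X)
    (hNR : N ≤ R) (hnorm : R ≤ Subgroup.normalizer (N : Set X)) (hsolv : IsPSolvable p ↥R)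
    (hcore : pCore p ↥R = ⊥) :
    Subgroup.centralizer (pPrimeCore p ↥N : Set ↥N) ≤ pPrimeCore p ↥N := by
  haveI hn : (N.subgroupOf R).Normal := Subgroup.normal_subgroupOf_of_le_normalizer hnorm
  have e : ↥(N.subgroupOf R) ≃* ↥N := Subgroup.subgroupOfEquivOfLe hNR
  apply Cfsg.Agent.H66.centralizer_pPrimeCore_le p
  · exact Cfsg.Agent.H14.isPSolvable_of_surjective p e.toMonoidHom e.surjective
      (Cfsg.Agent.H73.isPSolvable_subgroup hsolv (N.subgroupOf R))
  · have h1 := Cfsg.Agent.H53.map_pCore_subtype_le_of_normal (p := p) (N.subgroupOf R)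
    rw [hcore] at h1
    have h2 : pCore p ↥(N.subgroupOf R) = ⊥ := by
      rw [eq_bot_iff]
      intro x hx
      have h3 := h1 (Subgroup.mem_map_of_mem _ hx)
      rw [Subgroup.mem_bot] at h3 ⊢
      exact Subtype.ext h3
    rw [← Cfsg.Agent.H14.pCore_map_equiv p e, h2, Subgroup.map_bot]

variable {G : Type u} [Group G]

/-- The image of `G` in the holomorph acts faithfully on the copy of `V`. -/
theorem range_faithful (V : Subgroup G) [V.Normal] :
    (psi V).range ⊓ Subgroup.centralizer ((Vh V : Subgroup (Hol V)) : Set (Hol V)) = ⊥ := by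
  rw [eq_bot_iff]
  rintro _ ⟨⟨g, rfl⟩, hx⟩
  rw [Subgroup.mem_bot]
  have hx' : psi V g ∈ Subgroup.centralizer ((Vh V : Subgroup (Hol V)) : Set (Hol V)) := hx
  rw [Subgroup.mem_centralizer_iff] at hx'
  rw [← MonoidHom.mem_ker, psi_ker, Subgroup.mem_centralizer_iff]
  intro v hv
  have h1 := hx' (SemidirectProduct.inl ⟨v, hv⟩) ⟨⟨v, hv⟩, rfl⟩
  have h2 : psi V g * SemidirectProduct.inl ⟨v, hv⟩ * (psi V g)⁻¹ =
      SemidirectProduct.inl (⟨v, hv⟩ : ↥V) := by
    rw [← h1, mul_inv_cancel_right]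
  rw [psi_conj] at h2
  have h3 := congrArg Subtype.val (SemidirectProduct.inl_injective h2)
  rw [MulAut.conjNormal_apply] at h3
  simp only at h3
  conv_lhs => rw [← h3]
  group

theorem range_isPSolvable [Finite G] {p : ℕ} [Fact p.Prime] (V : Subgroup G) [V.Normal]
    (hsep : IsPSolvable p G) : IsPSolvable p ↥(psi V).range :=
  Cfsg.Agent.H14.isPSolvable_of_surjective p (psi V).rangeRestrict
    (MonoidHom.rangeRestrict_surjective _) hsep

theorem range_pCore_eq_bot [Finite G] {p : ℕ} [Fact p.Prime] (V : Subgroup G) [V.Normal]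
    (hO : pCore p (G ⧸ Subgroup.centralizer (V : Set G)) = ⊥) :
    pCore p ↥(psi V).range = ⊥ := by
  have e : G ⧸ Subgroup.centralizer (V : Set G) ≃* ↥(psi V).range :=
    (QuotientGroup.quotientMulEquivOfEq (psi_ker V).symm).trans
      (QuotientGroup.quotientKerEquivRange (psi V))
  rw [← Cfsg.Agent.H14.pCore_map_equiv p e, hO, Subgroup.map_bot]

end Cfsg.Agent.H52.Fz
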