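import Cfsg.Agent.H52.JxDefs
import Cfsg.Agent.H43.JyVFacts
import Cfsg.Agent.H29.R1Out
import Cfsg.Agent.H19.JyGoodA

/-!
# S2953, JY-KILL2, the case `V ⊄ Q₁`: the glue `kbNorm_of`

From the abstract core `H29.R1.r1_out_core`, the `V`-facts (`H43.Jy.vfacts`) and the `P`-side
input `StPSide`.
-/

set_option autoImplicit false
set_option linter.unusedSimpArgs false
set_option linter.deprecated false
open Cfsg

namespace Cfsg.Agent.H52.Jx

open Cfsg.Agent.H64.Jz Cfsg.Agent.H64.Jy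

universe u

/-- The `P`-side input: with `D = O₂(K ⊔ T)`: `|T : D| ≤ 2`, `T ∖ D` inverts `K` modulo `D`,
and `K` has an element of order `3` outside the base `M`. -/
def StPSide : Prop := ∀ {G : Type u} [Group G] [Finite G] (S : Sylow 2 G) (M T K L : Subgroup G),
  Base S M T K L →
  (∀ a ∈ T, ∀ b ∈ T, a ∉ pCoreOf 2 (K ⊔ T) → b ∉ pCoreOf 2 (K ⊔ T) →
    a * b ∈ pCoreOf 2 (K ⊔ T)) ∧
  (∀ x ∈ T, x ∉ pCoreOf 2 (K ⊔ T) → ∀ g ∈ K, x * g * x⁻¹ * g ∈ pCoreOf 2 (K ⊔ T)) ∧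
  ∃ k ∈ K, k ^ 3 = 1 ∧ k ∉ M

theorem omegaCenterOf_le_inf_x {G : Type u} [Group G] (X : Subgroup G) :
    omegaCenterOf X ≤ X ⊓ Subgroup.centralizer (X : Set G) := by
  unfold omegaCenterOf omegaOne
  rw [Subgroup.closure_le]
  intro x hx
  exact hx.1

/-- Enumeration of a four-group. -/
theorem four_enum {G : Type u} [Group G] [Finite G] (V : Subgroup G) (hV4 : Nat.card ↥V = 4)
    (hV2 : ∀ w ∈ V, w * w = 1) (z v : G) (hz : z ∈ V) (hv : v ∈ V) (hz1 : z ≠ 1) (hv1 : v ≠ 1)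
    (hvz : v ≠ z) : ∀ w ∈ V, w = 1 ∨ w = z ∨ w = v ∨ w = v * z := by
  intro w hw
  by_contra hcon
  push_neg at hcon
  obtain ⟨h1, h2, h3, h4⟩ := hcon
  have hzz : z * z = 1 := hV2 z hz
  have hvz1 : v * z ≠ 1 := by
    intro h
    apply hvz
    have e1 : v = z⁻¹ := eq_inv_of_mul_eq_one_left h
    have e2 : z = z⁻¹ := eq_inv_of_mul_eq_one_left hzz
    rw [e1]; exact e2.symm
  have hvzz : v * z ≠ z := by
    intro h; exact hv1 (by simpa using h)
  have hvzv : v * z ≠ v := by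
    intro h; exact hz1 (by simpa using h)
  have hfin : (V : Set G).Finite := Set.toFinite _
  have hsub : ({1, z, v, v * z, w} : Set G) ⊆ (V : Set G) := by
    intro y hy
    simp only [Set.mem_insert_iff, Set.mem_singleton_iff] at hy
    rcases hy with rfl | rfl | rfl | rfl | rfl
    · exact V.one_mem
    · exact hz
    · exact hv
    · exact V.mul_mem hv hz
    · exact hw
  have hle := Set.ncard_le_ncard hsub hfin
  have hc : (V : Set G).ncard = 4 := (Nat.card_coe_set_eq (V : Set G)).symm.trans hV4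
  have h5 : ({1, z, v, v * z, w} : Set G).ncard = 5 := by
    rw [Set.ncard_insert_of_notMem, Set.ncard_insert_of_notMem, Set.ncard_insert_of_notMem,
      Set.ncard_pair]
    all_goals
      simp [h1, h2, h3, h4, hz1, hv1, hvz, hvz1, hvzz, hvzv, Ne.symm h1, Ne.symm h2, Ne.symm h3,
        Ne.symm h4, Ne.symm hz1, Ne.symm hv1, Ne.symm hvz, Ne.symm hvz1, Ne.symm hvzz,
        Ne.symm hvzv]
  omega

/-- KB-NORM from the `P`-side input. -/
theorem kbNorm_of (hPS : StPSide.{u}) (hVne : StVne.{u}) (hPF : StPF.{u}) : StKBNorm.{u} := by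
  intro G _ _ S M K L T' K' L' hR hVQ
  obtain ⟨hB, hN, hB', hT'⟩ := hR
  obtain ⟨hZ2, hZV, -, hV4, hV2, hVS, hNV, hSL, -, -, -, hCu, -⟩ :=
    Cfsg.Agent.H43.Jy.vfacts S M K L T' K' L' hB hN hB' hT'
  obtain ⟨hQT, hQne, hPQ⟩ := hPF S L T' K' L' hB'
  obtain ⟨-, hVT⟩ := hVne S M K L T' K' L' ⟨hB, hN, hB', hT'⟩
  obtain ⟨hidx, hinv, k, hkK, hk3, hkL⟩ := hPS S L T' K' L' hB'
  obtain ⟨hCQ, -, -⟩ := Cfsg.Agent.H19.Jy.goodA S L T' K' L' hB'
  have hT'S : T' ≤ (S : Subgroup G) := hB'.2.2.2.2.2.1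
  obtain ⟨v, hvV, hvQ⟩ := SetLike.not_le_iff_exists.mp hVQ
  have hvT : v ∈ T' := hVT hvV
  have hv2 : v * v = 1 := hV2 v hvV
  obtain ⟨z, hzZ, hz1⟩ : ∃ z ∈ omegaCenterOf (S : Subgroup G), z ≠ 1 := by
    by_contra hcon
    push_neg at hcon
    have hbot : omegaCenterOf (S : Subgroup G) = ⊥ := by
      rw [eq_bot_iff]; intro y hy; exact Subgroup.mem_bot.mpr (hcon y hy)
    rw [hbot] at hZ2
    simp at hZ2
  have hzV : z ∈ Vof L := hZV hzZ
  have hzc := omegaCenterOf_le_inf_x (S : Subgroup G) hzZ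
  have hzcomm : ∀ s ∈ (S : Subgroup G), s * z = z * s :=
    fun s hs => Subgroup.mem_centralizer_iff.mp hzc.2 s hs
  have hz2 : z * z = 1 := hV2 z hzV
  have hzT : ∀ t ∈ T', t * z = z * t := fun t ht => hzcomm t (hT'S ht)
  have hzQ : z ∈ pCoreOf 2 (K' ⊔ T') := by
    apply hCQ
    rw [Subgroup.mem_centralizer_iff]
    intro q hq
    exact hzT q (hQT hq)
  have hvz : v ≠ z := fun h => hvQ (h ▸ hzQ)
  have hv1 : v ≠ 1 := fun h => hvQ (h ▸ (pCoreOf 2 (K' ⊔ T')).one_mem)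
  have henum := four_enum (Vof L) hV4 hV2 z v hzV hvV hz1 hv1 hvz
  have hSV : ∀ s ∈ (S : Subgroup G), ∀ w ∈ Vof L, s * w * s⁻¹ ∈ Vof L := by
    intro s hs w hw
    have hsN : s ∈ Subgroup.normalizer ((Vof L : Subgroup G) : Set G) := by
      rw [hNV]; exact hSL hs
    exact (Subgroup.mem_normalizer_iff.mp hsN w).mp hw
  have hTQn : ∀ t ∈ T', ∀ q ∈ pCoreOf 2 (K' ⊔ T'), t * q * t⁻¹ ∈ pCoreOf 2 (K' ⊔ T') := by
    intro t ht q hq
    exact (Subgroup.mem_normalizer_iff.mp (hPQ (le_sup_right (a := K') ht)) q).mp hq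
  have hKQn : ∀ g ∈ K', ∀ q ∈ pCoreOf 2 (K' ⊔ T'), g * q * g⁻¹ ∈ pCoreOf 2 (K' ⊔ T') := by
    intro g hg q hq
    exact (Subgroup.mem_normalizer_iff.mp (hPQ (le_sup_left (b := T') hg)) q).mp hq
  have hQv : ∀ q ∈ pCoreOf 2 (K' ⊔ T'), v * q * v⁻¹ = q ∨ v * q * v⁻¹ = q * z := by
    intro q hq
    have hcQ : v * q * v⁻¹ * q⁻¹ ∈ pCoreOf 2 (K' ⊔ T') :=
      Subgroup.mul_mem _ (hTQn v hvT q hq) (Subgroup.inv_mem _ hq)
    have hcV : v * q * v⁻¹ * q⁻¹ ∈ Vof L := by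
      have h1 : q * v⁻¹ * q⁻¹ ∈ Vof L := hSV q (hT'S (hQT hq)) v⁻¹ (Subgroup.inv_mem _ hvV)
      have e : v * q * v⁻¹ * q⁻¹ = v * (q * v⁻¹ * q⁻¹) := by group
      rw [e]; exact Subgroup.mul_mem _ hvV h1
    rcases henum _ hcV with h | h | h | h
    · left
      calc v * q * v⁻¹ = (v * q * v⁻¹ * q⁻¹) * q := by group
        _ = q := by rw [h, one_mul]
    · right
      calc v * q * v⁻¹ = (v * q * v⁻¹ * q⁻¹) * q := by group
        _ = z * q := by rw [h]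
        _ = q * z := (hzT q (hQT hq)).symm
    · exact absurd (h ▸ hcQ) hvQ
    · exfalso; apply hvQ
      have h5 : v * z ∈ pCoreOf 2 (K' ⊔ T') := h ▸ hcQ
      have e : v = v * z * z⁻¹ := by group
      rw [e]; exact Subgroup.mul_mem _ h5 (Subgroup.inv_mem _ hzQ)
  have hTQv : ∀ t ∈ T', t ∈ pCoreOf 2 (K' ⊔ T') ∨ t * v ∈ pCoreOf 2 (K' ⊔ T') := by
    intro t ht
    by_cases h : t ∈ pCoreOf 2 (K' ⊔ T')
    · exact Or.inl h
    · exact Or.inr (hidx t ht v hvT h hvQ)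
  have hkz : k * z * k⁻¹ ≠ z := by
    intro h
    apply hkL
    apply hCu z hzV hz1
    rw [Subgroup.mem_centralizer_iff]
    intro y hy
    rw [Set.mem_singleton_iff] at hy
    rw [hy]
    calc z * k = (k * z * k⁻¹) * k := by rw [h]
      _ = k * z := by group
  have hvk' : v * k * v⁻¹ * k ∈ pCoreOf 2 (K' ⊔ T') := hinv v hvT hvQ k hkK
  have key : ∀ x ∈ (S : Subgroup G), x ∈ Subgroup.normalizer (T' : Set G) →
      ∀ q ∈ pCoreOf 2 (K' ⊔ T'), x * q * x⁻¹ ∈ pCoreOf 2 (K' ⊔ T') := by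
    intro x hxS hxT
    have hxV : x * v * x⁻¹ = v ∨ x * v * x⁻¹ = v * z := by
      have h1 := hSV x hxS v hvV
      rcases henum _ h1 with h | h | h | h
      · exfalso; apply hv1
        have e : v = x⁻¹ * (x * v * x⁻¹) * x := by group
        rw [e, h]; group
      · exfalso; apply hvz
        have e : v = x⁻¹ * (x * v * x⁻¹) * x := by group
        rw [e, h]
        have hc := hzcomm x hxS
        calc x⁻¹ * z * x = x⁻¹ * (z * x) := by group
          _ = x⁻¹ * (x * z) := by rw [hc]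
          _ = z := by group
      · exact Or.inl h
      · exact Or.inr h
    have hsT : ∀ t ∈ T', x * t * x⁻¹ ∈ T' :=
      fun t ht => (Subgroup.mem_normalizer_iff.mp hxT t).mp ht
    exact Cfsg.Agent.H29.R1.r1_out_core T' (pCoreOf 2 (K' ⊔ T')) z v k x hQT hvT hTQv hv2 hz2 hzQ
      hzT hQv hk3 hkz (hKQn k hkK) hvk' hsT hxV
  intro x hxS hxT
  rw [Subgroup.mem_normalizer_iff]
  intro q
  constructor
  · exact key x hxS hxT q
  · intro hq
    have := key x⁻¹ (inv_mem hxS) (inv_mem hxT) _ hq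
    simpa [mul_assoc] using this

end Cfsg.Agent.H52.Jx

#print axioms Cfsg.Agent.H52.Jx.kbNorm_of
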