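import Cfsg.Agent.H52.JcAux
import Cfsg.Agent.H31.JcREPL
import Cfsg.Agent.H31.JcCROSSA
import Cfsg.Agent.H54.JcCROSSB
import Cfsg.Agent.H54.JcBACK
import Cfsg.Agent.H54.JcWHICH
import Cfsg.Agent.H51.JcFIX

/-!
# The four-group configuration: the core theorem (helper52, for S2946)

For `m ∈ Ω₁Z(J(S))`, either `m` or `m u` centralizes every `X`-conjugate of `J(S)`.
Pieces: helper31 (`replace`, `nZ_le_cent`, `cross_mem`), helper54 (`cross_of_mem`, `back`,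
`which`), helper51 (`u_mem_nZ`, `nZ_inf`).
-/

set_option autoImplicit false

namespace Cfsg.Agent.H52.Jc

open Cfsg Cfsg.Agent.H29

variable {G : Type*} [Group G] [Finite G] {X W S : Subgroup G} {u x : G}

theorem Cfg.cross (h : Cfg X W S u x) {g : G} (hg : g ∈ X) {m : G} (hm : m ∈ nZ 2 S) {j : G}
    (hj : j ∈ nJ 2 (S.map (MulAut.conj g).toMonoidHom)) :
    j * m * j⁻¹ = m ∨ j * m * j⁻¹ = m * (g * u * g⁻¹) :=
  Cfsg.Agent.H54.Jc.cross_of_mem (h.conj hg)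
    (fun _ hA _ ha => Cfsg.Agent.H31.Jc.cross_mem h hg
      (fun _ hA' hAW => Cfsg.Agent.H31.Jc.replace (h.conj hg) hA' hAW) hA hm
      (Cfsg.Agent.H31.Jc.nZ_le_cent h hm) ha) hj

theorem Cfg.cross_cent (h : Cfg X W S u x) {g : G} (hg : g ∈ X) (hgu : g * u * g⁻¹ ≠ u) {m : G}
    (hm : m ∈ nZ 2 S) {j : G} (hj : j ∈ nJ 2 (S.map (MulAut.conj g).toMonoidHom))
    (hjW : j ∈ Subgroup.centralizer (W : Set G)) : j * m * j⁻¹ = m :=
  cross_cent_of h hg hgu hm (fun _ hw hz => Cfsg.Agent.H51.Jc.nZ_inf h hw hz)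
    ((h.conj hg).hSX (nJ_le 2 _ hj)) hjW (h.cross hg hm hj)

theorem Cfg.dich (h : Cfg X W S u x) {g : G} (hg : g ∈ X) (hgu : g * u * g⁻¹ ≠ u) {m : G}
    (hm : m ∈ nZ 2 S) {a j : G} (ha : a ∈ nJ 2 (S.map (MulAut.conj g).toMonoidHom))
    (haW : a ∉ Subgroup.centralizer (W : Set G))
    (hj : j ∈ nJ 2 (S.map (MulAut.conj g).toMonoidHom))
    (hjW : j ∉ Subgroup.centralizer (W : Set G)) : j * m * j⁻¹ = a * m * a⁻¹ :=
  dich_of h hg (fun _ hj' hjW' => h.cross_cent hg hgu hm hj' hjW') ha haW hj hjW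

theorem Cfg.eps (h : Cfg X W S u x) {m : G} (hm : m ∈ nZ 2 S) {a₁ a₂ : G}
    (ha₁ : a₁ ∈ nJ 2 (S.map (MulAut.conj x).toMonoidHom))
    (ha₁W : a₁ ∉ Subgroup.centralizer (W : Set G))
    (ha₂ : a₂ ∈ nJ 2 (S.map (MulAut.conj (x * x)).toMonoidHom))
    (ha₂W : a₂ ∉ Subgroup.centralizer (W : Set G)) :
    (a₁ * m * a₁⁻¹ = m ∧ a₂ * m * a₂⁻¹ = m) ∨
    (a₁ * m * a₁⁻¹ = m * (x * u * x⁻¹) ∧ a₂ * m * a₂⁻¹ = m * (u * (x * u * x⁻¹))) := by
  have hc2 := h.cross h.xx_mem hm ha₂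
  rw [h.xx_u] at hc2
  exact eps_of h hm (nJ_le 2 _ ha₁) ha₁W (nJ_le 2 _ ha₂) ha₂W (h.cross h.hx hm ha₁) hc2
    (Cfsg.Agent.H54.Jc.back h ha₁ ha₁W ha₂)

/-- **Core theorem**: for `m ∈ Ω₁Z(J(S))`, either `m` or `m u` commutes with every
`X`-conjugate of every element of `J(S)`. -/
theorem Cfg.core (h : Cfg X W S u x) {m : G} (hm : m ∈ nZ 2 S) :
    (∀ g ∈ X, ∀ j ∈ nJ 2 S, (g * j * g⁻¹) * m = m * (g * j * g⁻¹)) ∨
    (∀ g ∈ X, ∀ j ∈ nJ 2 S, (g * j * g⁻¹) * (m * u) = (m * u) * (g * j * g⁻¹)) := by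
  have h₁ := h.conj h.hx
  have h₂ := h.conj h.xx_mem
  obtain ⟨a₁, ha₁, ha₁W⟩ := SetLike.not_le_iff_exists.mp h₁.hJ
  obtain ⟨a₂, ha₂, ha₂W⟩ := SetLike.not_le_iff_exists.mp h₂.hJ
  have key : ∀ (j y : G), j * y * j⁻¹ = y → j * y = y * j := by
    intro j y e
    have : j * y = (j * y * j⁻¹) * j := by group
    rw [this, e]
  rcases h.eps hm ha₁ ha₁W ha₂ ha₂W with ⟨e1, e2⟩ | ⟨e1, e2⟩
  · left
    intro g hg j hj
    apply key
    rcases Cfsg.Agent.H54.Jc.which h hg hj with hj' | hj' | hj'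
    · have := Subgroup.mem_centralizer_iff.mp (nZ_le_centralizer_nJ 2 S hm) _ hj'
      rw [this, mul_inv_cancel_right]
    · by_cases hc : g * j * g⁻¹ ∈ Subgroup.centralizer (W : Set G)
      · exact h.cross_cent h.hx h.v_ne_u hm hj' hc
      · rw [h.dich h.hx h.v_ne_u hm ha₁ ha₁W hj' hc, e1]
    · by_cases hc : g * j * g⁻¹ ∈ Subgroup.centralizer (W : Set G)
      · exact h.cross_cent h.xx_mem h.xx_u_ne hm hj' hc
      · rw [h.dich h.xx_mem h.xx_u_ne hm ha₂ ha₂W hj' hc, e2]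
  · right
    intro g hg j hj
    apply key
    have hsplit : ∀ j' : G, j' * (m * u) * j'⁻¹ = (j' * m * j'⁻¹) * (j' * u * j'⁻¹) := by
      intro j'; group
    rw [hsplit]
    rcases Cfsg.Agent.H54.Jc.which h hg hj with hj' | hj' | hj'
    · have := Subgroup.mem_centralizer_iff.mp (nZ_le_centralizer_nJ 2 S hm) _ hj'
      rw [this, mul_inv_cancel_right, h.hSu (nJ_le 2 S hj')]
    · by_cases hc : g * j * g⁻¹ ∈ Subgroup.centralizer (W : Set G)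
      · rw [h.cross_cent h.hx h.v_ne_u hm hj' hc]
        have := Subgroup.mem_centralizer_iff.mp hc u h.hu
        rw [← this, mul_inv_cancel_right]
      · rw [h.dich h.hx h.v_ne_u hm ha₁ ha₁W hj' hc, e1, h.act1_u (nJ_le 2 _ hj') hc,
          mul_assoc, h.comm h.hu h.v_mem, ← mul_assoc (x * u * x⁻¹), h.hexp _ h.v_mem, one_mul]
    · by_cases hc : g * j * g⁻¹ ∈ Subgroup.centralizer (W : Set G)
      · rw [h.cross_cent h.xx_mem h.xx_u_ne hm hj' hc]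
        have := Subgroup.mem_centralizer_iff.mp hc u h.hu
        rw [← this, mul_inv_cancel_right]
      · rw [h.dich h.xx_mem h.xx_u_ne hm ha₂ ha₂W hj' hc, e2, h.act2_u (nJ_le 2 _ hj') hc,
          mul_assoc, mul_assoc, h.hexp _ h.v_mem, mul_one]

end Cfsg.Agent.H52.Jc
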