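import Cfsg.Agent.H52.JcAux
import Cfsg.Agent.H51.JcNORM
import Cfsg.Agent.H27.JcFIXPT
import Cfsg.Agent.H27.JcTWO
import Cfsg.Agent.H27.JcNOFIX
import Cfsg.Agent.H27.JcINDEX
import Cfsg.Agent.H57.JcCENW

/-!
# J(T)-components give the four-group configuration (helper52, for S2946)

Pieces: helper51 (`le_normalizer_of_comm`, `wOf_norm`, `wOf_le`, `pCoreOf_comm_wOf`,
`pCoreOf_facts`), helper27 (`not_le_cent`, `cent_isPGroup`, `exists_fixed`, `relIndex_cent`),
helper57 (`cent_w`).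
-/

set_option autoImplicit false

namespace Cfsg.Agent.H52.Jc

open Cfsg Cfsg.Agent.H29
open scoped commutatorElement

variable {G : Type*} [Group G] [Finite G]

/-- The set-up: a `J(T)`-component gives a four-group configuration. -/
theorem setup {T K : Subgroup G} (hT : IsPGroup 2 ↥T) (hK : IsJComponent T K) :
    ∃ (S : Subgroup G) (u x : G), Cfg (K ⊔ thompsonSubgroupOf 2 T) (wOf K) S u x ∧
      nJ 2 S = thompsonSubgroupOf 2 T := by
  obtain ⟨hgen, hKJ, hidx, hsyl, hcard, hexp⟩ := hK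
  set J := thompsonSubgroupOf 2 T with hJdef
  have hJT : J ≤ T := by
    rw [hJdef, thompsonSubgroupOf_eq]; exact nJ_le 2 T
  have hJ2 : IsPGroup 2 ↥J := hT.to_le hJT
  have hnK : J ≤ Subgroup.normalizer (K : Set G) := Cfsg.Agent.H51.Jc.le_normalizer_of_comm hKJ
  have hnorm := Cfsg.Agent.H51.Jc.wOf_norm hnK
  obtain ⟨hQK, hQn, hQ2⟩ := Cfsg.Agent.H51.Jc.pCoreOf_facts K
  have hW1 : wOf K ≠ ⊥ := by
    intro e
    rw [e, Subgroup.card_bot] at hcard
    omega
  have hnc : ¬ K ≤ Subgroup.centralizer (wOf K : Set G) :=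
    Cfsg.Agent.H27.Jc.not_le_cent hgen hW1 hexp
  have hQW := Cfsg.Agent.H51.Jc.pCoreOf_comm_wOf K
  have hKW : ∀ k ∈ K, ∀ w ∈ wOf K, k * w * k⁻¹ ∈ wOf K :=
    fun k hk w hw => hnorm k (Subgroup.mem_sup_left hk) w hw
  have hcw := Cfsg.Agent.H57.Jc.cent_w hQK hQn hidx hcard hexp hQW hKW hnc
  obtain ⟨u, huW, hu1, hJu⟩ := Cfsg.Agent.H27.Jc.exists_fixed hJ2 hcard
    (fun j hj w hw => hnorm j ((le_sup_right : J ≤ K ⊔ J) hj) w hw)
  have hx : ∃ x ∈ K, x ∉ pCoreOf 2 K := by
    by_contra hcon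
    push Not at hcon
    have : (pCoreOf 2 K).relIndex K = 1 := Subgroup.relIndex_eq_one.mpr hcon
    omega
  obtain ⟨x, hxK, hxQ⟩ := hx
  have hu' := hcw u huW hu1
  have hS2 := Cfsg.Agent.H27.Jc.cent_isPGroup hJ2 hQ2 hnK hu'
  have hidx' := Cfsg.Agent.H27.Jc.relIndex_cent hQK hnK hidx (fun q hq => hQW q hq u huW) hu' hJu
  set S := (K ⊔ J) ⊓ Subgroup.centralizer ({u} : Set G) with hSdef
  have hJS : J ≤ S := by
    intro j hj
    refine Subgroup.mem_inf.mpr ⟨(le_sup_right : J ≤ K ⊔ J) hj, ?_⟩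
    rw [Subgroup.mem_centralizer_iff]
    intro y hy
    rw [Set.mem_singleton_iff] at hy
    rw [hy]; exact (hJu j hj).symm
  have hSyl : IsSylowTwoIn S (K ⊔ J) := ⟨inf_le_left, hS2, by rw [hidx']; decide⟩
  have hJS' : nJ 2 S = J := by
    have := hsyl S hSyl hJS
    rwa [thompsonSubgroupOf_eq] at this
  refine ⟨S, u, x, ?_, hJS'⟩
  exact
    { hWX := (Cfsg.Agent.H51.Jc.wOf_le K).trans (hQK.trans le_sup_left)
      hnorm := hnorm
      hcard := hcard
      hexp := hexp
      hu := huW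
      hu1 := hu1
      hx := (le_sup_left : K ≤ K ⊔ J) hxK
      hx3 := by
        intro w hw hw1 e
        apply hxQ
        apply hcw w hw hw1 x hxK
        have : x * w = (x * w * x⁻¹) * x := by group
        rw [this, e]
      hS := by
        intro g
        rw [hSdef, Subgroup.mem_inf, Subgroup.mem_centralizer_iff]
        constructor
        · rintro ⟨h1, h2⟩
          exact ⟨h1, (h2 u rfl).symm⟩
        · rintro ⟨h1, h2⟩
          refine ⟨h1, ?_⟩
          intro y hy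
          rw [Set.mem_singleton_iff] at hy
          rw [hy]; exact h2.symm
      hS2 := hS2
      hJ := by
        rw [hJS']
        exact not_J_le hKJ hKW hnc }

end Cfsg.Agent.H52.Jc
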