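import Mathlib
import Cfsg.Agent.H52.Basic

set_option autoImplicit false

namespace Cfsg.Agent.H52

open Subgroup
open scoped commutatorElement

variable {G : Type*} [Group G]

/-- Averaging: if `R` normalizes the abelian subgroup `V` and `v ∈ C_V(T)` with `T ≤ R`, then
`v ^ |R : T| ∈ [V, R] C_V(R)`. -/
theorem pow_index_mem_comm_sup_cent [Finite G] (V R T : Subgroup G)
    (hVc : ∀ a ∈ V, ∀ b ∈ V, a * b = b * a) (hRV : R ≤ Subgroup.normalizer (V : Set G))
    {v : G} (hv : v ∈ V) (hvT : v ∈ Subgroup.centralizer (T : Set G)) :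
    v ^ (T.subgroupOf R).index ∈ ⁅V, R⁆ ⊔ (V ⊓ Subgroup.centralizer (R : Set G)) := by
  classical
  letI : CommGroup ↥V :=
    { (inferInstance : Group ↥V) with
      mul_comm := fun a b => Subtype.ext (hVc a a.2 b b.2) }
  letI : Fintype (↥R ⧸ T.subgroupOf R) := Fintype.ofFinite _
  let g : ↥R → ↥V := fun x => ⟨(x : G) * v * (x : G)⁻¹, (hRV x.2 v).mp hv⟩
  have hg : ∀ a b : ↥R, QuotientGroup.leftRel (T.subgroupOf R) a b → g a = g b := by
    intro a b hab
    rw [QuotientGroup.leftRel_apply] at hab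
    have h1 : ((a⁻¹ * b : ↥R) : G) ∈ T := Subgroup.mem_subgroupOf.mp hab
    have h2 := (Subgroup.mem_centralizer_iff.mp hvT) _ h1
    apply Subtype.ext
    show (a : G) * v * (a : G)⁻¹ = (b : G) * v * (b : G)⁻¹
    have h3 : (b : G) = (a : G) * ((a⁻¹ * b : ↥R) : G) := by push_cast; group
    rw [h3, mul_assoc (a : G) _ v, h2]; group
  let f : ↥R ⧸ T.subgroupOf R → ↥V := fun c => Quotient.liftOn' c g hg
  have hinv : ∀ r : ↥R, (r : G) * ((∏ c, f c : ↥V) : G) * (r : G)⁻¹ = ((∏ c, f c : ↥V) : G) := by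
    intro r
    let φ : ↥V →* ↥V :=
      { toFun := fun w => ⟨(r : G) * w * (r : G)⁻¹, (hRV r.2 w).mp w.2⟩
        map_one' := by apply Subtype.ext; simp
        map_mul' := by
          intro a b
          apply Subtype.ext
          show (r : G) * ((a : G) * (b : G)) * (r : G)⁻¹ =
            ((r : G) * (a : G) * (r : G)⁻¹) * ((r : G) * (b : G) * (r : G)⁻¹)
          group }
    have h1 : φ (∏ c, f c) = ∏ c, φ (f c) := map_prod φ f Finset.univ
    have h2 : ∀ c, φ (f c) = f (r • c) := by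
      intro c
      induction c using Quotient.inductionOn' with
      | h x =>
        apply Subtype.ext
        show (r : G) * ((x : G) * v * (x : G)⁻¹) * (r : G)⁻¹ =
          ((r * x : ↥R) : G) * v * ((r * x : ↥R) : G)⁻¹
        push_cast; group
    have h3 : ∏ c, f (r • c) = ∏ c, f c :=
      Fintype.prod_equiv (MulAction.toPerm r) _ _ (fun c => rfl)
    have h4 : φ (∏ c, f c) = ∏ c, f c := by
      rw [h1]; simp_rw [h2]; exact h3
    exact congrArg Subtype.val h4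
  have hv'C : ((∏ c, f c : ↥V) : G) ∈ V ⊓ Subgroup.centralizer (R : Set G) := by
    rw [Subgroup.mem_inf]
    refine ⟨(∏ c, f c : ↥V).2, ?_⟩
    rw [Subgroup.mem_centralizer_iff]
    intro r hr
    have h := hinv ⟨r, hr⟩
    calc r * ((∏ c, f c : ↥V) : G) = r * ((∏ c, f c : ↥V) : G) * r⁻¹ * r := by group
      _ = ((∏ c, f c : ↥V) : G) * r := by rw [h]
  have hmem : ∀ c, f c * (⟨v, hv⟩ : ↥V)⁻¹ ∈ (⁅V, R⁆).subgroupOf V := by
    intro c
    induction c using Quotient.inductionOn' with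
    | h x =>
      rw [Subgroup.mem_subgroupOf]
      show (x : G) * v * (x : G)⁻¹ * v⁻¹ ∈ ⁅V, R⁆
      have h1 := Subgroup.inv_mem _ (Subgroup.commutator_mem_commutator hv x.2 : ⁅v, (x : G)⁆ ∈ ⁅V, R⁆)
      convert h1 using 1
      simp only [commutatorElement_def]; group
  have hprod : ∏ c, (f c * (⟨v, hv⟩ : ↥V)⁻¹) ∈ (⁅V, R⁆).subgroupOf V :=
    Subgroup.prod_mem _ (fun c _ => hmem c)
  have hprod' : ∏ c, (f c * (⟨v, hv⟩ : ↥V)⁻¹) =
      (∏ c, f c) * ((⟨v, hv⟩ : ↥V) ^ Fintype.card (↥R ⧸ T.subgroupOf R))⁻¹ := by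
    rw [Finset.prod_mul_distrib, Finset.prod_const, Finset.card_univ, inv_pow]
  have h5 : (⟨v, hv⟩ : ↥V) ^ Fintype.card (↥R ⧸ T.subgroupOf R) =
      (∏ c, (f c * (⟨v, hv⟩ : ↥V)⁻¹))⁻¹ * (∏ c, f c) := by
    rw [hprod']; group
  have hidx : Fintype.card (↥R ⧸ T.subgroupOf R) = (T.subgroupOf R).index := by
    rw [Subgroup.index, Nat.card_eq_fintype_card]
  rw [← hidx]
  have h6 : (((⟨v, hv⟩ : ↥V) ^ Fintype.card (↥R ⧸ T.subgroupOf R) : ↥V) : G) ∈
      ⁅V, R⁆ ⊔ (V ⊓ Subgroup.centralizer (R : Set G)) := by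
    rw [h5]
    push_cast
    exact Subgroup.mul_mem _ (Subgroup.mem_sup_left
      (Subgroup.inv_mem _ (Subgroup.mem_subgroupOf.mp hprod))) (Subgroup.mem_sup_right hv'C)
  simpa using h6

end Cfsg.Agent.H52
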