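import Mathlib
import Cfsg.Prelude.Def_LieExceptional
import Cfsg.Agent.H8BN3
import Cfsg.Agent.H95.FHDefs

/-!
# S1142-ORB (helper52, for helper95's Feit–Higman project): the orbital matrices of a finite
group with a (B,N)-pair acting on the cosets of `B`.
-/

set_option autoImplicit false

universe u

namespace Cfsg.Agent.H52.FH

open Cfsg Cfsg.H8BN Cfsg.H8Exch Matrix

variable {G : Type u} [Group G] (P : BNPair G)

theorem C_mul_mem {w : Wq P} {g b b' : G} (hb : b ∈ P.B) (hb' : b' ∈ P.B) (h : g ∈ C P w) :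
    b * g * b' ∈ C P w := by
  obtain ⟨n, hn, hg⟩ := h
  exact ⟨n, hn, mul_mem_dc P hb hb' hg⟩

theorem C_inv_mem {w : Wq P} {g : G} (h : g ∈ C P w) : g⁻¹ ∈ C P w⁻¹ := by
  obtain ⟨n, hn, hg⟩ := h
  refine ⟨n⁻¹, ?_, ?_⟩
  · rw [← hn]; rfl
  · exact inv_mem_dc P hg

theorem C_sg (s : P.S) : C P (sg P s) = dc P (s : G) := C_pr P ⟨s.1, S_mem_N P s.2⟩

theorem C_mul_of_len {s : P.S} {w : Wq P} (hlen : len (sg P) w < len (sg P) (sg P s * w))
    {g h : G} (hg : g ∈ C P (sg P s)) (hh : h ∈ C P w) : g * h ∈ C P (sg P s * w) := by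
  have hw : w ∈ Ps P s := (mem_Ps_iff_len P).2 hlen
  rw [C_sg] at hg
  obtain ⟨b, hb, b', hb', rfl⟩ := (mem_dc P).1 hg
  have h1 : b' * h ∈ C P w := by simpa using C_mul_mem P hb' P.B.one_mem hh
  have h2 : (s : G) * (b' * h) ∈ C P (sg P s * w) := hw _ h1
  have h3 := C_mul_mem P hb P.B.one_mem h2
  have e : b * (s : G) * b' * h = b * ((s : G) * (b' * h)) * 1 := by group
  rw [e]
  exact h3

theorem exists_of_mem_C_mul {s : P.S} {w : Wq P} {g : G} (hg : g ∈ C P (sg P s * w)) :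
    ∃ y ∈ C P (sg P s), y⁻¹ * g ∈ C P w := by
  obtain ⟨n, rfl⟩ := pr_surjective P w
  rw [C_sg_mul] at hg
  obtain ⟨b, hb, b', hb', rfl⟩ := (mem_dc P).1 hg
  refine ⟨b * s, ?_, ?_⟩
  · rw [C_sg]; exact left_mul_mem_dc P hb (self_mem_dc P _)
  · rw [C_pr]
    have e : (b * (s : G))⁻¹ * (b * ((s : G) * n) * b') = n * b' := by group
    rw [e]
    exact right_mul_mem_dc P hb' (self_mem_dc P _)

theorem C_sg_mul_C_sg {s : P.S} {g h : G} (hg : g ∈ C P (sg P s)) (hh : h ∈ C P (sg P s)) :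
    g * h ∈ P.B ∨ g * h ∈ C P (sg P s) := by
  rw [C_sg] at hg hh ⊢
  rw [← mem_parabolic_singleton]
  exact Subgroup.mul_mem _ ((mem_parabolic_singleton P s g).2 (Or.inr hg))
    ((mem_parabolic_singleton P s h).2 (Or.inr hh))

theorem exists_two (s : P.S) :
    ∃ g₁ ∈ C P (sg P s), ∃ g₂ ∈ C P (sg P s), g₁⁻¹ * g₂ ∉ P.B := by
  obtain ⟨b₀, hb₀, h⟩ := exists_conj P s
  refine ⟨s, ?_, s * b₀ * s, ?_, ?_⟩
  · rw [C_sg]; exact self_mem_dc P _
  · rw [C_sg]; exact h
  · intro hB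
    have e : (s : G)⁻¹ * (s * b₀ * s) = b₀ * s := by group
    rw [e] at hB
    exact S_not_mem_B P s.2 (by simpa using P.B.mul_mem (P.B.inv_mem hb₀) hB)

/-- the orbital relation attached to `w` on the cosets of `B` -/
def Rel (w : Wq P) (X Y : G ⧸ P.B) : Prop := X.out⁻¹ * Y.out ∈ C P w

theorem rel_mk (w : Wq P) (g h : G) :
    Rel P w (g : G ⧸ P.B) (h : G ⧸ P.B) ↔ g⁻¹ * h ∈ C P w := by
  unfold Rel
  obtain ⟨b, hb⟩ := QuotientGroup.mk_out_eq_mul P.B g
  obtain ⟨c, hc⟩ := QuotientGroup.mk_out_eq_mul P.B h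
  rw [hb, hc]
  have e : (g * b)⁻¹ * (h * c) = (b : G)⁻¹ * (g⁻¹ * h) * c := by group
  rw [e]
  constructor
  · intro h1
    have h2 := C_mul_mem P b.2 (P.B.inv_mem c.2) h1
    have e2 : (b : G) * ((b : G)⁻¹ * (g⁻¹ * h) * c) * (c : G)⁻¹ = g⁻¹ * h := by group
    rwa [e2] at h2
  · intro h1
    exact C_mul_mem P (P.B.inv_mem b.2) c.2 h1

theorem rel_one (X Y : G ⧸ P.B) : Rel P 1 X Y ↔ X = Y := by
  induction X using QuotientGroup.induction_on with | _ x => ?_
  induction Y using QuotientGroup.induction_on with | _ y => ?_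
  rw [rel_mk, C_one, QuotientGroup.eq]
  rfl

theorem rel_inv {w : Wq P} {X Y : G ⧸ P.B} (h : Rel P w X Y) : Rel P w⁻¹ Y X := by
  induction X using QuotientGroup.induction_on with | _ x => ?_
  induction Y using QuotientGroup.induction_on with | _ y => ?_
  rw [rel_mk] at h ⊢
  have := C_inv_mem P h
  have e : (x⁻¹ * y)⁻¹ = y⁻¹ * x := by group
  rwa [e] at this

theorem rel_disj {w w' : Wq P} {X Y : G ⧸ P.B} (h : Rel P w X Y) (h' : Rel P w' X Y) : w = w' :=
  C_inter_nonempty P ⟨_, h, h'⟩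

theorem rel_smul (w : Wq P) (g : G) (X Y : G ⧸ P.B) :
    Rel P w (g • X) (g • Y) ↔ Rel P w X Y := by
  induction X using QuotientGroup.induction_on with | _ x => ?_
  induction Y using QuotientGroup.induction_on with | _ y => ?_
  rw [MulAction.Quotient.smul_mk, MulAction.Quotient.smul_mk, rel_mk, rel_mk]
  have e : (g • x)⁻¹ * (g • y) = x⁻¹ * y := by simp [smul_eq_mul]
  rw [e]

theorem sg_inv (s : P.S) : (sg P s)⁻¹ = sg P s :=
  inv_eq_of_mul_eq_one_left (sg_mul_self P s)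

theorem rel_sg_symm {s : P.S} {X Y : G ⧸ P.B} (h : Rel P (sg P s) X Y) : Rel P (sg P s) Y X := by
  have := rel_inv P h
  rwa [sg_inv] at this

theorem rel_sg_irrefl (s : P.S) (X : G ⧸ P.B) : ¬ Rel P (sg P s) X X := by
  intro h
  exact sg_ne_one P s (rel_disj P h ((rel_one P X X).2 rfl))

theorem rel_mul {s : P.S} {w : Wq P} (hlen : len (sg P) w < len (sg P) (sg P s * w))
    {X Y Z : G ⧸ P.B} (h1 : Rel P (sg P s) X Y) (h2 : Rel P w Y Z) :
    Rel P (sg P s * w) X Z := by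
  induction X using QuotientGroup.induction_on with | _ x => ?_
  induction Y using QuotientGroup.induction_on with | _ y => ?_
  induction Z using QuotientGroup.induction_on with | _ z => ?_
  rw [rel_mk] at h1 h2 ⊢
  have := C_mul_of_len P hlen h1 h2
  have e : x⁻¹ * y * (y⁻¹ * z) = x⁻¹ * z := by group
  rwa [e] at this

theorem rel_exists {s : P.S} {w : Wq P} {X Z : G ⧸ P.B} (h : Rel P (sg P s * w) X Z) :
    ∃ Y, Rel P (sg P s) X Y ∧ Rel P w Y Z := by
  induction X using QuotientGroup.induction_on with | _ x => ?_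
  induction Z using QuotientGroup.induction_on with | _ z => ?_
  rw [rel_mk] at h
  obtain ⟨y, hy, hy'⟩ := exists_of_mem_C_mul P h
  refine ⟨((x * y : G) : G ⧸ P.B), ?_, ?_⟩
  · rw [rel_mk]
    have e : x⁻¹ * (x * y) = y := by group
    rwa [e]
  · rw [rel_mk]
    have e : (x * y)⁻¹ * z = y⁻¹ * (x⁻¹ * z) := by group
    rwa [e]

theorem rel_sg_trans {s : P.S} {X Y Z : G ⧸ P.B} (h1 : Rel P (sg P s) X Y)
    (h2 : Rel P (sg P s) Y Z) : X = Z ∨ Rel P (sg P s) X Z := by
  induction X using QuotientGroup.induction_on with | _ x => ?_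
  induction Y using QuotientGroup.induction_on with | _ y => ?_
  induction Z using QuotientGroup.induction_on with | _ z => ?_
  rw [rel_mk] at h1 h2 ⊢
  have := C_sg_mul_C_sg P h1 h2
  have e : x⁻¹ * y * (y⁻¹ * z) = x⁻¹ * z := by group
  rw [e] at this
  rcases this with h | h
  · left; exact QuotientGroup.eq.2 h
  · right; exact h

theorem rel_unique {s : P.S} {w : Wq P} (hlen : len (sg P) w < len (sg P) (sg P s * w))
    {X Y₁ Y₂ Z : G ⧸ P.B} (h1 : Rel P (sg P s) X Y₁) (h2 : Rel P w Y₁ Z)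
    (h3 : Rel P (sg P s) X Y₂) (h4 : Rel P w Y₂ Z) : Y₁ = Y₂ := by
  rcases rel_sg_trans P (rel_sg_symm P h1) h3 with h | h
  · exact h
  · exfalso
    have h5 := rel_mul P hlen h h4
    have h6 : sg P s * w = w := rel_disj P h5 h2
    exact sg_ne_one P s (by simpa using h6)

open Classical in
/-- the orbital matrix attached to `w` -/
noncomputable def orbM (w : Wq P) : Matrix (G ⧸ P.B) (G ⧸ P.B) ℝ :=
  fun X Y => if Rel P w X Y then 1 else 0

open Classical in
theorem orbM_apply (w : Wq P) (X Y : G ⧸ P.B) :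
    orbM P w X Y = if Rel P w X Y then 1 else 0 := rfl

open Classical in
/-- the parameter `q_s = |B s B / B|` -/
noncomputable def qn [Fintype (G ⧸ P.B)] (s : P.S) : ℕ :=
  (Finset.univ.filter (fun Y : G ⧸ P.B => Rel P (sg P s) ((1 : G) : G ⧸ P.B) Y)).card

open Classical in
theorem rowsum [Fintype (G ⧸ P.B)] (s : P.S) (X : G ⧸ P.B) :
    ∑ Y, (if Rel P (sg P s) X Y then (1 : ℝ) else 0) = qn P s := by
  induction X using QuotientGroup.induction_on with | _ x => ?_
  have h1 := Equiv.sum_comp (MulAction.toPerm x : Equiv.Perm (G ⧸ P.B))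
    (fun Y => if Rel P (sg P s) ((x : G) : G ⧸ P.B) Y then (1 : ℝ) else 0)
  rw [← h1]
  have h2 : ∀ Y : G ⧸ P.B, Rel P (sg P s) ((x : G) : G ⧸ P.B) ((MulAction.toPerm x) Y) ↔
      Rel P (sg P s) ((1 : G) : G ⧸ P.B) Y := by
    intro Y
    have e : ((x : G) : G ⧸ P.B) = x • (((1 : G) : G ⧸ P.B)) := by
      rw [MulAction.Quotient.smul_mk, smul_eq_mul, mul_one]
    rw [e]
    exact rel_smul P (sg P s) x _ Y
  simp only [h2]
  rw [Finset.sum_boole]
  rfl

open Classical in
theorem two_le_qn [Fintype (G ⧸ P.B)] (s : P.S) : 2 ≤ qn P s := by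
  obtain ⟨g₁, hg₁, g₂, hg₂, hne⟩ := exists_two P s
  unfold qn
  rw [← Nat.succ_le_iff.symm]
  apply Finset.one_lt_card.2
  refine ⟨((g₁ : G) : G ⧸ P.B), ?_, ((g₂ : G) : G ⧸ P.B), ?_, ?_⟩
  · rw [Finset.mem_filter]
    refine ⟨Finset.mem_univ _, ?_⟩
    rw [rel_mk]; simpa using hg₁
  · rw [Finset.mem_filter]
    refine ⟨Finset.mem_univ _, ?_⟩
    rw [rel_mk]; simpa using hg₂
  · intro h
    exact hne (QuotientGroup.eq.1 h)

theorem orbM_one [DecidableEq (G ⧸ P.B)] : orbM P 1 = 1 := by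
  ext X Y
  rw [orbM_apply, Matrix.one_apply]
  by_cases h : X = Y
  · rw [if_pos ((rel_one P X Y).2 h), if_pos h]
  · rw [if_neg (fun h' => h ((rel_one P X Y).1 h')), if_neg h]

theorem orbM_zero_or_one (w : Wq P) (X Y : G ⧸ P.B) : orbM P w X Y = 0 ∨ orbM P w X Y = 1 := by
  rw [orbM_apply]
  by_cases h : Rel P w X Y
  · right; rw [if_pos h]
  · left; rw [if_neg h]

theorem orbM_transpose (w : Wq P) : (orbM P w)ᵀ = orbM P w⁻¹ := by
  ext X Y
  rw [Matrix.transpose_apply, orbM_apply, orbM_apply]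
  by_cases h : Rel P w Y X
  · rw [if_pos h, if_pos (rel_inv P h)]
  · rw [if_neg h, if_neg]
    intro h'
    have := rel_inv P h'
    rw [inv_inv] at this
    exact h this

theorem orbM_disj {w w' : Wq P} (hne : w ≠ w') (X Y : G ⧸ P.B) :
    orbM P w X Y * orbM P w' X Y = 0 := by
  rw [orbM_apply, orbM_apply]
  by_cases h : Rel P w X Y
  · by_cases h' : Rel P w' X Y
    · exact absurd (rel_disj P h h') hne
    · rw [if_neg h', mul_zero]
  · rw [if_neg h, zero_mul]

theorem orbM_mul [Fintype (G ⧸ P.B)] {s : P.S} {w : Wq P}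
    (hlen : len (sg P) w < len (sg P) (sg P s * w)) :
    orbM P (sg P s) * orbM P w = orbM P (sg P s * w) := by
  ext X Z
  rw [Matrix.mul_apply]
  simp only [orbM_apply]
  by_cases h : Rel P (sg P s * w) X Z
  · obtain ⟨Y₀, h1, h2⟩ := rel_exists P h
    rw [if_pos h, Finset.sum_eq_single Y₀]
    · rw [if_pos h1, if_pos h2, mul_one]
    · intro Y _ hY
      by_cases h3 : Rel P (sg P s) X Y
      · by_cases h4 : Rel P w Y Z
        · exact absurd (rel_unique P hlen h3 h4 h1 h2) hY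
        · rw [if_neg h4, mul_zero]
      · rw [if_neg h3, zero_mul]
    · intro hY; exact absurd (Finset.mem_univ _) hY
  · rw [if_neg h]
    apply Finset.sum_eq_zero
    intro Y _
    by_cases h3 : Rel P (sg P s) X Y
    · by_cases h4 : Rel P w Y Z
      · exact absurd (rel_mul P hlen h3 h4) h
      · rw [if_neg h4, mul_zero]
    · rw [if_neg h3, zero_mul]

theorem orbM_sq [Fintype (G ⧸ P.B)] [DecidableEq (G ⧸ P.B)] (s : P.S) :
    orbM P (sg P s) * orbM P (sg P s) =
      (qn P s : ℝ) • (1 : Matrix (G ⧸ P.B) (G ⧸ P.B) ℝ) + ((qn P s : ℝ) - 1) • orbM P (sg P s) := by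
  classical
  ext X Z
  rw [Matrix.mul_apply, Matrix.add_apply, Matrix.smul_apply, Matrix.smul_apply, Matrix.one_apply]
  simp only [orbM_apply, smul_eq_mul]
  by_cases hXZ : X = Z
  · subst hXZ
    rw [if_pos rfl, if_neg (rel_sg_irrefl P s X), mul_one, mul_zero, add_zero, ← rowsum P s X]
    apply Finset.sum_congr rfl
    intro Y _
    by_cases h : Rel P (sg P s) X Y
    · rw [if_pos h, if_pos (rel_sg_symm P h), mul_one]
    · rw [if_neg h, zero_mul]
  · rw [if_neg hXZ, mul_zero, zero_add]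
    by_cases h : Rel P (sg P s) X Z
    · rw [if_pos h, mul_one]
      have key : ∀ Y : G ⧸ P.B,
          (if Rel P (sg P s) X Y then (1 : ℝ) else 0) * (if Rel P (sg P s) Y Z then 1 else 0) =
            (if Rel P (sg P s) X Y then (1 : ℝ) else 0) - (if Y = Z then 1 else 0) := by
        intro Y
        by_cases hYZ : Y = Z
        · subst hYZ
          rw [if_pos h, if_neg (rel_sg_irrefl P s Y), if_pos rfl]; norm_num
        · rw [if_neg hYZ, sub_zero]
          by_cases h1 : Rel P (sg P s) X Y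
          · rcases rel_sg_trans P (rel_sg_symm P h1) h with h2 | h2
            · exact absurd h2 hYZ
            · rw [if_pos h1, if_pos h2, mul_one]
          · rw [if_neg h1, zero_mul]
      rw [Finset.sum_congr rfl (fun Y _ => key Y), Finset.sum_sub_distrib, rowsum P s X,
        Finset.sum_ite_eq' Finset.univ Z, if_pos (Finset.mem_univ _)]
    · rw [if_neg h, mul_zero]
      apply Finset.sum_eq_zero
      intro Y _
      by_cases h1 : Rel P (sg P s) X Y
      · by_cases h2 : Rel P (sg P s) Y Z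
        · rcases rel_sg_trans P h1 h2 with h3 | h3
          · exact absurd h3 hXZ
          · exact absurd h3 h
        · rw [if_neg h2, mul_zero]
      · rw [if_neg h1, zero_mul]

/-- **S1142-ORB**. -/
theorem orb : Cfsg.Agent.H95.FH.OrbStmt.{u} := by
  intro G _ _ P
  classical
  letI : Fintype (G ⧸ P.B) := Fintype.ofFinite _
  refine ⟨G ⧸ P.B, inferInstance, inferInstance, ⟨((1 : G) : G ⧸ P.B)⟩, orbM P, orbM_one P,
    orbM_zero_or_one P, orbM_transpose P, fun w w' h => orbM_disj P h,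
    fun s w h => orbM_mul P h, fun s => ⟨qn P s, two_le_qn P s, orbM_sq P s⟩⟩

example : Cfsg.Agent.H95.FH.OrbStmt.{u} := orb

end Cfsg.Agent.H52.FH
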