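import Mathlib
import Cfsg.Agent.H52.FzDefs

/-!
# Conjugation invariance of best offenders; the subgroup generated by best offenders
-/

set_option autoImplicit false
open Cfsg
open scoped commutatorElement

namespace Cfsg.Agent.H52.Fz

universe u

section Gen

open Cfsg.Agent.H47.Off

variable {G : Type u} [Group G]

theorem centralizer_cj (x : G) (B : Subgroup G) :
    Subgroup.centralizer ((cj x B : Subgroup G) : Set G) =
      cj x (Subgroup.centralizer (B : Set G)) := by
  ext g
  rw [mem_cj, Subgroup.mem_centralizer_iff, Subgroup.mem_centralizer_iff]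
  constructor
  · intro h b hb
    have h1 := h (x * b * x⁻¹) (conj_mem_cj hb)
    calc b * (x⁻¹ * g * x) = x⁻¹ * ((x * b * x⁻¹) * g) * x := by group
      _ = x⁻¹ * (g * (x * b * x⁻¹)) * x := by rw [h1]
      _ = x⁻¹ * g * x * b := by group
  · intro h c hc
    rw [SetLike.mem_coe, mem_cj] at hc
    have h1 := h _ hc
    calc c * g = x * ((x⁻¹ * c * x) * (x⁻¹ * g * x)) * x⁻¹ := by group
      _ = x * ((x⁻¹ * g * x) * (x⁻¹ * c * x)) * x⁻¹ := by rw [h1]
      _ = g * c := by group

theorem card_fixed_cj {V : Subgroup G} {x : G} (hx : x ∈ Subgroup.normalizer (V : Set G))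
    (B : Subgroup G) :
    Nat.card ↥(V ⊓ Subgroup.centralizer ((cj x B : Subgroup G) : Set G)) =
      Nat.card ↥(V ⊓ Subgroup.centralizer (B : Set G)) := by
  have h : V ⊓ Subgroup.centralizer ((cj x B : Subgroup G) : Set G) =
      cj x (V ⊓ Subgroup.centralizer (B : Set G)) := by
    rw [centralizer_cj]
    conv_lhs => rw [← cj_eq_self hx]
    exact (Subgroup.map_inf _ _ _ (MulAut.conj x).injective).symm
  rw [h, card_cj]

theorem cj_cj_inv (x : G) (B : Subgroup G) : cj x (cj x⁻¹ B) = B := by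
  rw [← cj_mul, mul_inv_cancel, cj_one]

theorem bestOffender_cj {p : ℕ} {V A : Subgroup G} {x : G}
    (hx : x ∈ Subgroup.normalizer (V : Set G)) (hA : Cfsg.IsBestOffenderOn p V A) :
    Cfsg.IsBestOffenderOn p V (cj x A) := by
  have hCV : cj x (Subgroup.centralizer (V : Set G)) = Subgroup.centralizer (V : Set G) := by
    rw [← centralizer_cj, cj_eq_self hx]
  refine ⟨?_, ?_, ?_⟩
  · intro B hB
    have hB' : cj x⁻¹ B ≤ A := by
      have h1 : cj x⁻¹ B ≤ cj x⁻¹ (cj x A) := cj_mono hB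
      rw [← cj_mul, inv_mul_cancel, cj_one] at h1
      exact h1
    have h2 := hA.1 _ hB'
    have e1 : Nat.card B = Nat.card ↥(cj x⁻¹ B) := (card_cj x⁻¹ B).symm
    have e2 : Nat.card ↥(V ⊓ Subgroup.centralizer (B : Set G)) =
        Nat.card ↥(V ⊓ Subgroup.centralizer ((cj x⁻¹ B : Subgroup G) : Set G)) :=
      (card_fixed_cj (Subgroup.inv_mem _ hx) B).symm
    rw [e1, e2, card_cj x A, card_fixed_cj hx A]
    exact h2
  · have h1 : ⁅cj x A, cj x A⁆ = cj x ⁅A, A⁆ := (Subgroup.map_commutator _ _ _).symm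
    rw [h1, ← hCV]
    exact cj_mono hA.2.1
  · rintro _ ⟨a, ha, rfl⟩
    rw [← hCV, ← map_pow]
    exact Subgroup.mem_map_of_mem _ (hA.2.2 a ha)

/-- The subgroup generated by the best offenders inside `K`. -/
def offGen (V K : Subgroup G) : Subgroup G :=
  ⨆ A : {A : Subgroup G // A ≤ K ∧ Cfsg.IsBestOffenderOn 2 V A}, (A : Subgroup G)

theorem offGen_le (V K : Subgroup G) : offGen V K ≤ K := iSup_le fun A => A.2.1

theorem le_offGen {V K A : Subgroup G} (hAK : A ≤ K) (hA : Cfsg.IsBestOffenderOn 2 V A) :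
    A ≤ offGen V K :=
  le_iSup (fun A : {A : Subgroup G // A ≤ K ∧ Cfsg.IsBestOffenderOn 2 V A} => (A : Subgroup G))
    ⟨A, hAK, hA⟩

theorem offGen_hS3 (V K : Subgroup G) :
    offGen V K = ⨆ A : {A : Subgroup G // A ≤ offGen V K ∧ Cfsg.IsBestOffenderOn 2 V A},
      (A : Subgroup G) := by
  apply le_antisymm
  · apply iSup_le
    rintro ⟨A, hAK, hA⟩
    exact le_iSup (fun A : {A : Subgroup G // A ≤ offGen V K ∧ Cfsg.IsBestOffenderOn 2 V A} =>
      (A : Subgroup G)) ⟨A, le_offGen hAK hA, hA⟩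
  · exact iSup_le fun A => A.2.1

theorem le_normalizer_offGen {V K R : Subgroup G} (hRV : R ≤ Subgroup.normalizer (V : Set G))
    (hRK : R ≤ Subgroup.normalizer (K : Set G)) :
    R ≤ Subgroup.normalizer (offGen V K : Set G) := by
  have key : ∀ r ∈ R, cj r (offGen V K) ≤ offGen V K := by
    intro r hr
    unfold offGen cj
    rw [Subgroup.map_iSup]
    apply iSup_le
    rintro ⟨A, hAK, hA⟩
    have h1 : cj r A ≤ K := by
      have h2 : cj r A ≤ cj r K := cj_mono hAK
      rw [cj_eq_self (hRK hr)] at h2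
      exact h2
    exact le_iSup (fun A : {A : Subgroup G // A ≤ K ∧ Cfsg.IsBestOffenderOn 2 V A} =>
      (A : Subgroup G)) ⟨cj r A, h1, bestOffender_cj (hRV hr) hA⟩
  intro r hr
  rw [Subgroup.mem_normalizer_iff]
  intro h
  constructor
  · intro hh
    exact key r hr (conj_mem_cj hh)
  · intro hh
    have h1 := key r⁻¹ (R.inv_mem hr) (conj_mem_cj hh)
    simpa [mul_assoc] using h1

end Gen

end Cfsg.Agent.H52.Fz
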