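import Mathlib
import Cfsg.Agent.H52.FzConj
import Cfsg.Agent.H52.ThOff
import Cfsg.Agent.H47.OffenderFix

/-!
# Splitting off a transvection from an abelian subgroup (S4302, piece ELEM-b)
-/

set_option autoImplicit false
open Cfsg
open scoped commutatorElement

namespace Cfsg.Agent.H52.Fz

open Cfsg.Agent.H47.Off

theorem exists_split {G : Type*} [Group G] [Finite G] {V H D B : Subgroup G}
    (hV : Cfsg.IsElementaryAbelian 2 V)
    (hHV : H ≤ Subgroup.normalizer (V : Set G))
    (hf : H ⊓ Subgroup.centralizer (V : Set G) = ⊥)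
    (hS1 : Subgroup.centralizer (Cfsg.pPrimeCore 2 ↥H : Set ↥H) ≤ Cfsg.pPrimeCore 2 ↥H)
    (hS3 : H = ⨆ A : {A : Subgroup G // A ≤ H ∧ Cfsg.IsBestOffenderOn 2 V A}, (A : Subgroup G))
    (hDV : D ≤ Subgroup.normalizer (V : Set G))
    (hDH : D ≤ Subgroup.normalizer (H : Set G))
    (hDc : ∀ a ∈ D, ∀ b ∈ D, a * b = b * a)
    (hBD : B ≤ D) (hBH : B ≤ H) (hB : Cfsg.IsBestOffenderOn 2 V B) (hB2 : Nat.card B = 2) :
    ∃ D₁ : Subgroup G, D₁ ≤ D ∧ Nat.card D₁ * 2 = Nat.card D ∧ B ⊓ D₁ = ⊥ ∧
      ∀ B' : Subgroup G, B' ≤ D₁ →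
        Nat.card ↥(V ⊓ Subgroup.centralizer (B' : Set G)) =
          2 * Nat.card ↥(V ⊓ Subgroup.centralizer ((B ⊔ B' : Subgroup G) : Set G)) := by
  haveI : Fact (Nat.Prime 2) := ⟨Nat.prime_two⟩
  have hVc := comm_of_isElementaryAbelian hV
  have hT := isTrans_of_offender hV hHV hf hS1 hBH hB hB2
  have hcomp := isComp_of_card_prime hV hHV hf hS1 hBH hB hB2
  have P := hcomp.props hV hHV hf hS1 hS3
  obtain ⟨E, hEdef⟩ : ∃ E : Subgroup G, E = ⁅qc 2 H, B⁆ ⊔ B := ⟨_, rfl⟩
  rw [← hEdef] at P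
  obtain ⟨U, hUdef⟩ : ∃ U : Subgroup G, U = ⁅V, E⁆ := ⟨_, rfl⟩
  have hUcard : Nat.card U = 4 := by rw [hUdef, P.card]; norm_num
  have hBE : B ≤ E := by rw [hEdef]; exact le_sup_right
  have hUV : U ≤ V := by
    rw [hUdef]
    exact Subgroup.le_normalizer_iff_commutator_le_left.mp (P.le.trans hHV)
  obtain ⟨b, hbB, hb1, hbb, hzb⟩ := exists_zpowers_eq hB2
  have hbD : b ∈ D := hBD hbB
  -- `D` centralizes `B`
  have hcjB : ∀ d ∈ D, cj d B = B := by
    intro d hd
    apply cj_eq_self
    apply Subgroup.centralizer_le_normalizer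
    rw [Subgroup.mem_centralizer_iff]
    intro y hy
    exact hDc y (hBD hy) d hd
  -- `D` normalizes `U`
  have hDU : ∀ d ∈ D, cj d U = U := by
    intro d hd
    have h2 : cj d E = E := by rw [hEdef, cj_comp (hDH hd), hcjB d hd]
    rw [hUdef, ← commutator_cj (hDV hd), h2]
  have hBD₁ : B ⊓ (D ⊓ Subgroup.centralizer (U : Set G)) = ⊥ := by
    rw [eq_bot_iff, ← P.inf_cent, ← hUdef]
    intro x hx
    exact ⟨hBE hx.1, hBH hx.1, hx.2.2⟩
  have hbU : b ∉ Subgroup.centralizer (U : Set G) := by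
    intro h
    have : b ∈ B ⊓ (D ⊓ Subgroup.centralizer (U : Set G)) := ⟨hbB, hbD, h⟩
    rw [hBD₁, Subgroup.mem_bot] at this
    exact hb1 this
  refine ⟨D ⊓ Subgroup.centralizer (U : Set G), inf_le_left, ?_, hBD₁, ?_⟩
  · -- the index
    obtain ⟨u₀, hu₀, hu₀1, hu₀2, hzu₀⟩ := exists_zpowers_eq hT.2.2
    have hVB_U : ⁅V, B⁆ ≤ U := by rw [hUdef]; exact Subgroup.commutator_mono le_rfl hBE
    have hu₀U : u₀ ∈ U := hVB_U hu₀
    have hu₀sq : u₀ * u₀ = 1 := by rw [← pow_two]; exact hu₀2
    -- `D` fixes `u₀`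
    have hfix₀ : ∀ d ∈ D, d * u₀ * d⁻¹ = u₀ := by
      intro d hd
      have h1 : cj d ⁅V, B⁆ = ⁅V, B⁆ := by rw [← commutator_cj (hDV hd), hcjB d hd]
      have h2 : d * u₀ * d⁻¹ ∈ cj d ⁅V, B⁆ := conj_mem_cj hu₀
      rw [h1, ← hzu₀] at h2
      rcases Cfsg.Agent.H52.mem_zpowers_invol hu₀sq h2 with h3 | h3
      · exfalso
        apply hu₀1
        have : u₀ = d⁻¹ * (d * u₀ * d⁻¹) * d := by group
        rw [this, h3]; group
      · exact h3
    -- an element of `U` outside `⟨u₀⟩`
    have hex : ∃ u ∈ U, u ≠ 1 ∧ u ≠ u₀ := by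
      by_contra hcon
      push Not at hcon
      have hle : U ≤ Subgroup.zpowers u₀ := by
        intro w hw
        by_cases hw1 : w = 1
        · rw [hw1]; exact Subgroup.one_mem _
        · rw [hcon w hw hw1]; exact Subgroup.mem_zpowers u₀
      have h1 := Subgroup.card_le_of_le hle
      rw [hzu₀, hT.2.2, hUcard] at h1
      omega
    obtain ⟨u, huU, hu1, huu₀⟩ := hex
    have hU2 : ∀ v : ↥U, v * v = 1 := by
      intro v
      apply Subtype.ext
      have := hV.2 v.1 (hUV v.2)
      rw [pow_two] at this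
      exact this
    have h4 : ∀ z ∈ U, z = 1 ∨ z = u₀ ∨ z = u ∨ z = u₀ * u := by
      intro z hz
      have h := Cfsg.Agent.H52.four_elts hUcard hU2 ⟨u₀, hu₀U⟩ ⟨u, huU⟩
        (fun h => hu₀1 (congrArg Subtype.val h)) (fun h => hu1 (congrArg Subtype.val h))
        (fun h => huu₀ (congrArg Subtype.val h).symm) ⟨z, hz⟩
      rcases h with h | h | h | h
      · left; exact congrArg Subtype.val h
      · right; left; exact congrArg Subtype.val h
      · right; right; left; exact congrArg Subtype.val h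
      · right; right; right; exact congrArg Subtype.val h
    -- the action of `D` on `u`
    have hact : ∀ d ∈ D, d * u * d⁻¹ = u ∨ d * u * d⁻¹ = u₀ * u := by
      intro d hd
      have h1 : d * u * d⁻¹ ∈ U := by
        have := conj_mem_cj (x := d) huU
        rwa [hDU d hd] at this
      rcases h4 _ h1 with h | h | h | h
      · exfalso
        apply hu1
        have : u = d⁻¹ * (d * u * d⁻¹) * d := by group
        rw [this, h]; group
      · exfalso
        apply huu₀
        have e : u = d⁻¹ * (d * u * d⁻¹) * d := by group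
        have h5 := hfix₀ d⁻¹ (D.inv_mem hd)
        rw [inv_inv] at h5
        rw [e, h, h5]
      · left; exact h
      · right; exact h
    -- centralizing `u` means centralizing `U`
    have hcent : ∀ d ∈ D, d * u * d⁻¹ = u → d ∈ Subgroup.centralizer (U : Set G) := by
      intro d hd hdu
      rw [Subgroup.mem_centralizer_iff]
      intro z hz
      have e0 := hfix₀ d hd
      have key : d * z * d⁻¹ = z := by
        rcases h4 z hz with h | h | h | h
        · rw [h]; group
        · rw [h]; exact e0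
        · rw [h]; exact hdu
        · rw [h]
          calc d * (u₀ * u) * d⁻¹ = (d * u₀ * d⁻¹) * (d * u * d⁻¹) := by group
            _ = u₀ * u := by rw [e0, hdu]
      calc z * d = (d * z * d⁻¹) * d := by rw [key]
        _ = d * z := by group
    have hbu : b * u * b⁻¹ = u₀ * u := by
      rcases hact b hbD with h | h
      · exact absurd (hcent b hbD h) hbU
      · exact h
    -- `D = B ⊔ D₁`
    have hsup : B ⊔ (D ⊓ Subgroup.centralizer (U : Set G)) = D := by
      apply le_antisymm (sup_le hBD inf_le_left)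
      intro d hd
      rcases hact d hd with h | h
      · exact (le_sup_right : D ⊓ Subgroup.centralizer (U : Set G) ≤ _) ⟨hd, hcent d hd h⟩
      · have h1 : (b * d) * u * (b * d)⁻¹ = u := by
          calc (b * d) * u * (b * d)⁻¹ = b * (d * u * d⁻¹) * b⁻¹ := by group
            _ = (b * u₀ * b⁻¹) * (b * u * b⁻¹) := by rw [h]; group
            _ = u₀ * (u₀ * u) := by rw [hfix₀ b hbD, hbu]
            _ = u := by rw [← mul_assoc, hu₀sq, one_mul]
        have h2 : b * d ∈ D ⊓ Subgroup.centralizer (U : Set G) :=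
          ⟨D.mul_mem hbD hd, hcent _ (D.mul_mem hbD hd) h1⟩
        have e : d = b⁻¹ * (b * d) := by group
        rw [e]
        exact Subgroup.mul_mem_sup (B.inv_mem hbB) h2
    have hN : B ≤ Subgroup.normalizer ((D ⊓ Subgroup.centralizer (U : Set G) : Subgroup G) : Set G) := by
      refine le_trans ?_ (Subgroup.centralizer_le_normalizer _)
      intro x hx
      rw [Subgroup.mem_centralizer_iff]
      intro y hy
      exact hDc y hy.1 x (hBD hx)
    have h1 := Cfsg.Agent.H14.Holo.card_sup_mul_card_inf B _ hN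
    rw [hBD₁, Subgroup.card_bot, mul_one, hB2, hsup] at h1
    rw [h1, mul_comm]
  · -- the fixed points
    intro B' hB'
    obtain ⟨W', hW'def⟩ : ∃ W' : Subgroup G, W' = V ⊓ Subgroup.centralizer (B' : Set G) := ⟨_, rfl⟩
    have hW'V : W' ≤ V := by rw [hW'def]; exact inf_le_left
    have hc' : ∀ x ∈ W', ∀ y ∈ W', x * y = y * x := fun x hx y hy => hVc x (hW'V hx) y (hW'V hy)
    have hcjB' : cj b B' = B' := by
      apply cj_eq_self
      apply Subgroup.centralizer_le_normalizer
      rw [Subgroup.mem_centralizer_iff]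
      intro y hy
      exact hDc y (hB' hy).1 b hbD
    have hbW : b ∈ Subgroup.normalizer (W' : Set G) := by
      apply mem_normalizer_of_cj_eq
      rw [hW'def]
      have h1 : cj b (V ⊓ Subgroup.centralizer (B' : Set G)) =
          cj b V ⊓ cj b (Subgroup.centralizer (B' : Set G)) :=
        Subgroup.map_inf _ _ _ (MulAut.conj b).injective
      rw [h1, cj_eq_self (hDV hbD), ← centralizer_cj, hcjB']
    have key := card_commutator_zpowers W' hc' b hbW
    rw [hzb] at key
    have hUW' : U ≤ W' := by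
      rw [hW'def]
      refine le_inf hUV ?_
      rw [Subgroup.le_centralizer_iff]
      exact fun x hx => (hB' hx).2
    have hle : ⁅W', B⁆ ≤ ⁅V, B⁆ := Subgroup.commutator_mono hW'V le_rfl
    have hne : ⁅W', B⁆ ≠ ⊥ := by
      intro h
      rw [Subgroup.commutator_eq_bot_iff_le_centralizer] at h
      apply hbU
      have h1 : B ≤ Subgroup.centralizer (W' : Set G) := Subgroup.le_centralizer_iff.mp h
      exact Subgroup.centralizer_le (SetLike.coe_subset_coe.mpr hUW') (h1 hbB)
    have hcard2 : Nat.card ↥⁅W', B⁆ = 2 := by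
      have h1 := Subgroup.card_le_of_le hle
      rw [hT.2.2] at h1
      have h2 : Nat.card ↥⁅W', B⁆ ≠ 1 := fun h => hne (Subgroup.card_eq_one.mp h)
      have h3 : 0 < Nat.card ↥⁅W', B⁆ := Nat.card_pos
      omega
    rw [hcard2] at key
    have h5 := Cfsg.Agent.H14.relIndex_mul_card'
      (inf_le_left : W' ⊓ Subgroup.centralizer (B : Set G) ≤ W')
    rw [← key] at h5
    have h6 : W' ⊓ Subgroup.centralizer (B : Set G) =
        V ⊓ Subgroup.centralizer ((B ⊔ B' : Subgroup G) : Set G) := by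
      rw [hW'def, centralizer_sup_eq, inf_assoc, inf_comm (Subgroup.centralizer (B' : Set G))]
    rw [← hW'def, ← h6, ← h5]

end Cfsg.Agent.H52.Fz
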