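import Mathlib
import Cfsg.Agent.H52.FzDefs
import Cfsg.Agent.H52.FzConj
import Cfsg.Agent.Helper55.FzFrat
import Cfsg.Agent.Helper55.FzSetupA
import Cfsg.Agent.H53.FzSetupB
import Cfsg.Agent.H14.FzCount
import Cfsg.Agent.H14.FzElemA
import Cfsg.Agent.H52.FzSplit
import Cfsg.Agent.H71.FzProd

/-!
# The solvable failure-of-factorization theorem (S4302): induction and assembly
-/

set_option autoImplicit false
open Cfsg
open scoped commutatorElement

namespace Cfsg.Agent.H52.Fz

open Cfsg.Agent.H14.Holo Cfsg.Agent.H29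

universe u

section Gen

open Cfsg.Agent.H47.Off

variable {G : Type u} [Group G]

/-- Abelian `2`-subgroups that are "best" on `V` are elementary abelian. -/
theorem elem_of_cbest [Finite G] {V R : Subgroup G}
    (hV : Cfsg.IsElementaryAbelian 2 V) (hRV : R ≤ Subgroup.normalizer (V : Set G))
    (hf : R ⊓ Subgroup.centralizer (V : Set G) = ⊥)
    (hsolv : IsPSolvable 2 ↥R) (hcore : pCore 2 ↥R = ⊥) :
    ∀ n : ℕ, ∀ D : Subgroup G, Nat.card D = n → D ≤ R →
      (∀ a ∈ D, ∀ b ∈ D, a * b = b * a) → IsPGroup 2 ↥D →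
      (∀ B : Subgroup G, B ≤ D →
        Nat.card B * Nat.card ↥(V ⊓ Subgroup.centralizer (B : Set G)) ≤
          Nat.card D * Nat.card ↥(V ⊓ Subgroup.centralizer (D : Set G))) →
      ∀ d ∈ D, d ^ 2 = 1 := by
  haveI : Fact (Nat.Prime 2) := ⟨Nat.prime_two⟩
  have hHR : offGen V R ≤ R := offGen_le V R
  have hHV : offGen V R ≤ Subgroup.normalizer (V : Set G) := hHR.trans hRV
  have hfH : offGen V R ⊓ Subgroup.centralizer (V : Set G) = ⊥ := by
    rw [eq_bot_iff, ← hf]
    exact inf_le_inf_right _ hHR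
  have hnorm : R ≤ Subgroup.normalizer (offGen V R : Set G) :=
    le_normalizer_offGen hRV Subgroup.le_normalizer
  have hS1 := hS1_of_normal (p := 2) R (offGen V R) hHR hnorm hsolv hcore
  have hS3 := offGen_hS3 V R
  intro n
  induction n using Nat.strong_induction_on with
  | _ n ih =>
    intro D hn hDR hDc hD2 hbest d hd
    by_cases hD1 : D = ⊥
    · rw [hD1, Subgroup.mem_bot] at hd
      rw [hd, one_pow]
    have hDV : D ≤ Subgroup.normalizer (V : Set G) := hDR.trans hRV
    have hfD : D ⊓ Subgroup.centralizer (V : Set G) = ⊥ := by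
      rw [eq_bot_iff, ← hf]
      exact inf_le_inf_right _ hDR
    obtain ⟨B, hBD, hB, hB2⟩ := Cfsg.Agent.H14.Fz52.exists_offender_two hV hHV hfH hS1 hDV hfD hDc hD2 hD1 hbest
      (fun A hA hAb => le_offGen (hA.trans hDR) hAb)
    obtain ⟨D₁, hD₁D, hcard, hBD₁, hfix⟩ := exists_split hV hHV hfH hS1 hS3 hDV
      (hDR.trans hnorm) hDc hBD (le_offGen (hBD.trans hDR) hB) hB hB2
    -- orders of `B ⊔ B'`
    have hsupcard : ∀ B' : Subgroup G, B' ≤ D₁ → Nat.card ↥(B ⊔ B') = 2 * Nat.card B' := by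
      intro B' hB'
      have hN : B ≤ Subgroup.normalizer (B' : Set G) := by
        refine le_trans ?_ (Subgroup.centralizer_le_normalizer _)
        intro b hb
        rw [Subgroup.mem_centralizer_iff]
        intro y hy
        exact hDc y (hD₁D (hB' hy)) b (hBD hb)
      have h1 := Cfsg.Agent.H14.Holo.card_sup_mul_card_inf B B' hN
      have h2 : B ⊓ B' = ⊥ := by
        rw [eq_bot_iff, ← hBD₁]
        exact inf_le_inf_left _ hB'
      rw [h2, Subgroup.card_bot, mul_one, hB2] at h1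
      exact h1
    have hDeq : B ⊔ D₁ = D := by
      apply Subgroup.eq_of_le_of_card_ge (sup_le hBD hD₁D)
      rw [hsupcard D₁ le_rfl, ← hcard]
      omega
    have hbest₁ : ∀ B' : Subgroup G, B' ≤ D₁ →
        Nat.card B' * Nat.card ↥(V ⊓ Subgroup.centralizer (B' : Set G)) ≤
          Nat.card D₁ * Nat.card ↥(V ⊓ Subgroup.centralizer (D₁ : Set G)) := by
      intro B' hB'
      have h1 := hbest (B ⊔ B') (sup_le hBD (hB'.trans hD₁D))
      rw [hsupcard B' hB'] at h1
      have h2 := hfix B' hB'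
      have h3 := hfix D₁ le_rfl
      rw [hDeq] at h3
      rw [h2, h3]
      calc Nat.card B' * (2 * Nat.card ↥(V ⊓ Subgroup.centralizer ((B ⊔ B' : Subgroup G) : Set G)))
          = 2 * Nat.card B' * Nat.card ↥(V ⊓ Subgroup.centralizer ((B ⊔ B' : Subgroup G) : Set G)) := by
            ring
        _ ≤ Nat.card D * Nat.card ↥(V ⊓ Subgroup.centralizer (D : Set G)) := h1
        _ = Nat.card D₁ * (2 * Nat.card ↥(V ⊓ Subgroup.centralizer (D : Set G))) := by
            rw [← hcard]; ring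
    have hpos : 0 < Nat.card D₁ := Nat.card_pos
    have hlt : Nat.card D₁ < n := by rw [← hn, ← hcard]; omega
    have hel := ih (Nat.card D₁) hlt D₁ rfl (hD₁D.trans hDR)
      (fun a ha b hb => hDc a (hD₁D ha) b (hD₁D hb)) (hD2.to_le hD₁D) hbest₁
    rw [← hDeq] at hd
    obtain ⟨b, hb, d₁, hd₁, rfl⟩ := exists_mul_of_mem_sup
      (fun x hx y hy => hDc x (hBD hx) y (hD₁D hy)) hd
    have hc : Commute b d₁ := hDc b (hBD hb) d₁ (hD₁D hd₁)
    rw [hc.mul_pow, pow_eq_one_of_card_eq hB2 hb, hel d₁ hd₁, one_mul]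

end Gen


section Main

open Cfsg.Agent.H47.Off

variable {X : Type u} [Group X]

theorem omegaOne_normal (p : ℕ) (W : Subgroup X) [hW : W.Normal] :
    (Cfsg.omegaOne p W).Normal := by
  constructor
  intro n hn g
  have h1 : (Cfsg.omegaOne p W).map (MulAut.conj g).toMonoidHom ≤ Cfsg.omegaOne p W := by
    unfold Cfsg.omegaOne
    rw [MonoidHom.map_closure, Subgroup.closure_le]
    rintro _ ⟨x, ⟨hxW, hxp⟩, rfl⟩
    apply Subgroup.subset_closure
    refine ⟨hW.conj_mem x hxW g, ?_⟩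
    show (g * x * g⁻¹) ^ p = 1
    rw [conj_pow, hxp, mul_one, mul_inv_cancel]
  exact h1 ⟨n, hn, rfl⟩

/-- The elementary abelian normal subgroup `Ω₁(⟨Z(T)^X⟩)`. -/
def VS (T : Subgroup X) : Subgroup X := Cfsg.omegaOne 2 (WS T)

instance VS_normal (T : Subgroup X) : (VS T).Normal := omegaOne_normal 2 (WS T)

/-- The normal closure of `J(T)`. -/
abbrev YS (T : Subgroup X) : Subgroup X :=
  Subgroup.normalClosure ((Cfsg.thompsonSubgroupAOf T : Subgroup X) : Set X)

variable [Finite X] [Group.IsSolvable X]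

theorem WS_comm (hF : Cfsg.fittingSubgroup X = Cfsg.pCore 2 X) (T : Sylow 2 X) :
    ∀ a ∈ WS (T : Subgroup X), ∀ b ∈ WS (T : Subgroup X), a * b = b * a := by
  intro a ha b hb
  have h1 := (Subgroup.mem_inf.mp (Cfsg.Agent.Helper55.Fz.WS_le_center_pCore hF T ha)).1
  have h2 := (Subgroup.mem_inf.mp (Cfsg.Agent.Helper55.Fz.WS_le_center_pCore hF T hb)).2
  exact (Subgroup.mem_centralizer_iff.mp h2) a h1

theorem VS_le_WS (T : Subgroup X) : VS T ≤ WS T := Cfsg.Agent.H29.omegaOne_le 2 (WS T)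

theorem VS_elemAb (hF : Cfsg.fittingSubgroup X = Cfsg.pCore 2 X) (T : Sylow 2 X) :
    Cfsg.IsElementaryAbelian 2 (VS (T : Subgroup X)) := by
  apply omegaOne_elemAb
  intro a ha
  rw [Subgroup.mem_centralizer_iff]
  intro b hb
  exact WS_comm hF T b hb a ha

theorem VS_le (hF : Cfsg.fittingSubgroup X = Cfsg.pCore 2 X) (T : Sylow 2 X) :
    VS (T : Subgroup X) ≤ (T : Subgroup X) :=
  (VS_le_WS _).trans (((Cfsg.Agent.Helper55.Fz.WS_le_center_pCore hF T).trans inf_le_left).trans (pCore_le_sylow T))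

theorem centralizer_VS_eq (hF : Cfsg.fittingSubgroup X = Cfsg.pCore 2 X) (T : Sylow 2 X) :
    Subgroup.centralizer (VS (T : Subgroup X) : Set X) =
      Subgroup.centralizer (WS (T : Subgroup X) : Set X) := by
  haveI : Fact (Nat.Prime 2) := ⟨Nat.prime_two⟩
  have hWp : IsPGroup 2 ↥(WS (T : Subgroup X)) :=
    (Cfsg.Agent.H14.pCore_isPGroup 2 X).to_le ((Cfsg.Agent.Helper55.Fz.WS_le_center_pCore hF T).trans inf_le_left)
  exact Cfsg.Agent.H53.Fz.centralizer_omegaOne_eq (WS (T : Subgroup X)) (WS_comm hF T) hWp (Cfsg.Agent.Helper55.Fz.pCore_quot_WS T)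

theorem centralizer_VS (hF : Cfsg.fittingSubgroup X = Cfsg.pCore 2 X) (T : Sylow 2 X) :
    Subgroup.centralizer (VS (T : Subgroup X) : Set X) =
      (Subgroup.centralizer (((T : Subgroup X) ⊓ Subgroup.centralizer ((T : Subgroup X) : Set X) :
        Subgroup X) : Set X)).normalCore := by
  rw [centralizer_VS_eq hF T, Cfsg.Agent.Helper55.Fz.centralizer_WS]

theorem pCore_range_VS (hF : Cfsg.fittingSubgroup X = Cfsg.pCore 2 X) (T : Sylow 2 X) :
    pCore 2 ↥(psi (VS (T : Subgroup X))).range = ⊥ := by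
  haveI : Fact (Nat.Prime 2) := ⟨Nat.prime_two⟩
  apply range_pCore_eq_bot
  have hO := Cfsg.Agent.Helper55.Fz.pCore_quot_WS (p := 2) T
  have e : X ⧸ Subgroup.centralizer (WS (T : Subgroup X) : Set X) ≃*
      X ⧸ Subgroup.centralizer (VS (T : Subgroup X) : Set X) :=
    QuotientGroup.quotientMulEquivOfEq (centralizer_VS_eq hF T).symm
  rw [← Cfsg.Agent.H14.pCore_map_equiv 2 e, hO, Subgroup.map_bot]

theorem range_le_normalizer_Vh (V : Subgroup X) [V.Normal] :
    (psi V).range ≤ Subgroup.normalizer ((Vh V : Subgroup (Hol V)) : Set (Hol V)) := by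
  haveI := Vh_normal V
  rw [Subgroup.normalizer_eq_top]
  exact le_top

/-- The images of the abelian subgroups of largest order are best offenders. -/
theorem offender_map (hF : Cfsg.fittingSubgroup X = Cfsg.pCore 2 X) (T : Sylow 2 X)
    {A : Subgroup X} (hA : A ∈ nMax 0 (T : Subgroup X)) :
    Cfsg.IsBestOffenderOn 2 (Vh (VS (T : Subgroup X))) (A.map (psi (VS (T : Subgroup X)))) := by
  haveI : Fact (Nat.Prime 2) := ⟨Nat.prime_two⟩
  have hVel := VS_elemAb hF T
  have hVc := comm_of_isElementaryAbelian hVel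
  have hcb := Cfsg.Agent.H14.Fz52.cbest_map (VS (T : Subgroup X)) hVc (VS_le hF T) hA
  have hVh := Vh_elemAb (VS (T : Subgroup X)) hVel
  have hsep : IsPSolvable 2 X := Cfsg.Agent.H80.isPSolvable_of_isSolvable 2 _ X rfl
  have hDR : A.map (psi (VS (T : Subgroup X))) ≤ (psi (VS (T : Subgroup X))).range := by
    rintro _ ⟨a, -, rfl⟩
    exact ⟨a, rfl⟩
  have hDc : ∀ a ∈ A.map (psi (VS (T : Subgroup X))), ∀ b ∈ A.map (psi (VS (T : Subgroup X))),
      a * b = b * a := by
    rintro _ ⟨a, ha, rfl⟩ _ ⟨b, hb, rfl⟩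
    rw [← map_mul, ← map_mul, Cfsg.Agent.H52.Wc.comm_of_mem_nMax hA a ha b hb]
  have hD2 : IsPGroup 2 ↥(A.map (psi (VS (T : Subgroup X)))) :=
    (T.2.to_le hA.1.1).map _
  have hel := elem_of_cbest hVh (range_le_normalizer_Vh _) (range_faithful (VS (T : Subgroup X)))
    (range_isPSolvable (VS (T : Subgroup X)) hsep) (pCore_range_VS hF T) _
    (A.map (psi (VS (T : Subgroup X)))) rfl hDR hDc hD2 hcb
  refine ⟨hcb, ?_, ?_⟩
  · have h1 : ⁅A.map (psi (VS (T : Subgroup X))), A.map (psi (VS (T : Subgroup X)))⁆ = ⊥ := by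
      rw [Subgroup.commutator_eq_bot_iff_le_centralizer]
      intro a ha
      rw [Subgroup.mem_centralizer_iff]
      intro b hb
      exact hDc b hb a ha
    rw [h1]
    exact bot_le
  · intro a ha
    rw [hel a ha]
    exact Subgroup.one_mem _

theorem range_le_normalizer_map (V : Subgroup X) [V.Normal] (Y : Subgroup X) [hY : Y.Normal] :
    (psi V).range ≤ Subgroup.normalizer ((Y.map (psi V) : Subgroup (Hol V)) : Set (Hol V)) := by
  rintro _ ⟨g, rfl⟩
  rw [Subgroup.mem_normalizer_iff]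
  intro h
  constructor
  · rintro ⟨j, hj, rfl⟩
    refine ⟨g * j * g⁻¹, hY.conj_mem j hj g, ?_⟩
    simp
  · rintro ⟨j, hj, hjh⟩
    refine ⟨g⁻¹ * j * g, ?_, ?_⟩
    · have := hY.conj_mem j hj g⁻¹
      simpa using this
    · rw [map_mul, map_mul, hjh, map_inv]
      group

theorem image_hS3 (hF : Cfsg.fittingSubgroup X = Cfsg.pCore 2 X) (T : Sylow 2 X) :
    (YS (T : Subgroup X)).map (psi (VS (T : Subgroup X))) =
      offGen (Vh (VS (T : Subgroup X))) ((YS (T : Subgroup X)).map (psi (VS (T : Subgroup X)))) := by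
  apply le_antisymm _ (offGen_le _ _)
  have hRN := le_normalizer_offGen (range_le_normalizer_Vh (VS (T : Subgroup X)))
    (range_le_normalizer_map (VS (T : Subgroup X)) (YS (T : Subgroup X)))
  rw [Subgroup.map_le_iff_le_comap]
  haveI hn : ((offGen (Vh (VS (T : Subgroup X)))
      ((YS (T : Subgroup X)).map (psi (VS (T : Subgroup X))))).comap
        (psi (VS (T : Subgroup X)))).Normal := by
    constructor
    intro n hn g
    rw [Subgroup.mem_comap] at hn ⊢
    rw [map_mul, map_mul, map_inv]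
    exact (Subgroup.mem_normalizer_iff.mp (hRN ⟨g, rfl⟩) _).mp hn
  apply Subgroup.normalClosure_le_normal
  rw [Cfsg.Agent.H29.thompsonSubgroupAOf_eq]
  show sSup (nMax 0 (T : Subgroup X)) ≤ _
  apply sSup_le
  intro A hA
  rw [← Subgroup.map_le_iff_le_comap]
  apply le_offGen _ (offender_map hF T hA)
  apply Subgroup.map_mono
  refine le_trans ?_ Subgroup.le_normalClosure
  rw [Cfsg.Agent.H29.thompsonSubgroupAOf_eq]
  exact Cfsg.Agent.H29.le_nJ hA

theorem main_aux (hF : Cfsg.fittingSubgroup X = Cfsg.pCore 2 X) (T : Sylow 2 X) :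
    (Subgroup.centralizer (VS (T : Subgroup X) : Set X) ⊔ YS (T : Subgroup X) ⊔
        Subgroup.normalizer (Cfsg.thompsonSubgroupAOf (T : Subgroup X) : Set X) = ⊤) ∧
    (YS (T : Subgroup X) ≤ Subgroup.centralizer (VS (T : Subgroup X) : Set X) ∨
      ∃ n : ℕ, 1 ≤ n ∧ Nonempty (↥(YS (T : Subgroup X)) ⧸
          (Subgroup.centralizer (VS (T : Subgroup X) : Set X)).subgroupOf (YS (T : Subgroup X))
        ≃* (Fin n → Equiv.Perm (Fin 3)))) := by
  haveI : Fact (Nat.Prime 2) := ⟨Nat.prime_two⟩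
  refine ⟨?_, ?_⟩
  · rw [sup_assoc, Cfsg.Agent.Helper55.Fz.frat T, sup_top_eq]
  by_cases hY1 : (YS (T : Subgroup X)).map (psi (VS (T : Subgroup X))) = ⊥
  · left
    intro y hy
    rw [← psi_ker, MonoidHom.mem_ker]
    have h1 : psi (VS (T : Subgroup X)) y ∈ (YS (T : Subgroup X)).map (psi (VS (T : Subgroup X))) :=
      Subgroup.mem_map_of_mem _ hy
    rw [hY1, Subgroup.mem_bot] at h1
    exact h1
  · right
    have hVh := Vh_elemAb (VS (T : Subgroup X)) (VS_elemAb hF T)
    have hsep : IsPSolvable 2 X := Cfsg.Agent.H80.isPSolvable_of_isSolvable 2 _ X rfl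
    have hYR : (YS (T : Subgroup X)).map (psi (VS (T : Subgroup X))) ≤
        (psi (VS (T : Subgroup X))).range := by
      rintro _ ⟨a, -, rfl⟩
      exact ⟨a, rfl⟩
    have hRY := range_le_normalizer_map (VS (T : Subgroup X)) (YS (T : Subgroup X))
    have hHV := hYR.trans (range_le_normalizer_Vh (VS (T : Subgroup X)))
    have hf : (YS (T : Subgroup X)).map (psi (VS (T : Subgroup X))) ⊓
        Subgroup.centralizer ((Vh (VS (T : Subgroup X)) : Subgroup (Hol (VS (T : Subgroup X)))) :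
          Set (Hol (VS (T : Subgroup X)))) = ⊥ := by
      rw [eq_bot_iff, ← range_faithful (VS (T : Subgroup X))]
      exact inf_le_inf_right _ hYR
    have hS1 := hS1_of_normal (p := 2) _ _ hYR hRY (range_isPSolvable (VS (T : Subgroup X)) hsep)
      (pCore_range_VS hF T)
    have hS3 := image_hS3 hF T
    obtain ⟨-, hE, hind, hsup, -, -⟩ := structure_theorem hVh hHV hf hS1 hS3 hY1
    haveI : Nonempty {E : Subgroup (Hol (VS (T : Subgroup X))) //
        IsComp 2 (Vh (VS (T : Subgroup X)))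
          ((YS (T : Subgroup X)).map (psi (VS (T : Subgroup X)))) E} := by
      by_contra hemp
      rw [not_nonempty_iff] at hemp
      apply hY1
      rw [← hsup, iSup_of_empty]
    obtain ⟨n, hn, ⟨e⟩⟩ := Cfsg.Agent.H71.Fz.prod_s3 ((YS (T : Subgroup X)).map (psi (VS (T : Subgroup X))))
      (fun E : {E : Subgroup (Hol (VS (T : Subgroup X))) //
        IsComp 2 (Vh (VS (T : Subgroup X)))
          ((YS (T : Subgroup X)).map (psi (VS (T : Subgroup X)))) E} =>
        (E : Subgroup (Hol (VS (T : Subgroup X))))) hind hsup (fun E => (hE E).1)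
      (fun E => (hE E).2.1)
    refine ⟨n, hn, ⟨?_⟩⟩
    let f : ↥(YS (T : Subgroup X)) →* ↥((YS (T : Subgroup X)).map (psi (VS (T : Subgroup X)))) :=
      ((psi (VS (T : Subgroup X))).comp (YS (T : Subgroup X)).subtype).codRestrict _
        (fun y => Subgroup.mem_map_of_mem _ y.2)
    have hsurj : Function.Surjective f := by
      rintro ⟨_, y, hy, rfl⟩
      exact ⟨⟨y, hy⟩, rfl⟩
    have hker : (Subgroup.centralizer (VS (T : Subgroup X) : Set X)).subgroupOf
        (YS (T : Subgroup X)) = f.ker := by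
      ext x
      rw [Subgroup.mem_subgroupOf, MonoidHom.mem_ker, ← psi_ker, MonoidHom.mem_ker]
      constructor
      · intro h
        exact Subtype.ext h
      · intro h
        exact congrArg Subtype.val h
    exact (QuotientGroup.quotientMulEquivOfEq hker).trans
      ((QuotientGroup.quotientKerEquivOfSurjective f hsurj).trans e)

theorem main (hF : Cfsg.fittingSubgroup X = Cfsg.pCore 2 X) (T : Sylow 2 X) :
    ((Subgroup.centralizer (((T : Subgroup X) ⊓ Subgroup.centralizer ((T : Subgroup X) : Set X) : Subgroup X) : Set X)).normalCore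
        ⊔ Subgroup.normalClosure (Cfsg.thompsonSubgroupAOf (T : Subgroup X) : Set X)
        ⊔ Subgroup.normalizer (Cfsg.thompsonSubgroupAOf (T : Subgroup X) : Set X) = ⊤) ∧
    (Subgroup.normalClosure (Cfsg.thompsonSubgroupAOf (T : Subgroup X) : Set X)
        ≤ (Subgroup.centralizer (((T : Subgroup X) ⊓ Subgroup.centralizer ((T : Subgroup X) : Set X) : Subgroup X) : Set X)).normalCore
      ∨ ∃ n : ℕ, 1 ≤ n ∧
        Nonempty (↥(Subgroup.normalClosure (Cfsg.thompsonSubgroupAOf (T : Subgroup X) : Set X)) ⧸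
            ((Subgroup.centralizer (((T : Subgroup X) ⊓ Subgroup.centralizer ((T : Subgroup X) : Set X) : Subgroup X) : Set X)).normalCore).subgroupOf
              (Subgroup.normalClosure (Cfsg.thompsonSubgroupAOf (T : Subgroup X) : Set X))
          ≃* (Fin n → Equiv.Perm (Fin 3)))) := by
  obtain ⟨h1, h2⟩ := main_aux hF T
  have hC := centralizer_VS hF T
  refine ⟨?_, ?_⟩
  · rw [← hC]
    exact h1
  · rcases h2 with h2 | ⟨n, hn, ⟨e⟩⟩
    · left
      rw [← hC]
      exact h2
    · right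
      refine ⟨n, hn, ⟨?_⟩⟩
      exact (QuotientGroup.quotientMulEquivOfEq (by rw [hC])).trans e

end Main

end Cfsg.Agent.H52.Fz
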