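import Cfsg.Agent.H52.JcBasic

/-!
# The four-group configuration: auxiliary steps of the core computation (helper52, for S2946)
-/

set_option autoImplicit false

namespace Cfsg.Agent.H52.Jc

open Cfsg Cfsg.Agent.H29
open scoped commutatorElement

variable {G : Type*} [Group G] [Finite G] {X W S : Subgroup G} {u x : G}

/-- An element of `C_X(W)` which conjugates `m ∈ nZ 2 S` to `m` or `m u'` (with `u' ≠ u`)
fixes `m`. -/
theorem cross_cent_of (h : Cfg X W S u x) {g : G} (hg : g ∈ X) (hgu : g * u * g⁻¹ ≠ u) {m : G}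
    (hm : m ∈ nZ 2 S) (hinf : ∀ w ∈ W, w ∈ nZ 2 S → w = 1 ∨ w = u) {j : G} (hjX : j ∈ X)
    (hjW : j ∈ Subgroup.centralizer (W : Set G))
    (hj : j * m * j⁻¹ = m ∨ j * m * j⁻¹ = m * (g * u * g⁻¹)) : j * m * j⁻¹ = m := by
  rcases hj with e | e
  · exact e
  · exfalso
    have hjS : j ∈ S := h.hRS hjX hjW
    have hjN : j ∈ Subgroup.normalizer ((nZ 2 S : Subgroup G) : Set G) :=
      normalizer_le_normalizer_nZ 2 S (Subgroup.le_normalizer hjS)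
    have h1 : j * m * j⁻¹ ∈ nZ 2 S := (Subgroup.mem_normalizer_iff.mp hjN m).mp hm
    have h2 : g * u * g⁻¹ ∈ nZ 2 S := by
      have : g * u * g⁻¹ = m⁻¹ * (j * m * j⁻¹) := by rw [e]; group
      rw [this]
      exact mul_mem (inv_mem hm) h1
    have h' := h.conj hg
    rcases hinf _ h'.hu h2 with e1 | e1
    · exact h'.hu1 e1
    · exact hgu e1

/-- Two elements of `J(S^g)` outside `C(W)` conjugate `m` in the same way. -/
theorem dich_of (h : Cfg X W S u x) {g : G} (hg : g ∈ X) {m : G}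
    (hcc : ∀ j ∈ nJ 2 (S.map (MulAut.conj g).toMonoidHom),
      j ∈ Subgroup.centralizer (W : Set G) → j * m * j⁻¹ = m)
    {a j : G} (ha : a ∈ nJ 2 (S.map (MulAut.conj g).toMonoidHom))
    (haW : a ∉ Subgroup.centralizer (W : Set G))
    (hj : j ∈ nJ 2 (S.map (MulAut.conj g).toMonoidHom))
    (hjW : j ∉ Subgroup.centralizer (W : Set G)) : j * m * j⁻¹ = a * m * a⁻¹ := by
  have h' := h.conj hg
  have haS := nJ_le 2 _ ha
  have hjS := nJ_le 2 _ hj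
  have ha'W : a⁻¹ ∉ Subgroup.centralizer (W : Set G) := fun hc => haW (by simpa using inv_mem hc)
  have hr : a⁻¹ * j ∈ Subgroup.centralizer (W : Set G) :=
    h'.mul_mem_cent (inv_mem haS) ha'W hjS hjW
  have h1 := hcc (a⁻¹ * j) (mul_mem (inv_mem ha) hj) hr
  have : j * m * j⁻¹ = a * ((a⁻¹ * j) * m * (a⁻¹ * j)⁻¹) * a⁻¹ := by group
  rw [this, h1]

/-- The two "defects" of `m` with respect to `S^x` and `S^(x x)` agree. -/
theorem eps_of (h : Cfg X W S u x) {m : G} (hm : m ∈ nZ 2 S) {a₁ a₂ : G}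
    (ha₁ : a₁ ∈ S.map (MulAut.conj x).toMonoidHom)
    (ha₁W : a₁ ∉ Subgroup.centralizer (W : Set G))
    (ha₂ : a₂ ∈ S.map (MulAut.conj (x * x)).toMonoidHom)
    (ha₂W : a₂ ∉ Subgroup.centralizer (W : Set G))
    (hc1 : a₁ * m * a₁⁻¹ = m ∨ a₁ * m * a₁⁻¹ = m * (x * u * x⁻¹))
    (hc2 : a₂ * m * a₂⁻¹ = m ∨ a₂ * m * a₂⁻¹ = m * (u * (x * u * x⁻¹)))
    (hback : a₁ * a₂ * a₁⁻¹ ∈ nJ 2 S) :
    (a₁ * m * a₁⁻¹ = m ∧ a₂ * m * a₂⁻¹ = m) ∨
    (a₁ * m * a₁⁻¹ = m * (x * u * x⁻¹) ∧ a₂ * m * a₂⁻¹ = m * (u * (x * u * x⁻¹))) := by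
  have hcomm := Subgroup.mem_centralizer_iff.mp (nZ_le_centralizer_nJ 2 S hm) _ hback
  have hfix : a₁ * (a₂ * (a₁⁻¹ * m * a₁) * a₂⁻¹) * a₁⁻¹ = m := by
    have : a₁ * (a₂ * (a₁⁻¹ * m * a₁) * a₂⁻¹) * a₁⁻¹
        = (a₁ * a₂ * a₁⁻¹ * m) * (a₁ * a₂ * a₁⁻¹)⁻¹ := by group
    rw [this, hcomm, mul_inv_cancel_right]
  have hu1 := h.hu1
  have hv := h.v_mem
  rcases hc1 with e1 | e1 <;> rcases hc2 with e2 | e2
  · exact Or.inl ⟨e1, e2⟩
  · exfalso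
    have e1' : a₁⁻¹ * m * a₁ = m := by
      have h0 : m = a₁⁻¹ * (a₁ * m * a₁⁻¹) * a₁ := by group
      rw [e1] at h0
      exact h0.symm
    rw [e1', e2] at hfix
    have e3 : a₁ * (m * (u * (x * u * x⁻¹))) * a₁⁻¹
        = (a₁ * m * a₁⁻¹) * (a₁ * (u * (x * u * x⁻¹)) * a₁⁻¹) := by group
    rw [e3, e1, h.act1_t ha₁ ha₁W] at hfix
    apply hu1
    have : m * u = m * 1 := by rw [mul_one]; exact hfix
    exact mul_left_cancel this
  · exfalso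
    have hv' : a₁⁻¹ * (x * u * x⁻¹) * a₁ = x * u * x⁻¹ := by
      have h2 : x * u * x⁻¹ = a₁⁻¹ * (a₁ * (x * u * x⁻¹) * a₁⁻¹) * a₁ := by group
      rw [h.act1_v ha₁] at h2
      exact h2.symm
    have e1' : a₁⁻¹ * m * a₁ = m * (x * u * x⁻¹) := by
      have h0 : m = a₁⁻¹ * (a₁ * m * a₁⁻¹) * a₁ := by group
      rw [e1] at h0
      have h1 : a₁⁻¹ * (m * (x * u * x⁻¹)) * a₁
          = (a₁⁻¹ * m * a₁) * (a₁⁻¹ * (x * u * x⁻¹) * a₁) := by group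
      rw [h1, hv'] at h0
      calc a₁⁻¹ * m * a₁ = (a₁⁻¹ * m * a₁) * (x * u * x⁻¹) * (x * u * x⁻¹) := by
            rw [mul_assoc (a₁⁻¹ * m * a₁), h.hexp _ hv, mul_one]
        _ = m * (x * u * x⁻¹) := by rw [← h0]
    rw [e1'] at hfix
    have e4 : a₂ * (m * (x * u * x⁻¹)) * a₂⁻¹
        = (a₂ * m * a₂⁻¹) * (a₂ * (x * u * x⁻¹) * a₂⁻¹) := by group
    rw [e4, e2, h.act2_v ha₂ ha₂W] at hfix
    have e5 : a₁ * (m * u) * a₁⁻¹ = (a₁ * m * a₁⁻¹) * (a₁ * u * a₁⁻¹) := by group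
    rw [e5, e1, h.act1_u ha₁ ha₁W] at hfix
    apply hu1
    have e6 : m * (x * u * x⁻¹) * (u * (x * u * x⁻¹)) = m * u := by
      rw [mul_assoc, h.comm hv (W.mul_mem h.hu hv), mul_assoc u, h.hexp _ hv, mul_one]
    rw [e6] at hfix
    have : m * u = m * 1 := by rw [mul_one]; exact hfix
    exact mul_left_cancel this
  · exact Or.inr ⟨e1, e2⟩

omit [Finite G] in
/-- If `K = [K, J]` normalizes `W` and does not centralize it, then `J` does not centralize `W`. -/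
theorem not_J_le {K J W : Subgroup G} (hKJ : ⁅K, J⁆ = K)
    (hKW : ∀ k ∈ K, ∀ w ∈ W, k * w * k⁻¹ ∈ W)
    (hnc : ¬ K ≤ Subgroup.centralizer (W : Set G)) :
    ¬ J ≤ Subgroup.centralizer (W : Set G) := by
  intro hJ
  apply hnc
  have hle : ⁅K, J⁆ ≤ Subgroup.centralizer (W : Set G) := by
    rw [Subgroup.commutator_le]
    intro k hk j hj
    have h1 : k * j * k⁻¹ ∈ Subgroup.centralizer (W : Set G) := by
      rw [Subgroup.mem_centralizer_iff]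
      intro w hw
      have hw' : k⁻¹ * w * k⁻¹⁻¹ ∈ W := hKW k⁻¹ (inv_mem hk) w hw
      have h2 := Subgroup.mem_centralizer_iff.mp (hJ hj) _ hw'
      have e1 : w * (k * j * k⁻¹) = k * ((k⁻¹ * w * k⁻¹⁻¹) * j) * k⁻¹ := by group
      have e2 : k * j * k⁻¹ * w = k * (j * (k⁻¹ * w * k⁻¹⁻¹)) * k⁻¹ := by group
      rw [e1, e2, h2]
    have : ⁅k, j⁆ = (k * j * k⁻¹) * j⁻¹ := by rw [commutatorElement_def]
    rw [this]
    exact mul_mem h1 (inv_mem (hJ hj))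
  rw [hKJ] at hle
  exact hle

end Cfsg.Agent.H52.Jc
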