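import Cfsg.Agent.H52.JcDefs

/-!
# The four-group configuration: basic facts (helper52, for S2946)
-/

set_option autoImplicit false

namespace Cfsg.Agent.H52.Jc

open Cfsg Cfsg.Agent.H29

variable {G : Type*} [Group G] {X W S : Subgroup G} {u x : G}

/-- The elements of `W` are `1, u, v, u v` with `v = x u x⁻¹`. -/
theorem Cfg.elems [Finite G] (h : Cfg X W S u x) {w : G} (hw : w ∈ W) :
    w = 1 ∨ w = u ∨ w = x * u * x⁻¹ ∨ w = u * (x * u * x⁻¹) := by
  classical
  by_contra hcon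
  push Not at hcon
  obtain ⟨h1, h2, h3, h4⟩ := hcon
  have hv := h.v_mem
  have hv1 := h.v_ne_one
  have hvu := h.v_ne_u
  have hu1 := h.hu1
  set v := x * u * x⁻¹ with hvdef
  have huv1 : u * v ≠ 1 := by
    intro e
    apply hvu
    have : v = u⁻¹ := (inv_eq_of_mul_eq_one_right e).symm
    rw [this, h.inv_eq h.hu]
  have hsub : (({w, 1, u, v, u * v} : Finset G) : Set G) ⊆ (W : Set G) := by
    intro y hy
    simp only [Finset.coe_insert, Finset.coe_singleton, Set.mem_insert_iff,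
      Set.mem_singleton_iff] at hy
    rcases hy with rfl | rfl | rfl | rfl | rfl
    · exact hw
    · exact W.one_mem
    · exact h.hu
    · exact hv
    · exact W.mul_mem h.hu hv
  have hc : ({w, 1, u, v, u * v} : Finset G).card = 5 := by
    rw [Finset.card_insert_of_notMem, Finset.card_insert_of_notMem,
      Finset.card_insert_of_notMem, Finset.card_insert_of_notMem, Finset.card_singleton]
    · simp only [Finset.mem_singleton]
      intro e
      apply hu1
      have : u * v = 1 * v := by rw [one_mul]; exact e.symm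
      exact mul_right_cancel this
    · simp only [Finset.mem_insert, Finset.mem_singleton, not_or]
      refine ⟨hvu.symm, ?_⟩
      intro e
      apply hv1
      have : u * 1 = u * v := by rw [mul_one]; exact e
      exact (mul_left_cancel this).symm
    · simp only [Finset.mem_insert, Finset.mem_singleton, not_or]
      exact ⟨hu1.symm, hv1.symm, huv1.symm⟩
    · simp only [Finset.mem_insert, Finset.mem_singleton, not_or]
      exact ⟨h1, h2, h3, h4⟩
  have h5 : (({w, 1, u, v, u * v} : Finset G) : Set G).ncard ≤ (W : Set G).ncard :=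
    Set.ncard_le_ncard hsub (Set.toFinite _)
  rw [Set.ncard_coe_finset, hc] at h5
  have h6 : (W : Set G).ncard = 4 := by
    rw [← h.hcard]; exact (Nat.card_coe_set_eq _).symm
  omega

/-- `x v x⁻¹ = u v`. -/
theorem Cfg.x_sq [Finite G] (h : Cfg X W S u x) :
    x * (x * u * x⁻¹) * x⁻¹ = u * (x * u * x⁻¹) := by
  have hv := h.v_mem
  have hv1 := h.v_ne_one
  have hvu := h.v_ne_u
  set v := x * u * x⁻¹ with hvdef
  have hxv : x * v * x⁻¹ ∈ W := h.hnorm x h.hx v hv
  rcases h.elems hxv with e | e | e | e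
  · exfalso
    apply hv1
    have : v = x⁻¹ * (x * v * x⁻¹) * x := by group
    rw [this, e]; group
  · exfalso
    -- then x fixes u * v
    have huv : u * v ∈ W := W.mul_mem h.hu hv
    have huv1 : u * v ≠ 1 := by
      intro e'
      apply hvu
      have : v = u⁻¹ := (inv_eq_of_mul_eq_one_right e').symm
      rw [this, h.inv_eq h.hu]
    apply h.hx3 _ huv huv1
    have : x * (u * v) * x⁻¹ = (x * u * x⁻¹) * (x * v * x⁻¹) := by group
    rw [this, e, ← hvdef]
    exact h.comm hv h.hu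
  · exact absurd e (h.hx3 v hv hv1)
  · exact e

/-- `x (u v) x⁻¹ = u`. -/
theorem Cfg.x_cu [Finite G] (h : Cfg X W S u x) :
    x * (u * (x * u * x⁻¹)) * x⁻¹ = u := by
  have hv := h.v_mem
  have e := h.x_sq
  set v := x * u * x⁻¹ with hvdef
  have : x * (u * v) * x⁻¹ = (x * u * x⁻¹) * (x * v * x⁻¹) := by group
  rw [this, e, ← hvdef, h.comm h.hu hv, ← mul_assoc, h.hexp v hv, one_mul]

/-- An element of `S` not centralizing `W` swaps `v` and `u v`. -/
theorem Cfg.swap [Finite G] (h : Cfg X W S u x) {a : G} (ha : a ∈ S)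
    (ha' : a ∉ Subgroup.centralizer (W : Set G)) :
    a * (x * u * x⁻¹) * a⁻¹ = u * (x * u * x⁻¹) := by
  have hv := h.v_mem
  have hv1 := h.v_ne_one
  have hvu := h.v_ne_u
  have hau := h.hSu ha
  set v := x * u * x⁻¹ with hvdef
  have hav : a * v * a⁻¹ ∈ W := h.hnorm a (h.hSX ha) v hv
  rcases h.elems hav with e | e | e | e
  · exfalso
    apply hv1
    have : v = a⁻¹ * (a * v * a⁻¹) * a := by group
    rw [this, e]; group
  · exfalso
    apply hvu
    have : v = a⁻¹ * (a * v * a⁻¹) * a := by group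
    rw [this, e]
    have : u = a⁻¹ * (a * u * a⁻¹) * a := by group
    conv_rhs => rw [this, hau]
  · exfalso
    apply ha'
    rw [Subgroup.mem_centralizer_iff]
    intro w hw
    have e' : a * v = v * a := by
      have : a * v = (a * v * a⁻¹) * a := by group
      rw [this, e]
    have eu : a * u = u * a := ((h.hS a).mp ha).2
    rcases h.elems hw with rfl | rfl | e2 | e2
    · simp
    · exact eu.symm
    · rw [e2, ← hvdef]; exact e'.symm
    · rw [e2, ← hvdef, mul_assoc, ← e', ← mul_assoc, ← eu, mul_assoc]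
  · exact e

/-- An element of `S` not centralizing `W` swaps `u v` and `v`. -/
theorem Cfg.swap' [Finite G] (h : Cfg X W S u x) {a : G} (ha : a ∈ S)
    (ha' : a ∉ Subgroup.centralizer (W : Set G)) :
    a * (u * (x * u * x⁻¹)) * a⁻¹ = x * u * x⁻¹ := by
  have hv := h.v_mem
  have e := h.swap ha ha'
  have hau := h.hSu ha
  set v := x * u * x⁻¹ with hvdef
  have : a * (u * v) * a⁻¹ = (a * u * a⁻¹) * (a * v * a⁻¹) := by group
  rw [this, e, hau, ← mul_assoc, h.hexp u h.hu, one_mul]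

/-- Two elements of `S` not centralizing `W` have product centralizing `W`. -/
theorem Cfg.mul_mem_cent [Finite G] (h : Cfg X W S u x) {a b : G} (ha : a ∈ S)
    (ha' : a ∉ Subgroup.centralizer (W : Set G)) (hb : b ∈ S)
    (hb' : b ∉ Subgroup.centralizer (W : Set G)) :
    a * b ∈ Subgroup.centralizer (W : Set G) := by
  have hv := h.v_mem
  have ea := h.swap ha ha'
  have ea' := h.swap' ha ha'
  have eb := h.swap hb hb'
  have eb' := h.swap' hb hb'
  have hau := h.hSu ha
  have hbu := h.hSu hb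
  set v := x * u * x⁻¹ with hvdef
  rw [Subgroup.mem_centralizer_iff]
  intro w hw
  have key : ∀ y : G, (a * b) * y * (a * b)⁻¹ = y → y * (a * b) = (a * b) * y := by
    intro y hy
    have : (a * b) * y = ((a * b) * y * (a * b)⁻¹) * (a * b) := by group
    rw [this, hy]
  apply key
  have hconj : ∀ y : G, (a * b) * y * (a * b)⁻¹ = a * (b * y * b⁻¹) * a⁻¹ := by
    intro y; group
  rw [hconj]
  rcases h.elems hw with rfl | rfl | e2 | e2
  · simp
  · rw [hbu, hau]
  · rw [e2, ← hvdef, eb, ea']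
  · rw [e2, ← hvdef, eb', ea]

/-- Conjugating the configuration by an element of `X`. -/
theorem Cfg.conj [Finite G] (h : Cfg X W S u x) {g : G} (hg : g ∈ X) :
    Cfg X W (S.map (MulAut.conj g).toMonoidHom) (g * u * g⁻¹) x where
  hWX := h.hWX
  hnorm := h.hnorm
  hcard := h.hcard
  hexp := h.hexp
  hu := h.hnorm g hg u h.hu
  hu1 := by
    intro e
    apply h.hu1
    have : u = g⁻¹ * (g * u * g⁻¹) * g := by group
    rw [this, e]; group
  hx := h.hx
  hx3 := h.hx3
  hS := by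
    intro y
    constructor
    · rintro ⟨s, hs, rfl⟩
      have hs' := (h.hS s).mp hs
      refine ⟨X.mul_mem (X.mul_mem hg hs'.1) (X.inv_mem hg), ?_⟩
      show g * s * g⁻¹ * (g * u * g⁻¹) = g * u * g⁻¹ * (g * s * g⁻¹)
      have e1 : g * s * g⁻¹ * (g * u * g⁻¹) = g * (s * u) * g⁻¹ := by group
      have e2 : g * u * g⁻¹ * (g * s * g⁻¹) = g * (u * s) * g⁻¹ := by group
      rw [e1, e2, hs'.2]
    · rintro ⟨hy, hyu⟩
      refine ⟨g⁻¹ * y * g, (h.hS _).mpr ⟨X.mul_mem (X.mul_mem (X.inv_mem hg) hy) hg, ?_⟩, ?_⟩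
      · have e1 : g⁻¹ * y * g * u = g⁻¹ * (y * (g * u * g⁻¹)) * g := by group
        have e2 : u * (g⁻¹ * y * g) = g⁻¹ * ((g * u * g⁻¹) * y) * g := by group
        rw [e1, e2, hyu]
      · show g * (g⁻¹ * y * g) * g⁻¹ = y
        group
  hS2 := h.hS2.map _
  hJ := by
    intro hle
    apply h.hJ
    intro j hj
    rw [Subgroup.mem_centralizer_iff]
    intro w hw
    have h1 : g * j * g⁻¹ ∈ nJ 2 (S.map (MulAut.conj g).toMonoidHom) := by
      rw [← nJ_map]
      exact ⟨j, hj, rfl⟩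
    have h2 := Subgroup.mem_centralizer_iff.mp (hle h1) (g * w * g⁻¹) (h.hnorm g hg w hw)
    have e1 : w * j = g⁻¹ * (g * w * g⁻¹ * (g * j * g⁻¹)) * g := by group
    have e2 : j * w = g⁻¹ * (g * j * g⁻¹ * (g * w * g⁻¹)) * g := by group
    rw [e1, e2, h2]

theorem Cfg.xx_mem (h : Cfg X W S u x) : x * x ∈ X := X.mul_mem h.hx h.hx

/-- `(x x) u (x x)⁻¹ = u v`. -/
theorem Cfg.xx_u [Finite G] (h : Cfg X W S u x) :
    (x * x) * u * (x * x)⁻¹ = u * (x * u * x⁻¹) := by
  rw [← h.x_sq]; group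

theorem Cfg.t_mem (h : Cfg X W S u x) : u * (x * u * x⁻¹) ∈ W := W.mul_mem h.hu h.v_mem

theorem Cfg.t_ne_one (h : Cfg X W S u x) : u * (x * u * x⁻¹) ≠ 1 := by
  intro e
  apply h.v_ne_u
  have : x * u * x⁻¹ = u⁻¹ := (inv_eq_of_mul_eq_one_right e).symm
  rw [this, h.inv_eq h.hu]

theorem Cfg.t_ne_u (h : Cfg X W S u x) : u * (x * u * x⁻¹) ≠ u := by
  intro e
  apply h.v_ne_one
  have : u * (x * u * x⁻¹) = u * 1 := by rw [mul_one]; exact e
  exact mul_left_cancel this

theorem Cfg.t_ne_v (h : Cfg X W S u x) : u * (x * u * x⁻¹) ≠ x * u * x⁻¹ := by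
  intro e
  apply h.hu1
  have : u * (x * u * x⁻¹) = 1 * (x * u * x⁻¹) := by rw [one_mul]; exact e
  exact mul_right_cancel this

/-- `(x x) u (x x)⁻¹ ≠ u`. -/
theorem Cfg.xx_u_ne [Finite G] (h : Cfg X W S u x) : (x * x) * u * (x * x)⁻¹ ≠ u := by
  rw [h.xx_u]; exact h.t_ne_u

/-! ### The action of the three Sylow subgroups `S`, `S^x`, `S^(x x)` on `W`.
Write `v = x u x⁻¹`, `t = u v`.  Elements of `S` fix `u`; those outside `C(W)` swap `v, t`.
Elements of `S^x` fix `v`; those outside `C(W)` swap `u, t`.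
Elements of `S^(x x)` fix `t`; those outside `C(W)` swap `u, v`. -/

theorem Cfg.act1_v [Finite G] (h : Cfg X W S u x) {a : G}
    (ha : a ∈ S.map (MulAut.conj x).toMonoidHom) :
    a * (x * u * x⁻¹) * a⁻¹ = x * u * x⁻¹ :=
  (h.conj h.hx).hSu ha

theorem Cfg.act1_t [Finite G] (h : Cfg X W S u x) {a : G}
    (ha : a ∈ S.map (MulAut.conj x).toMonoidHom)
    (ha' : a ∉ Subgroup.centralizer (W : Set G)) :
    a * (u * (x * u * x⁻¹)) * a⁻¹ = u := by
  have h1 := (h.conj h.hx).swap ha ha'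
  rw [h.x_sq] at h1
  rw [h1, h.comm h.v_mem (h.t_mem), mul_assoc, h.hexp _ h.v_mem, mul_one]

theorem Cfg.act1_u [Finite G] (h : Cfg X W S u x) {a : G}
    (ha : a ∈ S.map (MulAut.conj x).toMonoidHom)
    (ha' : a ∉ Subgroup.centralizer (W : Set G)) :
    a * u * a⁻¹ = u * (x * u * x⁻¹) := by
  have h1 := (h.conj h.hx).swap' ha ha'
  rw [h.x_sq] at h1
  have e : x * u * x⁻¹ * (u * (x * u * x⁻¹)) = u := by
    rw [h.comm h.v_mem (h.t_mem), mul_assoc, h.hexp _ h.v_mem, mul_one]
  rw [e] at h1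
  exact h1

theorem Cfg.act2_t [Finite G] (h : Cfg X W S u x) {a : G}
    (ha : a ∈ S.map (MulAut.conj (x * x)).toMonoidHom) :
    a * (u * (x * u * x⁻¹)) * a⁻¹ = u * (x * u * x⁻¹) := by
  have h1 := (h.conj h.xx_mem).hSu ha
  rw [h.xx_u] at h1
  exact h1

theorem Cfg.act2_u [Finite G] (h : Cfg X W S u x) {a : G}
    (ha : a ∈ S.map (MulAut.conj (x * x)).toMonoidHom)
    (ha' : a ∉ Subgroup.centralizer (W : Set G)) :
    a * u * a⁻¹ = x * u * x⁻¹ := by
  have h1 := (h.conj h.xx_mem).swap ha ha'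
  rw [h.xx_u, h.x_cu] at h1
  rw [h1, h.comm h.hu h.v_mem, mul_assoc, h.hexp _ h.hu, mul_one]

theorem Cfg.act2_v [Finite G] (h : Cfg X W S u x) {a : G}
    (ha : a ∈ S.map (MulAut.conj (x * x)).toMonoidHom)
    (ha' : a ∉ Subgroup.centralizer (W : Set G)) :
    a * (x * u * x⁻¹) * a⁻¹ = u := by
  have h1 := (h.conj h.xx_mem).swap' ha ha'
  rw [h.xx_u, h.x_cu] at h1
  have e : u * (x * u * x⁻¹) * u = x * u * x⁻¹ := by
    rw [h.comm h.hu h.v_mem, mul_assoc, h.hexp _ h.hu, mul_one]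
  rw [e] at h1
  exact h1

end Cfsg.Agent.H52.Jc
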