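import Mathlib
import Cfsg.Prelude.Def_JComponents
import Cfsg.Agent.H29.ThompsonInt

/-!
# J(T)-components: the four-group configuration (helper52, for S2946)

`Cfg X W S u x`: `W ≤ X` is a four-group normalized by `X`, `u ∈ W` is nontrivial, `S = C_X(u)` is
a 2-group, `x ∈ X` fixes no nontrivial element of `W`, and the (elementary abelian) Thompson
subgroup `nJ 2 S` of `S` does not centralize `W`.
-/

set_option autoImplicit false

namespace Cfsg.Agent.H52.Jc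

open Cfsg Cfsg.Agent.H29

variable {G : Type*} [Group G]

/-- The four-group configuration. -/
structure Cfg (X W S : Subgroup G) (u x : G) : Prop where
  hWX : W ≤ X
  hnorm : ∀ g ∈ X, ∀ w ∈ W, g * w * g⁻¹ ∈ W
  hcard : Nat.card W = 4
  hexp : ∀ w ∈ W, w * w = 1
  hu : u ∈ W
  hu1 : u ≠ 1
  hx : x ∈ X
  hx3 : ∀ w ∈ W, w ≠ 1 → x * w * x⁻¹ ≠ w
  hS : ∀ g, g ∈ S ↔ g ∈ X ∧ g * u = u * g
  hS2 : IsPGroup 2 S
  hJ : ¬ nJ 2 S ≤ Subgroup.centralizer (W : Set G)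

variable {X W S : Subgroup G} {u x : G}

theorem Cfg.comm (h : Cfg X W S u x) {a b : G} (ha : a ∈ W) (hb : b ∈ W) : a * b = b * a := by
  have h1 := h.hexp _ (W.mul_mem ha hb)
  have h2 := h.hexp a ha
  have h3 := h.hexp b hb
  have e1 : a⁻¹ = a := inv_eq_of_mul_eq_one_left h2
  have e2 : b⁻¹ = b := inv_eq_of_mul_eq_one_left h3
  have e3 : (a * b)⁻¹ = a * b := inv_eq_of_mul_eq_one_left h1
  rw [mul_inv_rev, e1, e2] at e3
  exact e3.symm

theorem Cfg.inv_eq (h : Cfg X W S u x) {a : G} (ha : a ∈ W) : a⁻¹ = a :=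
  inv_eq_of_mul_eq_one_left (h.hexp a ha)

theorem Cfg.sq (h : Cfg X W S u x) {a : G} (ha : a ∈ W) : a ^ 2 = 1 := by
  rw [pow_two]; exact h.hexp a ha

theorem Cfg.hSX (h : Cfg X W S u x) : S ≤ X := fun g hg => ((h.hS g).mp hg).1

theorem Cfg.hWS (h : Cfg X W S u x) : W ≤ S := fun w hw =>
  (h.hS w).mpr ⟨h.hWX hw, h.comm hw h.hu⟩

theorem Cfg.hSu (h : Cfg X W S u x) {s : G} (hs : s ∈ S) : s * u * s⁻¹ = u := by
  rw [((h.hS s).mp hs).2, mul_inv_cancel_right]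

/-- `C_X(W) ≤ S`. -/
theorem Cfg.hRS (h : Cfg X W S u x) {g : G} (hg : g ∈ X)
    (hgW : g ∈ Subgroup.centralizer (W : Set G)) : g ∈ S :=
  (h.hS g).mpr ⟨hg, (Subgroup.mem_centralizer_iff.mp hgW u h.hu).symm⟩

theorem Cfg.v_mem (h : Cfg X W S u x) : x * u * x⁻¹ ∈ W := h.hnorm x h.hx u h.hu

theorem Cfg.v_ne_one (h : Cfg X W S u x) : x * u * x⁻¹ ≠ 1 := by
  intro e
  apply h.hu1
  have : u = x⁻¹ * (x * u * x⁻¹) * x := by group
  rw [this, e]; group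

theorem Cfg.v_ne_u (h : Cfg X W S u x) : x * u * x⁻¹ ≠ u := h.hx3 u h.hu h.hu1

end Cfsg.Agent.H52.Jc
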