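import Cfsg.Agent.H52.JwDefs
import Cfsg.Agent.S2949
import Cfsg.Agent.S2950

/-!
# S2953: assembly of the pieces
-/

set_option autoImplicit false
set_option linter.unusedVariables false
open Cfsg

namespace Cfsg.Agent.H52.Jw

open Cfsg.Agent.H64.Jz

universe u

/-- The per-`P` clauses from the five `P`-pieces. -/
theorem pclauses (hPC : StPC.{u}) (hPS : StPS.{u}) (hP6 : StP6.{u}) (hPZ : StPZ.{u})
    (hPL : StPL.{u}) {G : Type u} [Group G] [Finite G] (S : Sylow 2 G) (M T K L : Subgroup G)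
    (hB : Base S M T K L) : PClauses T (K ⊔ T) := by
  obtain ⟨h6, hna⟩ := hP6 S M T K L hB
  obtain ⟨hPle, hsyl, huniq⟩ := hPL S M T K L hB
  exact ⟨hPC S M T K L hB, hPS S M T K L hB, h6, hna, hPZ S M T K L hB,
    L, hB.2.2.2.2.2.2.2.1, hPle, hsyl, huniq⟩

/-- S2953 from the pieces. -/
theorem main53 (hS : StS.{u}) (hConjX : StConjX.{u}) (hLtX : StLtX.{u}) (hEqX : StEqX.{u})
    (hRebase : StRebase.{u}) (hTwo : StTwo.{u}) (hPC : StPC.{u}) (hPS : StPS.{u})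
    (hP6 : StP6.{u}) (hPZ : StPZ.{u}) (hPL : StPL.{u}) (hVKill : StVKill.{u}) :
    StMain53.{u} := by
  intro G _ _ hL hN hZ hO S M hM hMJ T hT
  obtain ⟨S', hMJ', hTS'⟩ := hS S M T hMJ hT.1.1 hT.1.2.2.1
  obtain ⟨K₁, hK₁⟩ := Cfsg.Agent.S2949.result hL hN hZ hO S' M hM hMJ' T hT
  obtain ⟨L₁, hL₁max, hKL₁, -, -, -⟩ :=
    Cfsg.Agent.S2950.result hL hN hZ hO S' M hM hMJ' T hT K₁ hK₁
  have hB₁ : Base S' M T K₁ L₁ := ⟨⟨hL, hN, hZ⟩, hO, hM, hMJ', hT, hTS', hK₁, hL₁max, hKL₁⟩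
  have key : ∃ M₂ K₂ L₂ : Subgroup G, Base S' M₂ T K₂ L₂ ∧ L₂ ≠ L₁ := by
    by_cases hTS : T = (S' : Subgroup G)
    · subst hTS
      by_cases hNS : Subgroup.normalizer ((S' : Subgroup G) : Set G) ≤ L₁
      · by_cases hX : ∃ X : Subgroup G, IsTwoLocal X ∧ (S' : Subgroup G) ≤ X ∧ ¬ X ≤ L₁
        · obtain ⟨K₂, L₂, hB₂, hne⟩ := hRebase S' M K₁ L₁ hB₁ hNS hX
          exact ⟨L₁, K₂, L₂, hB₂, hne⟩
        · exfalso
          refine hVKill S' M K₁ L₁ hB₁ ?_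
          intro X hX2 hSX
          by_contra hXL
          exact hX ⟨X, hX2, hSX, hXL⟩
      · obtain ⟨x, hxM, hxN, hxL⟩ := hEqX S' M K₁ L₁ hB₁ hNS
        obtain ⟨K₂, L₂, hB₂, hne⟩ := hConjX S' M _ K₁ L₁ hB₁ x hxM hxN hxL
        exact ⟨M, K₂, L₂, hB₂, hne⟩
    · obtain ⟨x, hxM, hxN, hxL⟩ := hLtX S' M T K₁ L₁ hB₁ hTS
      obtain ⟨K₂, L₂, hB₂, hne⟩ := hConjX S' M T K₁ L₁ hB₁ x hxM hxN hxL
      exact ⟨M, K₂, L₂, hB₂, hne⟩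
  obtain ⟨M₂, K₂, L₂, hB₂, hne⟩ := key
  obtain ⟨hK12, hcore⟩ := hTwo S' M M₂ T K₁ K₂ L₁ L₂ hB₁ hB₂ (fun h => hne h.symm)
  refine ⟨K₁, K₂, hK12, hK₁.1.1, hB₂.2.2.2.2.2.2.1.1.1, hcore, ?_⟩
  intro P hP
  simp only [List.mem_cons, List.not_mem_nil, or_false] at hP
  rcases hP with rfl | rfl
  · exact pclauses hPC hPS hP6 hPZ hPL S' M T K₁ L₁ hB₁
  · exact pclauses hPC hPS hP6 hPZ hPL S' M₂ T K₂ L₂ hB₂

end Cfsg.Agent.H52.Jw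

#print axioms Cfsg.Agent.H52.Jw.main53
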