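import Cfsg.Agent.H52.JxKB
import Cfsg.Agent.H5.JxKA
import Cfsg.Agent.H66.JxPSide
import Cfsg.Agent.H73.JxBasic

/-!
# S2953, JY-KILL2: the residual configuration is impossible (`kill2`)

Case `V ≤ Q₁`: helper5's `ka_of_pside` (helper82's count).  Case `V ⊄ Q₁`: `kbNorm_of`
(helper29's `r1_out_core`).  `P`-side facts: helper66's `pside_explicit`; (★), `O₂(P)`-facts and
`V ≤ T'`: helper73's `JxBasic`.
-/

set_option autoImplicit false
open Cfsg

namespace Cfsg.Agent.H52.Jx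

open Cfsg.Agent.H64.Jz Cfsg.Agent.H64.Jy

universe u

/-- The `P`-side input (helper66). -/
theorem pSide : StPSide.{u} := by
  intro G _ _ S M T K L hB
  exact Cfsg.Agent.H66.Jx.pside_explicit S M T K L hB

/-- The case `V ≤ Q₁`. -/
theorem ka : StKA.{u} :=
  Cfsg.Agent.H5.Jx.ka_of_pside Cfsg.Agent.H73.Jx.pf
    (fun S M T K L hB => (Cfsg.Agent.H66.Jx.pside_explicit S M T K L hB).2.1)
    (fun S M T K L hB => (Cfsg.Agent.H66.Jx.pside_explicit S M T K L hB).1)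

/-- The case `V ⊄ Q₁`. -/
theorem kb : StKB.{u} :=
  kb_of Cfsg.Agent.H73.Jx.star Cfsg.Agent.H73.Jx.pf
    (kbNorm_of pSide Cfsg.Agent.H73.Jx.vne Cfsg.Agent.H73.Jx.pf)

/-- JY-KILL2. -/
theorem kill2 : Cfsg.Agent.H64.Jy.StKill2.{u} := kill2_of ka kb

example : Cfsg.Agent.H64.Jy.StKill2.{u} := kill2

end Cfsg.Agent.H52.Jx

#print axioms Cfsg.Agent.H52.Jx.kill2
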