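import Cfsg.Agent.H52.JzKill
import Cfsg.Agent.H64.JzAsm2
import Cfsg.Agent.H62.JzSC
import Cfsg.Agent.H3.JzOut1
import Cfsg.Agent.H25.JzOut2
import Cfsg.Agent.H90.JzSetup
import Cfsg.Agent.H46.JzNSE
import Cfsg.Agent.H91.JzMaxS
import Cfsg.Agent.H99.JzResB
import Cfsg.Agent.H32.JzResN

/-!
# S2951, clause statement closed: `Cfsg.Agent.H52.JzFull.main : H64.Jz.StMain`

Wiring of helper64's `H64.Jz.main` with the landed pieces of the team project JZ.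
-/

set_option autoImplicit false
open Cfsg

namespace Cfsg.Agent.H52.JzFull

universe u

/-- The clause statement of S2951 (`Base → Concl`). -/
theorem main : Cfsg.Agent.H64.Jz.StMain.{u} :=
  Cfsg.Agent.H64.Jz.main Cfsg.Agent.H52.JzKill.lt Cfsg.Agent.H62.Jz.sc Cfsg.Agent.H3.Jz.out1
    Cfsg.Agent.H25.Jz.out2
    (Cfsg.Agent.H90.Jz.setup Cfsg.Agent.H46.Jz.nse Cfsg.Agent.H91.Jz.maxS)
    (Cfsg.Agent.H99.JzResB.resA_of
      (fun hL hN hZ T hT hT1 K hK Z₀ hZ₀ =>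
        Cfsg.Agent.H58.Q46.s2946 hL hN hZ T hT hT1 K hK Z₀ hZ₀))
    (Cfsg.Agent.H32.Jz.resN_of
      (fun hL hN hZ T hT hT1 K hK Z₀ hZ₀ =>
        Cfsg.Agent.H58.Q46.s2946 hL hN hZ T hT hT1 K hK Z₀ hZ₀) Cfsg.Agent.H52.JzKill.z2)
    Cfsg.Agent.H52.JzKill.kill

example : Cfsg.Agent.H64.Jz.StMain.{u} := main.{u}

end Cfsg.Agent.H52.JzFull

#print axioms Cfsg.Agent.H52.JzFull.main
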