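import Mathlib
import Cfsg.Agent.H52.QSDefs

/-!
# Team project S2787 (helper52): assembly of the two branches from the pieces
-/

set_option autoImplicit false

namespace Cfsg.Agent.H52.QS

open Cfsg.Agent.H29.Dk

universe u

theorem one_add_pow_of_sq_zero {E : Type*} [Ring E] (N : E) (hN : N * N = 0) (k : ℕ) :
    (1 + N) ^ k = 1 + (k : E) * N := by
  induction k with
  | zero => simp
  | succ k ih =>
    rw [pow_succ, ih]
    have h1 : (1 + (k : E) * N) * (1 + N) = 1 + N + (k : E) * N + (k : E) * (N * N) := by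
      noncomm_ring
    rw [h1, hN]
    push_cast
    noncomm_ring

theorem natCast_end_eq_zero (p : ℕ) [Fact p.Prime] (M : Type*) [AddCommGroup M]
    [Module (ZMod p) M] : ((p : ℕ) : Module.End (ZMod p) M) = 0 := by
  ext m
  rw [Module.End.natCast_apply, ← Nat.cast_smul_eq_nsmul (ZMod p) p m, ZMod.natCast_self, zero_smul]
  rfl

/-- a quadratic element of a faithfully acting group has order dividing `p` -/
theorem pow_p_of_quad (p : ℕ) [Fact p.Prime] {Q : Type*} [Group Q] (M : Type*) [AddCommGroup M]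
    [Module (ZMod p) M] (ρ : Q →* Module.End (ZMod p) M) (hρ : Function.Injective ρ) (x : Q)
    (hxq : (ρ x - 1) * (ρ x - 1) = 0) : x ^ p = 1 := by
  apply hρ
  rw [map_pow, map_one]
  have h1 : ρ x = 1 + (ρ x - 1) := by abel
  rw [h1, one_add_pow_of_sq_zero _ hxq, natCast_end_eq_zero, zero_mul, add_zero]

/-- conjugates of quadratic elements are quadratic -/
theorem quad_conj {Q : Type*} [Group Q] {E : Type*} [Ring E] (ρ : Q →* E) (x g : Q)
    (hxq : (ρ x - 1) * (ρ x - 1) = 0) : (ρ (g * x * g⁻¹) - 1) * (ρ (g * x * g⁻¹) - 1) = 0 := by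
  have hg : ρ g⁻¹ * ρ g = 1 := by rw [← map_mul, inv_mul_cancel, map_one]
  have hg' : ρ g * ρ g⁻¹ = 1 := by rw [← map_mul, mul_inv_cancel, map_one]
  have h1 : ρ (g * x * g⁻¹) - 1 = ρ g * (ρ x - 1) * ρ g⁻¹ := by
    rw [map_mul, map_mul, mul_sub, sub_mul, mul_one, hg']
  rw [h1]
  calc ρ g * (ρ x - 1) * ρ g⁻¹ * (ρ g * (ρ x - 1) * ρ g⁻¹)
      = ρ g * (ρ x - 1) * (ρ g⁻¹ * ρ g) * (ρ x - 1) * ρ g⁻¹ := by noncomm_ring
    _ = ρ g * ((ρ x - 1) * (ρ x - 1)) * ρ g⁻¹ := by rw [hg]; noncomm_ring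
    _ = 0 := by rw [hxq]; simp

/-- The `PSL₂` branch. -/
theorem pslBranch (hP : StP) (hQ : StQ.{u}) (p : ℕ) [Fact p.Prime] (hp2 : p ≠ 2) (F : Type)
    [Field F] [Finite F] [CharP F p] (Q : Type u) [Group Q]
    (e : Q ≃* Matrix.ProjectiveSpecialLinearGroup (Fin 2) F) (M : Type u) [AddCommGroup M]
    [Module (ZMod p) M] (ρ : Q →* Module.End (ZMod p) M) (hρ : Function.Injective ρ) (x : Q)
    (hx1 : x ≠ 1) (hxq : (ρ x - 1) * (ρ x - 1) = 0) : False := by
  have hxp : x ^ p = 1 := pow_p_of_quad p M ρ hρ x hxq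
  have hx1' : e x ≠ 1 := by
    intro h
    exact hx1 (e.injective (by rw [h, map_one]))
  have hxp' : e x ^ p = 1 := by rw [← map_pow, hxp, map_one]
  obtain ⟨g', hne, hbr, hsq⟩ := hP p hp2 F (e x) hx1' hxp'
  obtain ⟨g, rfl⟩ := e.surjective g'
  have hy : e g * e x * (e g)⁻¹ = e (g * x * g⁻¹) := by simp
  rw [hy] at hne hbr hsq
  have hne' : g * x * g⁻¹ ≠ x := fun h => hne (by rw [h])
  have hbr' : x * (g * x * g⁻¹) * x = (g * x * g⁻¹) * x * (g * x * g⁻¹) := by
    apply e.injective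
    simpa using hbr
  have hsq' : (x * (g * x * g⁻¹) * x) * (x * (g * x * g⁻¹) * x) = 1 := by
    apply e.injective
    simpa using hsq
  have hyq := quad_conj ρ x g hxq
  have h2 : ∀ a : Module.End (ZMod p) M, a + a = 0 → a = 0 := by
    intro a ha
    have h2ne : (2 : ZMod p) ≠ 0 := by
      intro h
      have h' : ((2 : ℕ) : ZMod p) = 0 := by exact_mod_cast h
      rw [ZMod.natCast_eq_zero_iff] at h'
      have := (Nat.prime_dvd_prime_iff_eq (Fact.out : p.Prime) Nat.prime_two).1 h'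
      exact hp2 this
    have : (2 : ZMod p) • a = 0 := by rw [two_smul]; exact ha
    rcases smul_eq_zero.1 this with h | h
    · exact absurd h h2ne
    · exact h
  have e1 : (1 : Module.End (ZMod p) M) + (ρ x - 1) = ρ x := by abel
  have e2 : (1 : Module.End (ZMod p) M) + (ρ (g * x * g⁻¹) - 1) = ρ (g * x * g⁻¹) := by abel
  have key := hQ (Module.End (ZMod p) M) h2 (ρ x - 1) (ρ (g * x * g⁻¹) - 1) hxq hyq
    (by rw [e1, e2, ← map_mul, ← map_mul, ← map_mul, ← map_mul, hbr'])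
    (by rw [e1, e2, ← map_mul, ← map_mul, ← map_mul, hsq', map_one])
  have : ρ x = ρ (g * x * g⁻¹) := by
    have := congrArg (fun t => 1 + t) key
    simpa [e1, e2] using this
  exact hne' (hρ this).symm

/-- The Ree branch. -/
theorem reeBranch (hBS : StBS.{u}) (hNil : StNil.{u}) (hSec : StSec.{u}) (hR4 : StRee4)
    (K : Type) [Field K] [Fintype K] (m : ℕ) (hK : Fintype.card K = 3 ^ (2 * m + 1))
    (Q : Type u) [Group Q] [Finite Q] (e : Q ≃* ↥(Cfsg.Lie.twistedG2 K (3 ^ m)))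
    (M : Type u) [AddCommGroup M] [Module (ZMod 3) M] [Finite M]
    (ρ : Q →* Module.End (ZMod 3) M) (hρ : Function.Injective ρ)
    (hirr : ∀ U : Submodule (ZMod 3) M, (∀ q : Q, ∀ u ∈ U, ρ q u ∈ U) → U = ⊥ ∨ U = ⊤)
    (x : Q) (hx1 : x ≠ 1) (hxq : (ρ x - 1) * (ρ x - 1) = 0) : False := by
  have hxp : x ^ 3 = 1 := pow_p_of_quad 3 M ρ hρ x hxq
  obtain ⟨g, hg⟩ := hBS 3 Q M ρ hρ hirr x hx1 hxp
  have hyq := quad_conj ρ x g hxq
  have e1 : (1 : Module.End (ZMod 3) M) + (ρ x - 1) = ρ x := by abel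
  have e2 : (1 : Module.End (ZMod 3) M) + (ρ (g * x * g⁻¹) - 1) = ρ (g * x * g⁻¹) := by abel
  have hmap : Submonoid.closure ({1 + (ρ x - 1), 1 + (ρ (g * x * g⁻¹) - 1)} :
      Set (Module.End (ZMod 3) M)) = (Submonoid.closure ({x, g * x * g⁻¹} : Set Q)).map ρ := by
    rw [e1, e2, MonoidHom.map_mclosure]
    congr 1
    ext t
    simp [Set.image_insert_eq]
  by_cases hnil : ∃ k : ℕ, ((ρ x - 1) * (ρ (g * x * g⁻¹) - 1)) ^ k = 0
  · obtain ⟨k, hk⟩ := hnil
    apply hg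
    intro l
    have hl : (l : Q) ∈ Submonoid.closure ({x, g * x * g⁻¹} : Set Q) := by
      rw [← Subgroup.closure_toSubmonoid_of_finite]
      exact l.2
    have hl' : ρ (l : Q) ∈ Submonoid.closure ({1 + (ρ x - 1), 1 + (ρ (g * x * g⁻¹) - 1)} :
        Set (Module.End (ZMod 3) M)) := by
      rw [hmap]
      exact ⟨_, hl, rfl⟩
    obtain ⟨n, hn⟩ := hNil 3 M _ _ hxq hyq k hk _ hl'
    refine ⟨n, ?_⟩
    apply Subtype.ext
    apply hρ
    rw [Subgroup.coe_pow, map_pow, hn, Subgroup.coe_one, map_one]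
  · rw [not_exists] at hnil
    obtain ⟨g', hg', hgn⟩ := hSec 3 (by norm_num) M _ _ hxq hyq hnil
    rw [hmap] at hg'
    obtain ⟨l, -, rfl⟩ := hg'
    have h4 : 4 ∣ orderOf l := by
      apply hgn
      rw [← map_pow, pow_orderOf_eq_one, map_one]
    obtain ⟨c, hc⟩ := h4
    have hpos : 0 < orderOf l := orderOf_pos l
    have hc0 : 0 < c := by
      rcases Nat.eq_zero_or_pos c with h | h
      · rw [h] at hc; omega
      · exact h
    have ht4 : (l ^ c) ^ 4 = 1 := by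
      rw [← pow_mul, mul_comm, ← hc, pow_orderOf_eq_one]
    have ht2 : (l ^ c) ^ 2 ≠ 1 := by
      rw [← pow_mul]
      intro h
      have := orderOf_dvd_of_pow_eq_one h
      rw [hc] at this
      have := Nat.le_of_dvd (by omega) this
      omega
    have h1 : (e (l ^ c)) ^ 4 = 1 := by rw [← map_pow, ht4, map_one]
    have h2 := hR4 K m hK (e (l ^ c)) h1
    apply ht2
    apply e.injective
    rw [map_pow, h2, map_one]

/-- QS-SEC from FAC, SECC and DICK4. -/
theorem sec_of (hF : StFac.{u}) (hC : StSecC.{u}) (hD : StDick4) : StSec.{u} := by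
  intro p _ hp2 M _ _ _ X Y hX hY hnil
  obtain ⟨f, hf, hf0, v, hv, hfv⟩ := hF p M (X * Y) hnil
  obtain ⟨K, iK, iF, iC, lam, hlam, hcov⟩ := hC p M X Y hX hY f hf hf0 v hv hfv
  obtain ⟨d, hd, hd2, hd4⟩ := hD p hp2 K lam hlam
  obtain ⟨g, hg, hgn⟩ := hcov d hd
  refine ⟨g, hg, fun n hn => ?_⟩
  have hdn := hgn n hn
  have ho4 : orderOf d = 4 := by
    have h1 : orderOf d ∣ 4 := orderOf_dvd_of_pow_eq_one hd4
    have h2 : ¬ orderOf d ∣ 2 := fun h => hd2 (orderOf_dvd_iff_pow_eq_one.1 h)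
    have h3 : orderOf d ∈ Nat.divisors 4 := by simp [h1]
    have h4 : Nat.divisors 4 = {1, 2, 4} := by decide
    rw [h4] at h3
    simp only [Finset.mem_insert, Finset.mem_singleton] at h3
    rcases h3 with h | h | h
    · rw [h] at h2; exact absurd (one_dvd 2) h2
    · rw [h] at h2; exact absurd (dvd_refl 2) h2
    · exact h
  rw [← ho4]
  exact orderOf_dvd_of_pow_eq_one hdn

end Cfsg.Agent.H52.QS
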