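import Mathlib
import Cfsg.Agent.H52.ThOff2
import Cfsg.Agent.H10.Dihedral
import Cfsg.Agent.H14.Cores
import Cfsg.Prelude.Def_LocalEven

set_option autoImplicit false
set_option linter.unusedSectionVars false
set_option linter.unusedVariables false

namespace Cfsg.Agent.H52

section S3Free

variable {H V : Type*} [Group H] [CommGroup V]

/-- Restriction of an action by automorphisms to an invariant subgroup, for a subgroup of the
acting group. -/
def resRep (ρ : H →* MulAut V) (C : Subgroup H) (W : Subgroup V)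
    (hCW : ∀ c ∈ C, ∀ w ∈ W, ρ c w ∈ W) : C →* MulAut W where
  toFun c :=
    { toFun := fun w => ⟨ρ (c : H) w, hCW c c.2 w w.2⟩
      invFun := fun w => ⟨ρ ((c : H)⁻¹) w, hCW _ (C.inv_mem c.2) w w.2⟩
      left_inv := fun w => by
        apply Subtype.ext
        show ρ ((c : H)⁻¹) (ρ (c : H) w) = w
        rw [← MulAut.mul_apply, ← map_mul, inv_mul_cancel, map_one, MulAut.one_apply]
      right_inv := fun w => by
        apply Subtype.ext
        show ρ (c : H) (ρ ((c : H)⁻¹) w) = w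
        rw [← MulAut.mul_apply, ← map_mul, mul_inv_cancel, map_one, MulAut.one_apply]
      map_mul' := fun w w' => by
        apply Subtype.ext
        show ρ (c : H) ((w : V) * (w' : V)) = ρ (c : H) w * ρ (c : H) w'
        exact map_mul _ _ _ }
  map_one' := by
    apply MulEquiv.ext
    intro w
    apply Subtype.ext
    show ρ ((1 : C) : H) (w : V) = (w : V)
    rw [Subgroup.coe_one, map_one, MulAut.one_apply]
  map_mul' := fun c c' => by
    apply MulEquiv.ext
    intro w
    apply Subtype.ext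
    show ρ ((c * c' : C) : H) (w : V) = ρ (c : H) (ρ (c' : H) (w : V))
    rw [Subgroup.coe_mul, map_mul, MulAut.mul_apply]

theorem resRep_apply (ρ : H →* MulAut V) (C : Subgroup H) (W : Subgroup V)
    (hCW : ∀ c ∈ C, ∀ w ∈ W, ρ c w ∈ W) (c : C) (w : W) :
    ((resRep ρ C W hCW c w : W) : V) = ρ (c : H) (w : V) := rfl

/-- **Quadratic lower bound for `S₃`-free odd-type groups**: `Kb` a group of odd order acting
faithfully on an elementary abelian `2`-group `V`, such that no involution inverts an element of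
order three of `Kb`.  Then every elementary abelian `2`-group `Ab` normalizing `Kb` and acting
faithfully on it satisfies `|Ab|² ≤ |V : C_V(Ab)|`. -/
theorem sq_card_mul_fix_le [Finite H] [Finite V] (ρ : H →* MulAut V) (hV2 : ∀ v : V, v * v = 1)
    (Kb : Subgroup H) (hKodd : ¬ 2 ∣ Nat.card Kb)
    (hfaithV : ∀ k ∈ Kb, (∀ v, ρ k v = v) → k = 1)
    (hno3 : ∀ b : H, b * b = 1 → ∀ y ∈ Kb, y ≠ 1 → y ^ 3 = 1 → b * y * b⁻¹ ≠ y⁻¹) :
    ∀ (n : ℕ) (Ab : Subgroup H), Nat.card Ab = n → (∀ a ∈ Ab, a * a = 1) →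
      (∀ a ∈ Ab, ∀ k ∈ Kb, a * k * a⁻¹ ∈ Kb) →
      (∀ a ∈ Ab, (∀ k ∈ Kb, a * k * a⁻¹ = k) → a = 1) →
      Nat.card Ab ^ 2 * Nat.card (fixV ρ Ab) ≤ Nat.card V := by
  classical
  haveI : Fact (Nat.Prime 2) := ⟨Nat.prime_two⟩
  intro n
  induction n using Nat.strong_induction_on with
  | _ n ih =>
  intro Ab hn hA2 hAK hfaithK
  by_cases hAbot : Ab = ⊥
  · subst hAbot
    rw [Subgroup.card_bot, one_pow, one_mul]
    exact Subgroup.card_le_card_group _
  have hKodd' : ∀ x ∈ Kb, ¬ 2 ∣ orderOf x := by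
    intro x hx h2
    apply hKodd
    have h1 : orderOf (⟨x, hx⟩ : Kb) ∣ Nat.card Kb := orderOf_dvd_natCard _
    rw [Subgroup.orderOf_mk] at h1
    exact h2.trans h1
  have hcommA : ∀ x ∈ Ab, ∀ y ∈ Ab, x * y = y * x := fun x hx y hy => comm_of_sq_one hA2 hx hy
  have hAel : Cfsg.IsElementaryAbelian 2 Ab := by
    refine ⟨?_, fun a ha => by rw [pow_two]; exact hA2 a ha⟩
    rw [← Subgroup.le_centralizer_iff_isMulCommutative]
    intro x hx
    rw [Subgroup.mem_centralizer_iff]
    intro y hy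
    exact hcommA y hy x hx
  have hAp : IsPGroup 2 Ab := fun x => ⟨1, by
    apply Subtype.ext
    simp [pow_two, hA2 x x.2]⟩
  obtain ⟨b₀, hb₀A, hb₀1⟩ : ∃ b ∈ Ab, b ≠ 1 := by
    by_contra hcon
    push Not at hcon
    exact hAbot ((Subgroup.eq_bot_iff_forall Ab).2 hcon)
  -- Step 1: a hyperplane `D` and `k ∈ C_K(D)` not centralized by `Ab`
  obtain ⟨D, hDA, hDrel, k, hkK, hkD, b, hbA, hbk⟩ : ∃ D : Subgroup H, D ≤ Ab ∧
      D.relIndex Ab = 2 ∧ ∃ k ∈ Kb, k ∈ Subgroup.centralizer (D : Set H) ∧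
        ∃ b ∈ Ab, b * k * b⁻¹ ≠ k := by
    obtain ⟨m, hm⟩ := IsPGroup.iff_card.1 hAp
    have hm1 : 1 ≤ m := by
      by_contra h
      push Not at h
      interval_cases m
      exact hAbot (Subgroup.card_eq_one.1 (by simpa using hm))
    by_cases hm2 : m = 1
    · have hex : ∃ k ∈ Kb, b₀ * k * b₀⁻¹ ≠ k := by
        by_contra hcon
        push Not at hcon
        exact hb₀1 (hfaithK b₀ hb₀A hcon)
      obtain ⟨k, hkK, hbk⟩ := hex
      refine ⟨⊥, bot_le, ?_, k, hkK, ?_, b₀, hb₀A, hbk⟩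
      · rw [Subgroup.relIndex_bot_left, hm, hm2, pow_one]
      · rw [Subgroup.mem_centralizer_iff]
        intro d hd
        have hd1 : d = 1 := Subgroup.mem_bot.1 hd
        rw [hd1, one_mul, mul_one]
    · have h4 : 2 ^ 2 ≤ Nat.card Ab := by
        rw [hm]; exact Nat.pow_le_pow_right (by norm_num) (by omega)
      have hAKn : Ab ≤ Subgroup.normalizer (Kb : Set H) := by
        intro x hx
        rw [Subgroup.mem_normalizer_iff]
        intro h
        constructor
        · intro hh; exact hAK x hx h hh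
        · intro hh
          have h1 := hAK x⁻¹ (Ab.inv_mem hx) _ hh
          have e : x⁻¹ * (x * h * x⁻¹) * x⁻¹⁻¹ = h := by group
          rwa [e] at h1
      have hgen := Cfsg.Agent.H28.le_iSup_hyperplane_centralizers 2 Ab Kb hAel h4 hKodd hAKn
      by_contra hcon
      push Not at hcon
      have hcent : ∀ D : {D : Subgroup H // D ≤ Ab ∧ D.relIndex Ab = 2},
          Kb ⊓ Subgroup.centralizer ((D : Subgroup H) : Set H) ≤
            Subgroup.centralizer (Ab : Set H) := by
        rintro ⟨D, hDA, hDrel⟩ k hk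
        obtain ⟨hkK, hkD⟩ := Subgroup.mem_inf.1 hk
        rw [Subgroup.mem_centralizer_iff]
        intro c hc
        have h1 := hcon D hDA hDrel k hkK hkD c hc
        calc c * k = (c * k * c⁻¹) * c := by group
          _ = k * c := by rw [h1]
      have hKcent : Kb ≤ Subgroup.centralizer (Ab : Set H) := hgen.trans (iSup_le hcent)
      apply hb₀1
      apply hfaithK b₀ hb₀A
      intro k hk
      have h1 : b₀ * k = k * b₀ := Subgroup.mem_centralizer_iff.1 (hKcent hk) b₀ hb₀A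
      rw [h1]; group
  have hbb : b * b = 1 := hA2 b hbA
  have hbD : b ∈ Subgroup.centralizer (D : Set H) := by
    rw [Subgroup.mem_centralizer_iff]
    intro d hd
    exact hcommA d (hDA hd) b hbA
  -- Step 2: an inverted element
  obtain ⟨y, hy⟩ : ∃ y : H, y = k⁻¹ * (b * k * b⁻¹) := ⟨_, rfl⟩
  have hyK : y ∈ Kb := by rw [hy]; exact Kb.mul_mem (Kb.inv_mem hkK) (hAK b hbA k hkK)
  have hyD : y ∈ Subgroup.centralizer (D : Set H) := by
    rw [hy]
    exact Subgroup.mul_mem _ (Subgroup.inv_mem _ hkD)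
      (Subgroup.mul_mem _ (Subgroup.mul_mem _ hbD hkD) (Subgroup.inv_mem _ hbD))
  have hy1 : y ≠ 1 := by
    intro h
    apply hbk
    rw [hy] at h
    exact (inv_mul_eq_one.1 h).symm
  have hby : b * y * b⁻¹ = y⁻¹ := by
    have e1 : b * (k⁻¹ * (b * k * b⁻¹)) * b⁻¹ =
        (b * k * b⁻¹)⁻¹ * (b * b * k * (b * b)⁻¹) := by group
    have e2 : (k⁻¹ * (b * k * b⁻¹))⁻¹ = (b * k * b⁻¹)⁻¹ * k := by group
    rw [hy, e1, e2, hbb, one_mul, inv_one, mul_one]
  -- Step 3: a power of prime order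
  have hyord : orderOf y ≠ 1 := fun h => hy1 (orderOf_eq_one_iff.1 h)
  obtain ⟨r, hr⟩ : ∃ r : ℕ, r = (orderOf y).minFac := ⟨_, rfl⟩
  have hrp : r.Prime := by rw [hr]; exact Nat.minFac_prime hyord
  have hrdvd : r ∣ orderOf y := by rw [hr]; exact Nat.minFac_dvd _
  have hr2 : r ≠ 2 := by
    intro h
    rw [h] at hrdvd
    exact hKodd' y hyK hrdvd
  obtain ⟨x, hx⟩ : ∃ x : H, x = y ^ (orderOf y / r) := ⟨_, rfl⟩
  have hxord : orderOf x = r := by
    rw [hx]
    exact orderOf_pow_orderOf_div (orderOf_pos y).ne' hrdvd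
  have hxK : x ∈ Kb := by rw [hx]; exact Kb.pow_mem hyK _
  have hxD : x ∈ Subgroup.centralizer (D : Set H) := by rw [hx]; exact Subgroup.pow_mem _ hyD _
  have hx1 : x ≠ 1 := by
    intro h
    rw [h, orderOf_one] at hxord
    exact hrp.one_lt.ne hxord
  have hbx : b * x * b⁻¹ = x⁻¹ := by
    rw [hx, ← conj_pow, hby, inv_pow]
  have hzodd : ∀ z ∈ Subgroup.zpowers x, ¬ 2 ∣ orderOf z := by
    intro z hz h2
    have h1 : orderOf z ∣ r := hxord ▸ orderOf_dvd_of_mem_zpowers hz
    have h3 : 2 ∣ r := h2.trans h1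
    exact hr2 ((Nat.prime_dvd_prime_iff_eq Nat.prime_two hrp).1 h3).symm
  -- Step 4: restricted action on `C_V(D)`
  obtain ⟨W, hW⟩ : ∃ W : Subgroup V, W = fixV ρ D := ⟨_, rfl⟩
  have hCW : ∀ c ∈ Subgroup.centralizer (D : Set H), ∀ w ∈ W, ρ c w ∈ W := by
    intro c hc w hw
    rw [hW] at hw ⊢
    intro d hd
    have hdc : d * c = c * d := Subgroup.mem_centralizer_iff.1 hc d hd
    rw [← MulAut.mul_apply, ← map_mul, hdc, map_mul, MulAut.mul_apply, hw d hd]
  obtain ⟨ρ', hρ'⟩ : ∃ ρ' : Subgroup.centralizer (D : Set H) →* MulAut W,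
      ρ' = resRep ρ (Subgroup.centralizer (D : Set H)) W hCW := ⟨_, rfl⟩
  have hρ'app : ∀ (c : Subgroup.centralizer (D : Set H)) (w : W),
      ((ρ' c w : W) : V) = ρ (c : H) (w : V) := by
    rw [hρ']; exact fun c w => rfl
  have hW2 : ∀ w : W, w * w = 1 := fun w => Subtype.ext (hV2 w)
  obtain ⟨b', hb'⟩ : ∃ b' : Subgroup.centralizer (D : Set H), b' = ⟨b, hbD⟩ := ⟨_, rfl⟩
  obtain ⟨x', hx'⟩ : ∃ x' : Subgroup.centralizer (D : Set H), x' = ⟨x, hxD⟩ := ⟨_, rfl⟩
  have hb'b' : b' * b' = 1 := by rw [hb']; exact Subtype.ext hbb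
  have hx'1 : x' ≠ 1 := by
    rw [hx']
    intro h
    exact hx1 (congrArg Subtype.val h)
  have hb'x' : b' * x' * b'⁻¹ = x'⁻¹ := by rw [hb', hx']; exact Subtype.ext hbx
  have hx'ord : orderOf x' = r := by
    rw [hx', Subgroup.orderOf_mk]; exact hxord
  have hz'odd : ∀ z ∈ Subgroup.zpowers x', ¬ 2 ∣ orderOf z := by
    intro z hz h2
    have h1 : orderOf z ∣ r := hx'ord ▸ orderOf_dvd_of_mem_zpowers hz
    have h3 : 2 ∣ r := h2.trans h1
    exact hr2 ((Nat.prime_dvd_prime_iff_eq Nat.prime_two hrp).1 h3).symm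
  have hfaithW : ∀ z ∈ Subgroup.zpowers x', (∀ w, ρ' z w = w) → z = 1 := by
    intro z hz htriv
    by_contra hz1
    have hzker : z ∈ ρ'.ker := by
      rw [MonoidHom.mem_ker]
      apply MulEquiv.ext
      intro w
      rw [htriv w]; rfl
    have hzord : orderOf z = r := by
      have h1 : orderOf z ∣ r := hx'ord ▸ orderOf_dvd_of_mem_zpowers hz
      rcases (Nat.dvd_prime hrp).1 h1 with h | h
      · exact absurd (orderOf_eq_one_iff.1 h) hz1
      · exact h
    have hzp : Subgroup.zpowers z = Subgroup.zpowers x' := by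
      apply Subgroup.eq_of_le_of_card_ge (Subgroup.zpowers_le.2 hz)
      rw [Nat.card_zpowers, Nat.card_zpowers, hzord, hx'ord]
    have hx'ker : x' ∈ ρ'.ker := by
      have h1 : x' ∈ Subgroup.zpowers z := hzp ▸ Subgroup.mem_zpowers x'
      exact (Subgroup.zpowers_le.2 hzker) h1
    have hfix : ∀ l ∈ Subgroup.zpowers x, ∀ w ∈ fixV ρ D, ρ l w = w := by
      intro l hl w hw
      obtain ⟨i, rfl⟩ := Subgroup.mem_zpowers_iff.1 hl
      have h1 : x' ^ i ∈ ρ'.ker := Subgroup.zpow_mem _ hx'ker i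
      rw [MonoidHom.mem_ker] at h1
      have hwW : w ∈ W := by rw [hW]; exact hw
      have h2 : ((ρ' (x' ^ i) ⟨w, hwW⟩ : W) : V) = w := by rw [h1]; rfl
      rw [hρ'app, Subgroup.coe_zpow, hx'] at h2
      exact h2
    have hxtriv : ∀ v, ρ x v = v := by
      apply trivial_of_fix_fixV ρ hV2 (Subgroup.zpowers x) D ?_
        (fun d hd => hA2 d (hDA hd)) ?_ hfix x (Subgroup.mem_zpowers x)
      · rw [Nat.card_zpowers]
        exact hzodd x (Subgroup.mem_zpowers x)
      · intro d hd l hl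
        have hlD : l ∈ Subgroup.centralizer (D : Set H) := (Subgroup.zpowers_le.2 hxD) hl
        have hdl : d * l = l * d := Subgroup.mem_centralizer_iff.1 hlD d hd
        have e : d * l * d⁻¹ = l := by rw [hdl]; group
        rw [e]; exact hl
    exact hx1 (hfaithV x hxK hxtriv)
  -- Step 5: the fixed points of `b` on `C_V(D)` have index at least four
  have hidx : ¬ (commHom ρ' b').ker.index ≤ 2 := by
    intro hle
    obtain ⟨hx3, -, -⟩ := transvection_S3 ρ' hW2 (Subgroup.zpowers x') hz'odd hfaithW b' hb'b' x'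
      (Subgroup.mem_zpowers x') hx'1 hb'x' hle
    have hx3' : x ^ 3 = 1 := by
      have h1 := congrArg Subtype.val hx3
      rw [hx'] at h1
      exact h1
    exact hno3 b hbb x hxK hx1 hx3' hbx
  have hidx4 : 4 ≤ (commHom ρ' b').ker.index := by
    have hWp : IsPGroup 2 W := fun w => ⟨1, by rw [pow_one, pow_two]; exact hW2 w⟩
    obtain ⟨j, hj⟩ := IsPGroup.iff_card.1 hWp
    have hdvd : (commHom ρ' b').ker.index ∣ 2 ^ j := hj ▸ Subgroup.index_dvd_card _
    obtain ⟨i, -, hi⟩ := (Nat.dvd_prime_pow Nat.prime_two).1 hdvd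
    rw [hi] at hidx ⊢
    have hi2 : 2 ≤ i := by
      by_contra h
      push Not at h
      interval_cases i <;> simp at hidx
    calc 4 = 2 ^ 2 := by norm_num
      _ ≤ 2 ^ i := Nat.pow_le_pow_right (by norm_num) hi2
  -- Step 6: count
  have hfixle : Nat.card (fixV ρ Ab) ≤ Nat.card (commHom ρ' b').ker := by
    have hle : fixV ρ Ab ≤ ((commHom ρ' b').ker).map W.subtype := by
      intro v hv
      have hvW : v ∈ W := by
        rw [hW]
        exact fun d hd => hv d (hDA hd)
      refine ⟨⟨v, hvW⟩, ?_, rfl⟩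
      rw [SetLike.mem_coe, MonoidHom.mem_ker, commHom_apply, div_eq_one]
      apply Subtype.ext
      rw [hρ'app, hb']
      exact hv b hbA
    calc Nat.card (fixV ρ Ab) ≤ Nat.card (((commHom ρ' b').ker).map W.subtype) :=
          Subgroup.card_le_of_le hle
      _ = Nat.card (commHom ρ' b').ker := Subgroup.card_map_of_injective W.subtype_injective
  have hcardW := Subgroup.card_mul_index (commHom ρ' b').ker
  have hcardA : Nat.card D * 2 = Nat.card Ab := by
    rw [← hDrel]; exact V12.card_mul_relIndex hDA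
  have hDpos : 0 < Nat.card D := Nat.card_pos
  have hIH := ih (Nat.card D) (by omega) D rfl (fun a ha => hA2 a (hDA ha))
    (fun a ha => hAK a (hDA ha)) (fun a ha => hfaithK a (hDA ha))
  rw [← hW] at hIH
  have h1 : 4 * Nat.card (fixV ρ Ab) ≤ Nat.card W := by
    calc 4 * Nat.card (fixV ρ Ab) ≤ (commHom ρ' b').ker.index * Nat.card (commHom ρ' b').ker :=
          Nat.mul_le_mul hidx4 hfixle
      _ = Nat.card W := by rw [mul_comm]; exact hcardW
  calc Nat.card Ab ^ 2 * Nat.card (fixV ρ Ab)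
      = Nat.card D ^ 2 * (4 * Nat.card (fixV ρ Ab)) := by rw [← hcardA]; ring
    _ ≤ Nat.card D ^ 2 * Nat.card W := Nat.mul_le_mul_left _ h1
    _ ≤ Nat.card V := hIH

end S3Free

section Concrete

/-- Conjugation action of the normalizer of a subgroup on that subgroup. -/
def conjNorm {X : Type*} [Group X] (V : Subgroup X) :
    ↥(Subgroup.normalizer (V : Set X)) →* MulAut V where
  toFun n :=
    { toFun := fun v => ⟨(n : X) * v * (n : X)⁻¹, (Subgroup.mem_normalizer_iff.1 n.2 v).1 v.2⟩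
      invFun := fun v => ⟨(n : X)⁻¹ * v * (n : X), by
        have h := (Subgroup.mem_normalizer_iff.1 (Subgroup.inv_mem _ n.2) (v : X)).1 v.2
        rwa [inv_inv] at h⟩
      left_inv := fun v => by
        apply Subtype.ext
        show (n : X)⁻¹ * ((n : X) * v * (n : X)⁻¹) * (n : X) = v
        group
      right_inv := fun v => by
        apply Subtype.ext
        show (n : X) * ((n : X)⁻¹ * v * (n : X)) * (n : X)⁻¹ = v
        group
      map_mul' := fun v w => by
        apply Subtype.ext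
        show (n : X) * ((v : X) * (w : X)) * (n : X)⁻¹ =
          ((n : X) * v * (n : X)⁻¹) * ((n : X) * w * (n : X)⁻¹)
        group }
  map_one' := by
    apply MulEquiv.ext
    intro v
    apply Subtype.ext
    show ((1 : ↥(Subgroup.normalizer (V : Set X))) : X) * (v : X) *
      ((1 : ↥(Subgroup.normalizer (V : Set X))) : X)⁻¹ = (v : X)
    rw [Subgroup.coe_one]; group
  map_mul' := fun n m => by
    apply MulEquiv.ext
    intro v
    apply Subtype.ext
    show ((n * m : ↥(Subgroup.normalizer (V : Set X))) : X) * (v : X) *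
      ((n * m : ↥(Subgroup.normalizer (V : Set X))) : X)⁻¹ =
      (n : X) * ((m : X) * (v : X) * (m : X)⁻¹) * (n : X)⁻¹
    rw [Subgroup.coe_mul]; group

theorem conjNorm_apply {X : Type*} [Group X] (V : Subgroup X)
    (n : ↥(Subgroup.normalizer (V : Set X))) (v : V) :
    ((conjNorm V n v : V) : X) = (n : X) * v * (n : X)⁻¹ := rfl

/-- A subgroup isomorphic to `L` shows that `L` is involved. -/
theorem involves_of_subgroup_equiv {G : Type*} [Group G] {L : Type*} [Group L] (K : Subgroup G)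
    (e : K ≃* L) : Cfsg.Involves L G := by
  have hb : (⊥ : Subgroup G).subgroupOf K = ⊥ := Subgroup.bot_subgroupOf K
  have hn : ((⊥ : Subgroup G).subgroupOf K).Normal := by rw [hb]; infer_instance
  refine ⟨K, ⊥, hn, ?_⟩
  exact ⟨(QuotientGroup.quotientMulEquivOfEq hb).trans (QuotientGroup.quotientBot.trans e)⟩

/-- An involution inverting an element of order three generates a copy of `S₃`. -/
theorem involves_S3_of_inverted {G : Type*} [Group G] (b y : G) (hbb : b * b = 1) (hy1 : y ≠ 1)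
    (hy3 : y ^ 3 = 1) (hby : b * y * b⁻¹ = y⁻¹) : Cfsg.Involves (Equiv.Perm (Fin 3)) G := by
  have hbi : b⁻¹ = b := inv_eq_self_of_sq hbb
  rw [hbi] at hby
  have he : (b * y) * (b * y) = 1 := by
    calc (b * y) * (b * y) = (b * y * b) * y := by group
      _ = 1 := by rw [hby, inv_mul_cancel]
  have hde : b * (b * y) = y := by rw [← mul_assoc, hbb, one_mul]
  have h3 : (b * (b * y)) ^ 3 = 1 := by rw [hde]; exact hy3
  have hne : b * (b * y) ≠ (b * y) * b := by
    rw [hde, hby]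
    intro h
    apply hy1
    have h2 : y * y = 1 := by
      calc y * y = y * y⁻¹ := by rw [← h]
        _ = 1 := mul_inv_cancel y
    calc y = y ^ 3 * (y * y)⁻¹ := by group
      _ = 1 := by rw [hy3, h2]; simp
  obtain ⟨e1⟩ := Cfsg.Agent.H10.nonempty_dihedral3_equiv_closure hbb he h3 hne
  obtain ⟨e2⟩ := Cfsg.Agent.H10.nonempty_dihedral3_equiv_perm
  exact involves_of_subgroup_equiv _ (e1.symm.trans e2)

/-- **`S₃`-free groups of odd type have no `2F`-offenders below the quadratic bound.** -/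
theorem involves_S3_of_small_index {X : Type*} [Group X] [Finite X] (M V : Subgroup X)
    (hV : Cfsg.IsElementaryAbelian 2 V) (hMV : M ≤ Subgroup.normalizer (V : Set X))
    (hfaith : M ⊓ Subgroup.centralizer (V : Set X) = ⊥)
    (hcon : Subgroup.centralizer (Cfsg.pPrimeCore 2 ↥M : Set ↥M) ≤ Cfsg.pPrimeCore 2 ↥M)
    (A : Subgroup X) (hAM : A ≤ M) (hA : Cfsg.IsElementaryAbelian 2 A)
    (hsmall : (V ⊓ Subgroup.centralizer (A : Set X)).relIndex V < Nat.card A ^ 2) :
    Cfsg.Involves (Equiv.Perm (Fin 3)) ↥M := by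
  classical
  haveI : Fact (Nat.Prime 2) := ⟨Nat.prime_two⟩
  by_contra hInv
  haveI hVc : IsMulCommutative V := hV.1
  letI : CommGroup V :=
    { (inferInstance : Group V) with
      mul_comm := fun x y => mul_comm' x y }
  obtain ⟨ρ, hρ⟩ : ∃ ρ : ↥M →* MulAut V, ρ = (conjNorm V).comp (Subgroup.inclusion hMV) :=
    ⟨_, rfl⟩
  have hρapp : ∀ (m : M) (v : V), ((ρ m v : V) : X) = (m : X) * v * (m : X)⁻¹ := by
    rw [hρ]; exact fun m v => rfl
  have hV2 : ∀ v : V, v * v = 1 := fun v => Subtype.ext (by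
    have := hV.2 v v.2
    rw [pow_two] at this
    exact this)
  have hKodd : ¬ 2 ∣ Nat.card (Cfsg.pPrimeCore 2 ↥M) := by
    have h1 := Cfsg.Agent.H14.pPrimeCore_coprime 2 ↥M
    intro h2
    have h3 : 2 ∣ Nat.gcd (Nat.card (Cfsg.pPrimeCore 2 ↥M)) 2 := Nat.dvd_gcd h2 dvd_rfl
    rw [Nat.Coprime] at h1
    rw [h1] at h3
    exact absurd h3 (by norm_num)
  have hfaithV : ∀ k ∈ Cfsg.pPrimeCore 2 ↥M, (∀ v, ρ k v = v) → k = 1 := by
    intro k _ hk
    have h1 : (k : X) ∈ M ⊓ Subgroup.centralizer (V : Set X) := by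
      refine Subgroup.mem_inf.2 ⟨k.2, ?_⟩
      rw [Subgroup.mem_centralizer_iff]
      intro v hv
      have h2 := congrArg Subtype.val (hk ⟨v, hv⟩)
      rw [hρapp] at h2
      have h3 : (k : X) * v = v * (k : X) := by
        calc (k : X) * v = ((k : X) * v * (k : X)⁻¹) * (k : X) := by group
          _ = v * (k : X) := by rw [h2]
      exact h3.symm
    rw [hfaith, Subgroup.mem_bot] at h1
    exact Subtype.ext h1
  have hno3 : ∀ b : ↥M, b * b = 1 → ∀ y ∈ Cfsg.pPrimeCore 2 ↥M, y ≠ 1 → y ^ 3 = 1 →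
      b * y * b⁻¹ ≠ y⁻¹ := by
    intro b hbb y _ hy1 hy3 hby
    exact hInv (involves_S3_of_inverted b y hbb hy1 hy3 hby)
  have hA2 : ∀ a ∈ A.subgroupOf M, a * a = 1 := by
    intro a ha
    apply Subtype.ext
    have := hA.2 (a : X) (Subgroup.mem_subgroupOf.1 ha)
    rw [pow_two] at this
    exact this
  have hAK : ∀ a ∈ A.subgroupOf M, ∀ k ∈ Cfsg.pPrimeCore 2 ↥M,
      a * k * a⁻¹ ∈ Cfsg.pPrimeCore 2 ↥M :=
    fun a _ k hk => (Cfsg.Agent.H14.pPrimeCore_normal 2 ↥M).conj_mem k hk a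
  have hfaithK : ∀ a ∈ A.subgroupOf M,
      (∀ k ∈ Cfsg.pPrimeCore 2 ↥M, a * k * a⁻¹ = k) → a = 1 := by
    intro a ha hc
    have h1 : a ∈ Subgroup.centralizer (Cfsg.pPrimeCore 2 ↥M : Set ↥M) := by
      rw [Subgroup.mem_centralizer_iff]
      intro k hk
      have h2 := hc k hk
      calc k * a = (a * k * a⁻¹) * a := by rw [h2]
        _ = a * k := by group
    have h2 : a ∈ Cfsg.pPrimeCore 2 ↥M := hcon h1
    have h3 : orderOf a ∣ 2 := orderOf_dvd_of_pow_eq_one (by rw [pow_two]; exact hA2 a ha)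
    have h4 : orderOf a ∣ Nat.card (Cfsg.pPrimeCore 2 ↥M) := by
      have h5 : orderOf (⟨a, h2⟩ : Cfsg.pPrimeCore 2 ↥M) ∣ Nat.card (Cfsg.pPrimeCore 2 ↥M) :=
        orderOf_dvd_natCard _
      rwa [Subgroup.orderOf_mk] at h5
    rcases (Nat.dvd_prime Nat.prime_two).1 h3 with h | h
    · exact orderOf_eq_one_iff.1 h
    · rw [h] at h4; exact absurd h4 hKodd
  have hmain := sq_card_mul_fix_le ρ hV2 (Cfsg.pPrimeCore 2 ↥M) hKodd hfaithV hno3 _
    (A.subgroupOf M) rfl hA2 hAK hfaithK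
  have hcardAb : Nat.card (A.subgroupOf M) = Nat.card A :=
    Nat.card_congr (Subgroup.subgroupOfEquivOfLe hAM).toEquiv
  have hfixcard : Nat.card (fixV ρ (A.subgroupOf M)) =
      Nat.card (V ⊓ Subgroup.centralizer (A : Set X) : Subgroup X) := by
    rw [← Subgroup.card_map_of_injective V.subtype_injective]
    congr 2
    ext v
    constructor
    · rintro ⟨w, hw, rfl⟩
      refine Subgroup.mem_inf.2 ⟨w.2, ?_⟩
      rw [Subgroup.mem_centralizer_iff]
      intro a ha
      have h2 := congrArg Subtype.val (hw ⟨a, hAM ha⟩ (Subgroup.mem_subgroupOf.2 ha))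
      rw [hρapp] at h2
      show a * (w : X) = (w : X) * a
      calc a * (w : X) = (a * (w : X) * a⁻¹) * a := by group
        _ = (w : X) * a := by rw [h2]
    · intro hv
      obtain ⟨hvV, hvA⟩ := Subgroup.mem_inf.1 hv
      refine ⟨⟨v, hvV⟩, ?_, rfl⟩
      intro a ha
      apply Subtype.ext
      rw [hρapp]
      show (a : X) * v * (a : X)⁻¹ = v
      have h1 : (a : X) * v = v * (a : X) :=
        Subgroup.mem_centralizer_iff.1 hvA (a : X) (Subgroup.mem_subgroupOf.1 ha)
      rw [h1]; group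
  have hrel := V12.card_mul_relIndex
    (inf_le_left : V ⊓ Subgroup.centralizer (A : Set X) ≤ V)
  rw [hcardAb, hfixcard] at hmain
  have hpos : 0 < Nat.card (V ⊓ Subgroup.centralizer (A : Set X) : Subgroup X) := Nat.card_pos
  rw [← hrel] at hmain
  have h5 : Nat.card (V ⊓ Subgroup.centralizer (A : Set X) : Subgroup X) *
      (V ⊓ Subgroup.centralizer (A : Set X)).relIndex V <
      Nat.card (V ⊓ Subgroup.centralizer (A : Set X) : Subgroup X) * Nat.card A ^ 2 :=
    Nat.mul_lt_mul_of_pos_left hsmall hpos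
  rw [mul_comm] at hmain
  omega

end Concrete

end Cfsg.Agent.H52
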