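import Mathlib
import Cfsg.Agent.H52.SmDefs

/-!
# S2772: assembly of the pieces
-/

set_option autoImplicit false

namespace Cfsg.Agent.H52.Sm

universe u

/-- Part A: `q = 3`. -/
theorem q3 (hJ : StJ.{u}) (hCV : StCV.{u}) (hTV : StTV.{u}) (hFin : StFin.{u}) : StQ3.{u} := by
  intro H _ _ M Q S t q hyp
  obtain ⟨A, hA, hAQ⟩ := hJ M Q S t q hyp
  obtain ⟨V, hV⟩ := hCV M Q S t q hyp
  obtain ⟨a, haA, haQ⟩ : ∃ a ∈ A, a ∉ Q := by
    by_contra hcon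
    push Not at hcon
    exact hAQ hcon
  exact hFin M Q S t q hyp V a hV (hA.1 haA) haQ (hTV M Q S t q hyp A V hA hV a haA)

/-- Part C: identification. -/
theorem id_main (hCard : StIdCard.{u}) (h24 : StId24.{u}) (hElem : StElem.{u})
    (h48 : StId48E.{u}) : StId.{u} := by
  intro M _ _ Q S hyp
  haveI := hyp.Qn
  rcases hCard M Q hyp.Qn hyp.cent hyp.dih hyp.sims with h4 | h8
  · exact Or.inl (h24 M Q hyp.Qn h4 hyp.cent hyp.dih)
  · right
    have hel := hElem M Q S hyp h8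
    obtain ⟨Q', hQ'S, hQ'ne, ⟨φ⟩⟩ := hyp.qconj
    have hcard : Nat.card Q' = Nat.card Q := (Nat.card_congr φ.toEquiv).symm
    have hnle : ¬ Q' ≤ Q := by
      intro hle
      exact hQ'ne (Subgroup.eq_of_le_of_card_ge hle (le_of_eq hcard.symm))
    obtain ⟨s, hsQ', hsQ⟩ : ∃ s ∈ Q', s ∉ Q := by
      by_contra hcon
      push Not at hcon
      exact hnle hcon
    have hss : s * s = 1 := by
      have h1 := hel (φ.symm ⟨s, hsQ'⟩) (φ.symm ⟨s, hsQ'⟩).2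
      have h2 : (φ.symm ⟨s, hsQ'⟩ * φ.symm ⟨s, hsQ'⟩ : ↥Q) = 1 := Subtype.ext h1
      have h3 : φ (φ.symm ⟨s, hsQ'⟩ * φ.symm ⟨s, hsQ'⟩) = 1 := by rw [h2, map_one]
      rw [map_mul, MulEquiv.apply_symm_apply] at h3
      exact congrArg Subtype.val h3
    exact h48 M Q hyp.Qn h8 hel hyp.cent hyp.dih ⟨s, hsQ, hss⟩

/-- The frozen statement from the six top-level pieces. -/
theorem main (hTwo : StTwo.{u}) (hSetup : StSetup.{u}) (hQ3 : StQ3.{u}) (hSims : StSims.{u})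
    (hIdSetup : StIdSetup.{u}) (hId : StId.{u})
    {H : Type u} [Group H] [Finite H] [IsSimpleGroup H] (G : Subgroup H) (hG : IsCoatom G)
    (hchar : Subgroup.centralizer (Cfsg.pCore 2 ↥G : Set ↥G) ≤ Cfsg.pCore 2 ↥G)
    (S : Sylow 2 ↥G)
    (hN : ¬ Subgroup.normalizer (((S : Subgroup ↥G).map G.subtype : Subgroup H) : Set H) ≤ G)
    (q : ℕ) (hq : q.Prime) (hD : Nonempty (↥G ⧸ Cfsg.pCore 2 ↥G ≃* DihedralGroup q)) :
    Nonempty (↥G ≃* Equiv.Perm (Fin 4)) ∨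
      Nonempty (↥G ≃* Equiv.Perm (Fin 4) × Multiplicative (ZMod 2)) := by
  have h2 := hTwo G hG S hN q hD
  obtain ⟨t, htG, hyp⟩ := hSetup G hG hchar S hN q hq h2 hD
  have h3 : q = 3 := hQ3 _ _ _ t q hyp
  subst h3
  have hs := hSims G _ _ t hG htG hyp
  exact hId ↥G _ _ (hIdSetup G _ _ t hyp hs)

end Cfsg.Agent.H52.Sm
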